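import Mathlib
import Cfsg.Prelude.Def_GeometricClasses
import Cfsg.Agent.Lib.Helper71.Asch0
import Cfsg.Agent.Lib.Helper86.ASB8Defs

/-!
# S5630 piece B8.INN (project of helper71 / helper86; proof by helper83)

Skolem–Noether for a tensor factor.
-/

set_option autoImplicit false
set_option linter.style.haveILetI false
set_option linter.unusedVariables false

namespace Cfsg.Agent.Lib.Helper83.ASB8INN

open Matrix Cfsg.Geo Cfsg.Agent.Lib.Helper71.Asch Cfsg.Agent.Lib.Helper86.ASB8

variable {F : Type*} [Field F]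

theorem iota_add' {m k : ℕ} (i : Fin k) (A B : Matrix (Fin m) (Fin m) F) :
    iota i (A + B) = iota i A + iota i B := by
  ext x y
  rw [Matrix.add_apply, iota_apply, iota_apply, iota_apply]
  split_ifs
  · rw [Matrix.add_apply]
  · rw [add_zero]

theorem iota_smul' {m k : ℕ} (i : Fin k) (c : F) (A : Matrix (Fin m) (Fin m) F) :
    iota i (c • A) = c • iota i A := by
  ext x y
  rw [Matrix.smul_apply, iota_apply, iota_apply]
  split_ifs
  · rw [Matrix.smul_apply]
  · rw [smul_zero]

theorem iota_zero' {m k : ℕ} (i : Fin k) : iota i (0 : Matrix (Fin m) (Fin m) F) = 0 := by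
  ext x y
  rw [iota_apply]
  simp

theorem iota_one' {m k : ℕ} (i : Fin k) : iota i (1 : Matrix (Fin m) (Fin m) F) = 1 := by
  ext x y
  rw [iota_apply, Matrix.one_apply, Matrix.one_apply]
  by_cases hxy : x = y
  · subst hxy; simp
  · rw [if_neg hxy]
    by_cases h : ∀ j, j ≠ i → x j = y j
    · rw [if_pos h, if_neg]
      intro hi
      apply hxy
      funext j
      by_cases hj : j = i
      · subst hj; exact hi
      · exact h j hj
    · rw [if_neg h]

theorem iota_inj' {m k : ℕ} (i : Fin k) : Function.Injective (iota (F := F) (m := m) i) := by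
  intro A B h
  ext a b
  have h1 := congrFun (congrFun h (fun _ => a)) (Function.update (fun _ => a) i b)
  have hc : ∀ j, j ≠ i → (fun _ : Fin k => a) j = Function.update (fun _ : Fin k => a) i b j :=
    fun j hj => by rw [Function.update_of_ne hj]
  rw [iota_apply, iota_apply, if_pos hc, if_pos hc] at h1
  simpa using h1

theorem iota_mul' {m k : ℕ} (i : Fin k) (A B : Matrix (Fin m) (Fin m) F) :
    iota i (A * B) = iota i A * iota i B := by
  classical
  ext x y
  rw [Matrix.mul_apply, iota_apply]
  by_cases h : ∀ j, j ≠ i → x j = y j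
  · rw [if_pos h, Matrix.mul_apply]
    symm
    have himg : ∀ z ∈ (Finset.univ : Finset (Fin k → Fin m)),
        z ∉ Finset.univ.image (fun c => Function.update x i c) →
        iota i A x z * iota i B z y = 0 := by
      intro z _ hz
      rw [iota_apply]
      by_cases hz2 : ∀ j, j ≠ i → x j = z j
      · exfalso
        apply hz
        rw [Finset.mem_image]
        refine ⟨z i, Finset.mem_univ _, ?_⟩
        funext j
        by_cases hj : j = i
        · subst hj; rw [Function.update_self]
        · rw [Function.update_of_ne hj]; exact hz2 j hj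
      · rw [if_neg hz2, zero_mul]
    rw [← Finset.sum_subset (Finset.subset_univ _) himg]
    rw [Finset.sum_image]
    · apply Finset.sum_congr rfl
      intro c _
      rw [iota_apply, iota_apply, if_pos, if_pos, Function.update_self]
      · intro j hj; rw [Function.update_of_ne hj]; exact h j hj
      · intro j hj; rw [Function.update_of_ne hj]
    · intro c _ c' _ hcc
      have h3 : Function.update x i c i = Function.update x i c' i := congrFun hcc i
      rwa [Function.update_self, Function.update_self] at h3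
  · rw [if_neg h]
    symm
    apply Finset.sum_eq_zero
    intro z _
    rw [iota_apply, iota_apply]
    by_cases h1 : ∀ j, j ≠ i → x j = z j
    · by_cases h2 : ∀ j, j ≠ i → z j = y j
      · exact absurd (fun j hj => (h1 j hj).trans (h2 j hj)) h
      · rw [if_neg h2, mul_zero]
    · rw [if_neg h1, zero_mul]

/-- B8.INN: Skolem–Noether for a tensor factor. -/
theorem inner {m k : ℕ} (hm : 1 ≤ m) (i j : Fin k) (g : GL (Fin k → Fin m) F)
    (hg : ∀ A : Matrix (Fin m) (Fin m) F, ∃ A' : Matrix (Fin m) (Fin m) F,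
      g.1 * iota i A * (g⁻¹ : GL (Fin k → Fin m) F).1 = iota j A')
    (hmu : ∀ E : Fin m → Fin m → Matrix (Fin m) (Fin m) F, IsMU E →
      (∀ M : Matrix (Fin m) (Fin m) F, (∀ x y, M * E x y = E x y * M) →
        ∃ c : F, M = c • (1 : Matrix (Fin m) (Fin m) F)) →
      ∃ (P : Matrix (Fin m) (Fin m) F) (Q : Matrix (Fin m) (Fin m) F), P * Q = 1 ∧ Q * P = 1 ∧
        ∀ x y, E x y = P * Matrix.single x y (1 : F) * Q) :
    ∃ c : GL (Fin m) F, ∀ A : Matrix (Fin m) (Fin m) F,
      g.1 * iota i A * (g⁻¹ : GL (Fin k → Fin m) F).1 =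
        iota j (c.1 * A * (c⁻¹ : GL (Fin m) F).1) := by
  classical
  choose φ hφ using hg
  have hginv : (g⁻¹ : GL (Fin k → Fin m) F).1 * g.1 = 1 := by
    rw [← Units.val_mul, inv_mul_cancel, Units.val_one]
  have hginv' : g.1 * (g⁻¹ : GL (Fin k → Fin m) F).1 = 1 := by
    rw [← Units.val_mul, mul_inv_cancel, Units.val_one]
  have hadd : ∀ A B, φ (A + B) = φ A + φ B := by
    intro A B
    apply iota_inj' j
    rw [iota_add', ← hφ, ← hφ, ← hφ, iota_add', mul_add, add_mul]
  have hsmul : ∀ (c : F) A, φ (c • A) = c • φ A := by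
    intro c A
    apply iota_inj' j
    rw [iota_smul', ← hφ, ← hφ, iota_smul', Matrix.mul_smul, Matrix.smul_mul]
  have hmul : ∀ A B, φ (A * B) = φ A * φ B := by
    intro A B
    apply iota_inj' j
    rw [iota_mul', ← hφ, ← hφ, ← hφ, iota_mul']
    calc g.1 * (iota i A * iota i B) * (g⁻¹ : GL (Fin k → Fin m) F).1
        = g.1 * iota i A * ((g⁻¹ : GL (Fin k → Fin m) F).1 * g.1) * iota i B *
            (g⁻¹ : GL (Fin k → Fin m) F).1 := by
          rw [hginv, Matrix.mul_one]; simp only [Matrix.mul_assoc]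
      _ = _ := by simp only [Matrix.mul_assoc]
  have hone : φ 1 = 1 := by
    apply iota_inj' j
    rw [← hφ, iota_one', iota_one', Matrix.mul_one, hginv']
  have hinj : ∀ A, φ A = 0 → A = 0 := by
    intro A hA
    apply iota_inj' i
    rw [iota_zero']
    have h1 := hφ A
    rw [hA, iota_zero'] at h1
    have h2 : (g⁻¹ : GL (Fin k → Fin m) F).1 *
        (g.1 * iota i A * (g⁻¹ : GL (Fin k → Fin m) F).1) * g.1 = 0 := by
      rw [h1, Matrix.mul_zero, Matrix.zero_mul]
    calc iota i A = ((g⁻¹ : GL (Fin k → Fin m) F).1 * g.1) * iota i A *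
          ((g⁻¹ : GL (Fin k → Fin m) F).1 * g.1) := by
          rw [hginv, Matrix.one_mul, Matrix.mul_one]
      _ = (g⁻¹ : GL (Fin k → Fin m) F).1 *
          (g.1 * iota i A * (g⁻¹ : GL (Fin k → Fin m) F).1) * g.1 := by
          simp only [Matrix.mul_assoc]
      _ = 0 := h2
  let Φ : Matrix (Fin m) (Fin m) F →ₗ[F] Matrix (Fin m) (Fin m) F :=
    { toFun := φ, map_add' := hadd, map_smul' := fun c A => by simpa using hsmul c A }
  have hΦ : ∀ A, Φ A = φ A := fun A => rfl
  have hΦinj : Function.Injective Φ := by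
    rw [injective_iff_map_eq_zero]
    intro A hA
    exact hinj A hA
  have hΦsurj : Function.Surjective Φ := LinearMap.injective_iff_surjective.mp hΦinj
  let E' : Fin m → Fin m → Matrix (Fin m) (Fin m) F := fun a b => φ (Matrix.single a b 1)
  have hE' : ∀ a b, E' a b = φ (Matrix.single a b 1) := fun a b => rfl
  have hMU : IsMU E' := by
    refine ⟨?_, ?_⟩
    · intro x y z w
      rw [hE', hE', ← hmul]
      by_cases hyz : y = z
      · subst hyz
        rw [if_pos rfl, Matrix.single_mul_single_same, mul_one]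
      · rw [if_neg hyz, Matrix.single_mul_single_of_ne _ _ _ _ hyz]
        exact map_zero Φ
    · have h1 : ∑ x, Φ (Matrix.single x x (1 : F)) = Φ (∑ x, Matrix.single x x (1 : F)) :=
        (map_sum Φ _ _).symm
      rw [Matrix.sum_single_one] at h1
      exact h1.trans hone
  have hAsum : ∀ A : Matrix (Fin m) (Fin m) F,
      A = ∑ a, ∑ b, A a b • Matrix.single a b (1 : F) := by
    intro A
    conv_lhs => rw [Matrix.matrix_eq_sum_single A]
    refine Finset.sum_congr rfl fun a _ => Finset.sum_congr rfl fun b _ => ?_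
    rw [Matrix.smul_single, smul_eq_mul, mul_one]
  have hφA : ∀ A : Matrix (Fin m) (Fin m) F, φ A = ∑ a, ∑ b, A a b • E' a b := by
    intro A
    conv_lhs => rw [hAsum A]
    rw [← hΦ, map_sum]
    refine Finset.sum_congr rfl fun a _ => ?_
    rw [map_sum]
    refine Finset.sum_congr rfl fun b _ => ?_
    rw [map_smul]
    rfl
  have hcomm : ∀ M : Matrix (Fin m) (Fin m) F, (∀ x y, M * E' x y = E' x y * M) →
      ∃ c : F, M = c • (1 : Matrix (Fin m) (Fin m) F) := by
    intro M hM
    have h1 : ∀ A, M * φ A = φ A * M := by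
      intro A
      rw [hφA, Finset.mul_sum, Finset.sum_mul]
      refine Finset.sum_congr rfl fun a _ => ?_
      rw [Finset.mul_sum, Finset.sum_mul]
      refine Finset.sum_congr rfl fun b _ => ?_
      rw [Matrix.mul_smul, Matrix.smul_mul, hM]
    have h2 : ∀ N, M * N = N * M := by
      intro N
      obtain ⟨A, rfl⟩ := hΦsurj N
      exact h1 A
    have h3 : M ∈ Set.range (Matrix.scalar (Fin m)) := by
      apply Matrix.mem_range_scalar_of_commute_single
      intro a b _
      exact (h2 _).symm
    obtain ⟨c, hc⟩ := h3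
    refine ⟨c, ?_⟩
    rw [← hc]
    ext a b
    simp [Matrix.scalar_apply, Matrix.diagonal_apply, Matrix.one_apply]
  obtain ⟨P, Q, hPQ, hQP, hE⟩ := hmu E' hMU hcomm
  refine ⟨⟨P, Q, hPQ, hQP⟩, ?_⟩
  intro A
  rw [hφ A]
  show iota j (φ A) = iota j (P * A * Q)
  congr 1
  rw [hφA A]
  conv_rhs => rw [hAsum A]
  rw [Finset.mul_sum, Finset.sum_mul]
  refine Finset.sum_congr rfl fun a _ => ?_
  rw [Finset.mul_sum, Finset.sum_mul]
  refine Finset.sum_congr rfl fun b _ => ?_
  rw [Matrix.mul_smul, Matrix.smul_mul, hE]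

end Cfsg.Agent.Lib.Helper83.ASB8INN
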