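import Mathlib
import Cfsg.Prelude.Def_GeometricClasses
import Cfsg.Agent.Lib.Helper71.Asch0
import Cfsg.Agent.Lib.Helper86.ASB8Defs

/-!
# S5630 piece B8.SC (project of helper71 / helper86; proof by helper83)

The commutant of all tensor factors `iota i A` consists of scalar matrices.
-/

set_option autoImplicit false
set_option linter.style.haveILetI false
set_option linter.unusedVariables false

namespace Cfsg.Agent.Lib.Helper83.ASB8SC

open Matrix Cfsg.Geo Cfsg.Agent.Lib.Helper71.Asch Cfsg.Agent.Lib.Helper86.ASB8

variable {F : Type*} [Field F]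

theorem iota_single_apply {m k : ℕ} (i : Fin k) (a b : Fin m) (z w : Fin k → Fin m) :
    iota i (Matrix.single a b (1 : F)) z w =
      if (∀ j, j ≠ i → z j = w j) ∧ z i = a ∧ w i = b then 1 else 0 := by
  rw [iota_apply, Matrix.single_apply]
  by_cases h : ∀ j, j ≠ i → z j = w j
  · rw [if_pos h]
    by_cases h2 : a = z i ∧ b = w i
    · rw [if_pos h2, if_pos ⟨h, h2.1.symm, h2.2.symm⟩]
    · rw [if_neg h2, if_neg]
      rintro ⟨-, h3, h4⟩
      exact h2 ⟨h3.symm, h4.symm⟩
  · rw [if_neg h, if_neg]
    rintro ⟨h3, -⟩
    exact h h3

theorem mul_iota_single {m k : ℕ} (u : Matrix (Fin k → Fin m) (Fin k → Fin m) F)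
    (i : Fin k) (a b : Fin m) (x y : Fin k → Fin m) :
    (u * iota i (Matrix.single a b (1 : F))) x y =
      if y i = b then u x (Function.update y i a) else 0 := by
  classical
  rw [Matrix.mul_apply]
  by_cases hb : y i = b
  · rw [if_pos hb, Finset.sum_eq_single (Function.update y i a)]
    · rw [iota_single_apply, if_pos, mul_one]
      exact ⟨fun j hj => by rw [Function.update_of_ne hj], by rw [Function.update_self], hb⟩
    · intro z _ hz
      rw [iota_single_apply, if_neg, mul_zero]
      rintro ⟨h1, h2, h3⟩
      apply hz
      funext j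
      by_cases hj : j = i
      · subst hj; rw [Function.update_self]; exact h2
      · rw [Function.update_of_ne hj]; exact h1 j hj
    · intro h; exact absurd (Finset.mem_univ _) h
  · rw [if_neg hb]
    apply Finset.sum_eq_zero
    intro z _
    rw [iota_single_apply, if_neg, mul_zero]
    rintro ⟨h1, h2, h3⟩
    exact hb h3

theorem iota_single_mul {m k : ℕ} (u : Matrix (Fin k → Fin m) (Fin k → Fin m) F)
    (i : Fin k) (a b : Fin m) (x y : Fin k → Fin m) :
    (iota i (Matrix.single a b (1 : F)) * u) x y =
      if x i = a then u (Function.update x i b) y else 0 := by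
  classical
  rw [Matrix.mul_apply]
  by_cases ha : x i = a
  · rw [if_pos ha, Finset.sum_eq_single (Function.update x i b)]
    · rw [iota_single_apply, if_pos, one_mul]
      exact ⟨fun j hj => by rw [Function.update_of_ne hj], ha, by rw [Function.update_self]⟩
    · intro z _ hz
      rw [iota_single_apply, if_neg, zero_mul]
      rintro ⟨h1, h2, h3⟩
      apply hz
      funext j
      by_cases hj : j = i
      · subst hj; rw [Function.update_self]; exact h3
      · rw [Function.update_of_ne hj]; exact (h1 j hj).symm
    · intro h; exact absurd (Finset.mem_univ _) h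
  · rw [if_neg ha]
    apply Finset.sum_eq_zero
    intro z _
    rw [iota_single_apply, if_neg, zero_mul]
    rintro ⟨h1, h2, h3⟩
    exact ha h2

/-- B8.SC: the commutant of all tensor factors consists of scalars. -/
theorem comm_scalar {m k : ℕ} (u : Matrix (Fin k → Fin m) (Fin k → Fin m) F)
    (hu : ∀ (i : Fin k) (A : Matrix (Fin m) (Fin m) F), u * iota i A = iota i A * u) :
    ∃ c : F, u = c • (1 : Matrix (Fin k → Fin m) (Fin k → Fin m) F) := by
  classical
  have key : ∀ (i : Fin k) (a b : Fin m) (x y : Fin k → Fin m),
      (if y i = b then u x (Function.update y i a) else 0) =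
      (if x i = a then u (Function.update x i b) y else 0) := by
    intro i a b x y
    rw [← mul_iota_single, ← iota_single_mul, hu]
  have hdiag : ∀ x y : Fin k → Fin m, x ≠ y → u x y = 0 := by
    intro x y hxy
    obtain ⟨i, hi⟩ : ∃ i, x i ≠ y i := by
      by_contra h
      apply hxy
      funext i
      by_contra hi
      exact h ⟨i, hi⟩
    have h1 := key i (y i) (y i) x y
    rw [if_pos rfl, if_neg hi, Function.update_eq_self] at h1
    exact h1
  have hstep : ∀ (i : Fin k) (b : Fin m) (x : Fin k → Fin m),
      u x x = u (Function.update x i b) (Function.update x i b) := by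
    intro i b x
    have h1 := key i (x i) b x (Function.update x i b)
    rw [if_pos (Function.update_self _ _ _), if_pos rfl, Function.update_idem,
      Function.update_eq_self] at h1
    exact h1
  have hall : ∀ (s : Finset (Fin k)) (x y : Fin k → Fin m),
      (∀ j, j ∉ s → x j = y j) → u x x = u y y := by
    intro s
    induction s using Finset.induction_on with
    | empty =>
      intro x y h
      have : x = y := funext fun j => h j (Finset.notMem_empty j)
      rw [this]
    | insert a s ha ih =>
      intro x y h
      rw [hstep a (y a) x]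
      apply ih
      intro j hj
      by_cases hja : j = a
      · subst hja; rw [Function.update_self]
      · rw [Function.update_of_ne hja]
        exact h j (by simp [hja, hj])
  rcases isEmpty_or_nonempty (Fin k → Fin m) with he | ⟨⟨x₀⟩⟩
  · exact ⟨0, by ext x; exact (he.false x).elim⟩
  · refine ⟨u x₀ x₀, ?_⟩
    ext x y
    rw [Matrix.smul_apply, Matrix.one_apply]
    by_cases hxy : x = y
    · subst hxy
      rw [if_pos rfl, smul_eq_mul, mul_one]
      exact hall Finset.univ x x₀ (fun j hj => absurd (Finset.mem_univ j) hj)
    · rw [if_neg hxy, smul_zero]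
      exact hdiag x y hxy

end Cfsg.Agent.Lib.Helper83.ASB8SC
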