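import Mathlib
import Cfsg.Prelude.Def_GeometricClasses
import Cfsg.Agent.Lib.Helper71.Asch0
import Cfsg.Agent.Lib.Helper86.ASB8Defs

/-!
# S5630 piece B8.BURN (project of helper71 / helper86; proof by helper83)

Burnside's theorem: an absolutely irreducible matrix group spans the full matrix algebra.
Proof via Mathlib's Jacobson density theorem.
-/

set_option autoImplicit false
set_option linter.style.haveILetI false
set_option linter.unusedVariables false

namespace Cfsg.Agent.Lib.Helper83.ASB8BURN

open Matrix Cfsg.Geo Cfsg.Agent.Lib.Helper71.Asch Cfsg.Agent.Lib.Helper86.ASB8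

variable {F : Type*} [Field F]

/-- B8.BURN: Burnside's theorem: an absolutely irreducible group spans the matrix algebra. -/
theorem burnside {d : ℕ} (R : Subgroup (GL (Fin d) F))
    (hR : ActsAbsolutelyIrreducibly (matrixSet R)) :
    Submodule.span F (matrixSet R) = ⊤ := by
  classical
  rcases Nat.eq_zero_or_pos d with rfl | hd
  · rw [eq_top_iff]; intro x _; rw [Subsingleton.elim x 0]; exact zero_mem _
  haveI : NeZero d := ⟨hd.ne'⟩
  let T : Set (Module.End F (Fin d → F)) := Matrix.toLin' '' matrixSet R
  let A : Subalgebra F (Module.End F (Fin d → F)) := Algebra.adjoin F T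
  have hsmul : ∀ (a : A) (v : Fin d → F), a • v = (a : Module.End F (Fin d → F)) v :=
    fun a v => rfl
  have halg : ∀ (c : F) (v : Fin d → F), (algebraMap F A c) • v = c • v := by
    intro c v
    rw [hsmul]
    simp
  have hTmem : ∀ s ∈ matrixSet R, Matrix.toLin' s ∈ A := fun s hs =>
    Algebra.subset_adjoin ⟨s, hs, rfl⟩
  -- Step 1: `V` is a simple `A`-module
  haveI hsimple : IsSimpleModule A (Fin d → F) := by
    rw [isSimpleModule_iff]
    refine { exists_pair_ne := ⟨⊥, ⊤, bot_ne_top⟩, eq_bot_or_eq_top := ?_ }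
    intro W
    let W' : Submodule F (Fin d → F) :=
      { carrier := W
        add_mem' := fun ha hb => W.add_mem ha hb
        zero_mem' := W.zero_mem
        smul_mem' := fun c v hv => by
          have := W.smul_mem (algebraMap F A c) hv
          rwa [halg] at this }
    have hinv : ∀ s ∈ matrixSet R, W'.map (Matrix.toLin' s) ≤ W' := by
      intro s hs v hv
      obtain ⟨w, hw, rfl⟩ := hv
      have := W.smul_mem (⟨Matrix.toLin' s, hTmem s hs⟩ : A) hw
      exact this
    rcases hR.1 W' hinv with h | h
    · left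
      ext v
      have : v ∈ W' ↔ v ∈ (⊥ : Submodule F (Fin d → F)) := by rw [h]
      simpa [W'] using this
    · right
      ext v
      have : v ∈ W' ↔ v ∈ (⊤ : Submodule F (Fin d → F)) := by rw [h]
      simpa [W'] using this
  -- Step 2: `A`-endomorphisms are scalars
  have hsc : ∀ φ : Module.End A (Fin d → F), ∃ c : F, ∀ v, φ v = c • v := by
    intro φ
    let φF : (Fin d → F) →ₗ[F] (Fin d → F) :=
      { toFun := φ
        map_add' := φ.map_add
        map_smul' := fun c v => by
          simp only [RingHom.id_apply]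
          rw [← halg c v, φ.map_smul, halg] }
    have hcomm : ∀ s ∈ matrixSet R,
        LinearMap.toMatrix' φF * s = s * LinearMap.toMatrix' φF := by
      intro s hs
      apply Matrix.toLin'.injective
      rw [Matrix.toLin'_mul, Matrix.toLin'_mul, Matrix.toLin'_toMatrix']
      apply LinearMap.ext
      intro v
      show φ (Matrix.toLin' s v) = Matrix.toLin' s (φ v)
      exact φ.map_smul (⟨Matrix.toLin' s, hTmem s hs⟩ : A) v
    obtain ⟨c, hc⟩ := hR.2 _ hcomm
    refine ⟨c, fun v => ?_⟩
    have h1 : φF = Matrix.toLin' (c • (1 : Matrix (Fin d) (Fin d) F)) := by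
      rw [← hc, Matrix.toLin'_toMatrix']
    have h2 : φF v = Matrix.toLin' (c • (1 : Matrix (Fin d) (Fin d) F)) v := by rw [h1]
    have h3 : φF v = φ v := rfl
    rw [h3] at h2
    simpa using h2
  -- Step 3: density
  have htop : ∀ f : Module.End F (Fin d → F), f ∈ A := by
    intro f
    let f' : Module.End (Module.End A (Fin d → F)) (Fin d → F) :=
      { toFun := f
        map_add' := f.map_add
        map_smul' := fun φ v => by
          obtain ⟨c, hc⟩ := hsc φ
          simp only [RingHom.id_apply]
          show f (φ v) = φ (f v)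
          rw [hc v, hc (f v), f.map_smul] }
    obtain ⟨a, ha⟩ := jacobson_density (R := A) (M := Fin d → F) f'
      (Finset.univ.image (fun i : Fin d => (Pi.single i (1:F) : Fin d → F)))
    have : f = (a : Module.End F (Fin d → F)) := by
      apply LinearMap.pi_ext'
      intro i
      apply LinearMap.ext_ring
      simp only [LinearMap.coe_comp, LinearMap.coe_single, Function.comp_apply]
      exact ha (Pi.single i 1) (Finset.mem_image_of_mem _ (Finset.mem_univ i))
    rw [this]; exact a.2
  -- Step 4: back to matrices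
  have hspan_mul : ∀ X ∈ Submodule.span F (matrixSet R), ∀ Y ∈ Submodule.span F (matrixSet R),
      X * Y ∈ Submodule.span F (matrixSet R) := by
    intro X hX Y hY
    have h1 : X * Y ∈ Submodule.span F (matrixSet R) * Submodule.span F (matrixSet R) :=
      Submodule.mul_mem_mul hX hY
    rw [Submodule.span_mul_span] at h1
    refine Submodule.span_mono ?_ h1
    rintro _ ⟨x, ⟨g, hg, rfl⟩, y, ⟨h, hh, rfl⟩, rfl⟩
    exact ⟨g * h, R.mul_mem hg hh, rfl⟩
  have h1mem : (1 : Matrix (Fin d) (Fin d) F) ∈ Submodule.span F (matrixSet R) :=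
    Submodule.subset_span ⟨1, R.one_mem, rfl⟩
  have hAsub : ∀ x ∈ A, ∃ X ∈ Submodule.span F (matrixSet R), Matrix.toLin' X = x := by
    intro x hx
    induction hx using Algebra.adjoin_induction with
    | mem x hx =>
      obtain ⟨s, hs, rfl⟩ := hx
      exact ⟨s, Submodule.subset_span hs, rfl⟩
    | algebraMap c =>
      refine ⟨c • 1, Submodule.smul_mem _ c h1mem, ?_⟩
      apply LinearMap.ext
      intro v
      simp
    | add x y _ _ hx hy =>
      obtain ⟨X, hX, rfl⟩ := hx
      obtain ⟨Y, hY, rfl⟩ := hy
      exact ⟨X + Y, Submodule.add_mem _ hX hY, map_add _ _ _⟩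
    | mul x y _ _ hx hy =>
      obtain ⟨X, hX, rfl⟩ := hx
      obtain ⟨Y, hY, rfl⟩ := hy
      exact ⟨X * Y, hspan_mul X hX Y hY, Matrix.toLin'_mul X Y⟩
  rw [eq_top_iff]
  intro N _
  obtain ⟨X, hX, hXN⟩ := hAsub (Matrix.toLin' N) (htop _)
  have : X = N := Matrix.toLin'.injective hXN
  rw [← this]; exact hX

end Cfsg.Agent.Lib.Helper83.ASB8BURN
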