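import Mathlib
import Cfsg.Prelude.Def_Solvable
import Cfsg.Prelude.Def_Local
import Cfsg.Agent.Lib.Helper18.TLDefs

/-!
# S3797 piece TL-PLX2 (project of helper18; proof by helper83)
-/

set_option autoImplicit false
set_option linter.style.haveILetI false
set_option linter.unusedVariables false

namespace Cfsg.Agent.Lib.Helper18.TL

open Subgroup
open scoped commutatorElement

universe u

variable {G : Type u} [Group G]

theorem pl_of_sylow_normal [Finite G] (S : Sylow 2 G) (h : (S : Subgroup G).Normal) :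
    PL (⊤ : Subgroup G) := by
  haveI := h
  haveI : Fact (Nat.Prime 2) := ⟨Nat.prime_two⟩
  apply Cfsg.Agent.Lib.Helper72.ZG.PL1_of_pcomp (V := (S : Subgroup G)) le_top
    Cfsg.Agent.Lib.Helper72.ZG.le_normalizer_of_normal' S.2
  intro x _
  refine ⟨(S : Subgroup G).index, ?_, Subgroup.pow_index_mem _ x⟩
  exact (Nat.Prime.coprime_iff_not_dvd Nat.prime_two).2 S.not_dvd_index |>.symm

theorem plength_of_PL_top [Finite G] (h : PL (⊤ : Subgroup G)) : Cfsg.PLengthLE 2 1 G := by
  obtain ⟨A, B, hAB, hBK, hKA, hKB, hA, hB, hK⟩ := h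
  apply Cfsg.Agent.S3790.plength_of_chain 2 Nat.prime_two 1
  haveI hAn : A.Normal :=
    Cfsg.Agent.Lib.Helper72.ZG.normal_of_forall_mem_normalizer (fun g => hKA (mem_top g))
  haveI hBn : B.Normal :=
    Cfsg.Agent.Lib.Helper72.ZG.normal_of_forall_mem_normalizer (fun g => hKB (mem_top g))
  refine ⟨fun n => match n with
    | 0 => ⊥
    | 1 => A
    | 2 => B
    | _ => ⊤, rfl, rfl, ?_, ?_, ?_⟩
  · intro n
    rcases n with _ | _ | _ | n
    · exact (inferInstance : (⊥ : Subgroup G).Normal)
    · exact hAn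
    · exact hBn
    · exact (inferInstance : (⊤ : Subgroup G).Normal)
  · intro n
    rcases n with _ | _ | _ | n
    · exact bot_le
    · exact hAB
    · exact le_top
    · exact le_top
  · intro n
    rcases n with _ | _ | _ | n
    · intro x hx
      obtain ⟨m, hm, hxm⟩ := hA x hx
      refine ⟨m, ?_, ?_⟩
      · show m ∈ Cfsg.Agent.S3790.stepSet 2 0
        unfold Cfsg.Agent.S3790.stepSet
        rw [if_pos (by decide)]
        exact hm
      · show x ^ m ∈ (⊥ : Subgroup G)
        rw [mem_bot]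
        exact hxm
    · intro x hx
      obtain ⟨k, hk⟩ := hB x hx
      refine ⟨2 ^ k, ?_, ?_⟩
      · show 2 ^ k ∈ Cfsg.Agent.S3790.stepSet 2 1
        unfold Cfsg.Agent.S3790.stepSet
        rw [if_neg (by decide)]
        exact ⟨k, rfl⟩
      · exact hk
    · intro x _
      obtain ⟨m, hm, hxm⟩ := hK x (mem_top x)
      refine ⟨m, ?_, ?_⟩
      · show m ∈ Cfsg.Agent.S3790.stepSet 2 2
        unfold Cfsg.Agent.S3790.stepSet
        rw [if_pos (by decide)]
        exact hm
      · exact hxm
    · exact Cfsg.Agent.S3790.isStep_refl _ (Cfsg.Agent.S3790.stepSet_one 2 _) _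

end Cfsg.Agent.Lib.Helper18.TL
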