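import Mathlib
import Cfsg.Prelude.Def_Blocks
import Cfsg.Agent.Lib.Helper22.SchurSum
import Cfsg.Agent.Lib.Helper83.IrrBasic

/-!
# TG project, piece ORTH (helper83)

`orth_res`: if the irreducible character `f` of `K ≤ H` is not a constituent of the restriction
of `ξ ∈ Irr(H)`, then `∑_{y ∈ K} ξ(y x) f(y⁻¹) = 0` for every `x ∈ H`.
-/

set_option autoImplicit false
set_option linter.unusedSectionVars false
set_option linter.style.haveILetI false
set_option linter.unusedVariables false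

namespace Cfsg.Agent.Lib.Helper83.TG

open scoped ComplexConjugate
open Cfsg Cfsg.Agent.Lib

/-- the convolution identity `∑_w χ(w⁻¹) χ(w y) = (|A| / χ(1)) χ(y)` for an irreducible
character -/
theorem irr_conv {A : Type*} [Group A] [Fintype A] (χ : IrrCharacter A) (y : A) :
    ∑ w : A, (χ : A → ℂ) w⁻¹ * (χ : A → ℂ) (w * y) =
      (Nat.card A : ℂ) / (χ : A → ℂ) 1 * (χ : A → ℂ) y := by
  have hcf : IsClassFunction A (fun w => (χ : A → ℂ) w⁻¹) := by
    intro g h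
    show (χ : A → ℂ) (h * g * h⁻¹)⁻¹ = (χ : A → ℂ) g⁻¹
    have h1 : (h * g * h⁻¹)⁻¹ = h * g⁻¹ * h⁻¹ := by group
    rw [h1]
    exact Helper83.irr_classFunction χ.2 g⁻¹ h
  have h1 := Helper22.sum_classFn_mul_irr χ (fun w => (χ : A → ℂ) w⁻¹) hcf y
  rw [h1, Helper21.omega_def]
  congr 2
  have h2 := Helper83.irr_orthonormal χ χ
  rw [if_pos rfl] at h2
  unfold classInner at h2
  have hA : (Nat.card A : ℂ) ≠ 0 := by exact_mod_cast (Nat.card_pos (α := A)).ne'
  have h3 : ∑ g : A, (χ : A → ℂ) g * conj ((χ : A → ℂ) g) = (Nat.card A : ℂ) := by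
    field_simp at h2
    linear_combination h2
  rw [← h3]
  apply Finset.sum_congr rfl
  intro g _
  rw [Helper83.irr_inv χ.2 g, mul_comm]

/-- PIECE ORTH -/
theorem orth_res {G : Type*} [Group G] [Fintype G] (H K : Subgroup G) (hKH : K ≤ H)
    (ξ : IrrCharacter H) (f : K → ℂ) (hf : IsIrrCharacter K f)
    (h0 : ∑ᶠ y : K, (ξ : H → ℂ) ⟨(y : G), hKH y.2⟩ * conj (f y) = 0) (x : H) :
    ∑ᶠ y : K, (ξ : H → ℂ) (⟨(y : G), hKH y.2⟩ * x) * f y⁻¹ = 0 := by
  classical
  let _ : Fintype H := Fintype.ofFinite _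
  let _ : Fintype K := Fintype.ofFinite _
  rw [finsum_eq_sum_of_fintype] at h0 ⊢
  let ι : K →* H := Subgroup.inclusion hKH
  have hι : ∀ y : K, (⟨(y : G), hKH y.2⟩ : H) = ι y := fun y => rfl
  simp only [hι] at h0 ⊢
  let fI : IrrCharacter K := ⟨f, hf⟩
  set A : H → ℂ := fun x => ∑ y : K, (ξ : H → ℂ) (ι y * x) * f y⁻¹ with hA
  have hconj : ∀ x, conj (A x) = ∑ y : K, (ξ : H → ℂ) (x⁻¹ * (ι y)⁻¹) * f y := by
    intro x
    simp only [hA, map_sum, map_mul]
    apply Finset.sum_congr rfl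
    intro y _
    rw [← Helper83.irr_inv ξ.2, ← Helper83.irr_inv hf, mul_inv_rev, inv_inv]
  -- the inner sum over `H`
  have hin : ∀ y y' : K, ∑ x : H, (ξ : H → ℂ) (ι y * x) * (ξ : H → ℂ) (x⁻¹ * (ι y')⁻¹) =
      (Nat.card H : ℂ) / (ξ : H → ℂ) 1 * (ξ : H → ℂ) (ι (y * y'⁻¹)) := by
    intro y y'
    rw [← irr_conv ξ (ι (y * y'⁻¹))]
    refine Fintype.sum_equiv ((Equiv.mulLeft (ι y)).trans (Equiv.inv H)) _ _ ?_
    intro x
    simp only [Equiv.trans_apply, Equiv.coe_mulLeft, Equiv.inv_apply, inv_inv, map_mul, map_inv]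
    congr 2
    group
  -- the inner sum over `K`
  have hin2 : ∀ u : K, ∑ y' : K, f (u * y')⁻¹ * f y' =
      (Nat.card K : ℂ) / f 1 * f u⁻¹ := by
    intro u
    have h1 := irr_conv fI u⁻¹
    rw [← h1]
    refine Fintype.sum_equiv (Equiv.inv K) _ _ ?_
    intro y'
    simp only [Equiv.inv_apply, inv_inv]
    show f (u * y')⁻¹ * f y' = f y' * f (y'⁻¹ * u⁻¹)
    rw [mul_inv_rev, mul_comm]
  have hS : ∑ x : H, A x * conj (A x) = 0 := by
    have h1 : ∀ x, A x * conj (A x) = ∑ y : K, ∑ y' : K,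
        f y⁻¹ * f y' * ((ξ : H → ℂ) (ι y * x) * (ξ : H → ℂ) (x⁻¹ * (ι y')⁻¹)) := by
      intro x
      rw [hconj x]
      simp only [hA]
      rw [Finset.sum_mul_sum]
      apply Finset.sum_congr rfl
      intro y _
      apply Finset.sum_congr rfl
      intro y' _
      ring
    simp only [h1]
    rw [Finset.sum_comm]
    have h2 : ∀ y : K, ∑ x : H, ∑ y' : K,
        f y⁻¹ * f y' * ((ξ : H → ℂ) (ι y * x) * (ξ : H → ℂ) (x⁻¹ * (ι y')⁻¹)) =
        ∑ y' : K, f y⁻¹ * f y' *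
          ((Nat.card H : ℂ) / (ξ : H → ℂ) 1 * (ξ : H → ℂ) (ι (y * y'⁻¹))) := by
      intro y
      rw [Finset.sum_comm]
      apply Finset.sum_congr rfl
      intro y' _
      rw [← Finset.mul_sum, hin]
    simp only [h2]
    rw [Finset.sum_comm]
    have h3 : ∀ y' : K, ∑ y : K, f y⁻¹ * f y' *
          ((Nat.card H : ℂ) / (ξ : H → ℂ) 1 * (ξ : H → ℂ) (ι (y * y'⁻¹))) =
        ∑ u : K, f (u * y')⁻¹ * f y' *
          ((Nat.card H : ℂ) / (ξ : H → ℂ) 1 * (ξ : H → ℂ) (ι u)) := by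
      intro y'
      refine Fintype.sum_equiv (Equiv.mulRight y'⁻¹) _ _ ?_
      intro y
      simp only [Equiv.coe_mulRight, inv_mul_cancel_right]
    simp only [h3]
    rw [Finset.sum_comm]
    have h4 : ∀ u : K, ∑ y' : K, f (u * y')⁻¹ * f y' *
          ((Nat.card H : ℂ) / (ξ : H → ℂ) 1 * (ξ : H → ℂ) (ι u)) =
        (Nat.card H : ℂ) / (ξ : H → ℂ) 1 * ((Nat.card K : ℂ) / f 1) *
          ((ξ : H → ℂ) (ι u) * conj (f u)) := by
      intro u
      rw [← Finset.sum_mul, hin2, Helper83.irr_inv hf]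
      ring
    simp only [h4]
    rw [← Finset.mul_sum, h0, mul_zero]
  -- positivity
  have hS2 : ∑ x : H, Complex.normSq (A x) = 0 := by
    have h1 : ((∑ x : H, Complex.normSq (A x) : ℝ) : ℂ) = 0 := by
      rw [← hS]
      push_cast
      apply Finset.sum_congr rfl
      intro x _
      rw [Complex.mul_conj]
    exact_mod_cast h1
  have hz := (Finset.sum_eq_zero_iff_of_nonneg (fun x _ => Complex.normSq_nonneg (A x))).mp hS2 x
    (Finset.mem_univ x)
  exact Complex.normSq_eq_zero.mp hz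

end Cfsg.Agent.Lib.Helper83.TG
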