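import Mathlib
import Cfsg.Agent.Lib.Helper83.ProjExt

set_option autoImplicit false

namespace Cfsg.Agent.Lib.Helper83

open Cfsg

section CycExt

/-- an invariant homomorphism to `ℂˣ` from a normal subgroup with cyclic quotient extends -/
theorem exists_hom_ext_cyclic {L : Type*} [Group L] [Finite L] (M : Subgroup L) [hM : M.Normal]
    [hc : IsCyclic (L ⧸ M)] (β : M →* ℂˣ)
    (hβ : ∀ (g : L) (m : M), β ⟨g * m * g⁻¹, hM.conj_mem m m.2 g⟩ = β m) :
    ∃ μ : L →* ℂˣ, ∀ m : M, μ m = β m := by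
  classical
  let K : Subgroup L := β.ker.map M.subtype
  have hKM : K ≤ M := by
    rintro _ ⟨m, -, rfl⟩
    exact m.2
  have hKmem : ∀ m : M, (m : L) ∈ K ↔ β m = 1 := by
    intro m
    constructor
    · rintro ⟨m', hm', h⟩
      have h1 : m' = m := Subtype.ext h
      rw [← h1]
      exact hm'
    · intro h
      exact ⟨m, h, rfl⟩
  have hKn : K.Normal := by
    constructor
    rintro _ ⟨m, hm, rfl⟩ g
    have h1 : β ⟨g * m * g⁻¹, hM.conj_mem m m.2 g⟩ = 1 := by rw [hβ]; exact hm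
    exact (hKmem ⟨g * m * g⁻¹, hM.conj_mem m m.2 g⟩).mpr h1
  let f : L ⧸ K →* L ⧸ M := QuotientGroup.map K M (MonoidHom.id L) hKM
  have hf : f.ker ≤ Subgroup.center (L ⧸ K) := by
    intro a ha
    induction a using QuotientGroup.induction_on with
    | H x =>
      have hx : x ∈ M := by
        rw [MonoidHom.mem_ker] at ha
        have h1 : f (x : L ⧸ K) = ((x : L) : L ⧸ M) := rfl
        rw [h1] at ha
        exact (QuotientGroup.eq_one_iff x).mp ha
      rw [Subgroup.mem_center_iff]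
      intro b
      induction b using QuotientGroup.induction_on with
      | H y =>
        show ((y * x : L) : L ⧸ K) = ((x * y : L) : L ⧸ K)
        rw [QuotientGroup.eq]
        have h1 : (y * x)⁻¹ * (x * y) = x⁻¹ * (y⁻¹ * x * y⁻¹⁻¹) := by group
        rw [h1]
        have h2 := hβ y⁻¹ ⟨x, hx⟩
        have h3 : β ((⟨x, hx⟩ : M)⁻¹ * ⟨y⁻¹ * x * y⁻¹⁻¹, hM.conj_mem x hx y⁻¹⟩) = 1 := by
          rw [map_mul, map_inv, h2, inv_mul_cancel]
        exact (hKmem _).mpr h3
  have hcomm : ∀ a b : L ⧸ K, a * b = b * a :=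
    (f.isMulCommutative_of_isCyclic_of_ker_le_center hf).is_comm.comm
  let _ : CommGroup (L ⧸ K) := { (inferInstance : Group (L ⧸ K)) with mul_comm := hcomm }
  have hne : NeZero (Monoid.exponent (L ⧸ K)) := ⟨Monoid.exponent_ne_zero_of_finite⟩
  let H : Subgroup (L ⧸ K) := M.map (QuotientGroup.mk' K)
  let π : M →* H := ((QuotientGroup.mk' K).comp M.subtype).codRestrict H
    (fun m => Subgroup.mem_map_of_mem _ m.2)
  have hπs : Function.Surjective π := by
    rintro ⟨_, x, hx, rfl⟩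
    exact ⟨⟨x, hx⟩, rfl⟩
  have hπk : π.ker ≤ β.ker := by
    intro m hm
    rw [MonoidHom.mem_ker] at hm ⊢
    have h1 : ((m : L) : L ⧸ K) = 1 := congrArg Subtype.val hm
    exact (hKmem m).mp ((QuotientGroup.eq_one_iff (m : L)).mp h1)
  let βbar : H →* ℂˣ := π.liftOfSurjective hπs ⟨β, hπk⟩
  obtain ⟨ν, hν⟩ := MonoidHom.domRestrict_surjective (M := ℂ) H βbar
  refine ⟨ν.comp (QuotientGroup.mk' K), fun m => ?_⟩
  have h1 : βbar (π m) = β m :=
    MonoidHom.liftOfRightInverse_comp_apply _ _ _ ⟨β, hπk⟩ m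
  rw [← h1, ← hν]
  rfl

variable {G : Type*} [Group G]

/-- an invariant irreducible character of a normal subgroup with cyclic quotient extends -/
theorem cyclic_extension [Finite G] (N : Subgroup G) [hN : N.Normal] [hc : IsCyclic (G ⧸ N)]
    (θ : N → ℂ) (hθ : IsIrrCharacter N θ)
    (hinv : ∀ (g : G) (n : N), θ ⟨g * n * g⁻¹, hN.conj_mem (n : G) n.2 g⟩ = θ n) :
    ∃ χ : G → ℂ, IsIrrCharacter G χ ∧ ∀ n : N, χ n = θ n := by
  classical
  obtain ⟨d, σ, hσ, hσθ⟩ := hθ
  have hinv' : ∀ (g : G) (n m : N), (m : G) = g * n * g⁻¹ → σ.character m = σ.character n := by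
    intro g n m h
    rw [hσθ]
    have h1 : m = ⟨g * n * g⁻¹, hN.conj_mem (n : G) n.2 g⟩ := Subtype.ext h
    rw [h1]
    exact hinv g n
  have := hσ
  have hd : 0 < d := by
    have hnt := Helper5.irr_nontrivial σ
    by_contra h0
    have hd0 : d = 0 := by omega
    subst hd0
    exact not_subsingleton (Fin 0 → ℂ) inferInstance
  have hsurj := liftFst_surjective N σ hd hinv'
  have hfin : Finite (liftGroup N σ) := liftGroup_finite N σ hσ hd
  have hMn : (N.comap (liftFst N σ)).Normal := hN.comap _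
  let φ : liftGroup N σ ⧸ N.comap (liftFst N σ) →* G ⧸ N :=
    QuotientGroup.map _ N (liftFst N σ) le_rfl
  have hφ : Function.Injective φ := by
    rw [injective_iff_map_eq_one]
    intro a ha
    induction a using QuotientGroup.induction_on with
    | H x =>
      have h1 : φ (x : liftGroup N σ ⧸ N.comap (liftFst N σ)) = ((liftFst N σ x : G) : G ⧸ N) :=
        rfl
      rw [h1] at ha
      have h2 : liftFst N σ x ∈ N := (QuotientGroup.eq_one_iff (liftFst N σ x)).mp ha
      exact (QuotientGroup.eq_one_iff x).mpr h2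
  have hcyc : IsCyclic (liftGroup N σ ⧸ N.comap (liftFst N σ)) := isCyclic_of_injective φ hφ
  obtain ⟨μ, hμ⟩ := exists_hom_ext_cyclic (N.comap (liftFst N σ)) (baseHom N σ hd)
    (fun g m => baseHom_conj N σ hd g m _)
  obtain ⟨ρ, hρ⟩ := exists_rep_of_hom N σ hd hsurj μ hμ
  refine ⟨ρ.character, ⟨d, ρ, irreducible_of_equiv σ ρ
    (LinearEquiv.refl ℂ _) (fun n => ⟨(n : G), fun v => by rw [hρ]; rfl⟩) hσ, rfl⟩, fun n => ?_⟩
  rw [← hσθ]
  show LinearMap.trace ℂ _ (ρ (n : G)) = LinearMap.trace ℂ _ (σ n)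
  rw [hρ]

end CycExt

end Cfsg.Agent.Lib.Helper83
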