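import Mathlib
import Cfsg.Prelude.Def_Blocks
import Cfsg.Agent.Lib.Helper22.TGDefs
import Cfsg.Agent.Lib.Helper83.Rg1
import Cfsg.Agent.Lib.Helper83.CycExt
import Cfsg.Agent.Lib.Helper83.LinearCount
import Cfsg.Agent.Lib.Helper83.Induce

/-!
# TG project, piece CLIFF (helper83)

`cliff_cyc`: `K ≤ H`, `H` normalizes `K`, `H = ⟨g⟩ K`, `θ ∈ Irr(K)` a constituent of the
restriction of `ξ ∈ Irr(H)`; then `ξ(1) = |H-orbit of θ| · θ(1)`.

Proof: `θ` extends to its inertia group `T` (cyclic quotient), so by the Clifford correspondence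
and Gallagher's theorem `ξ = Ind_T^H (β η)` with `β` a character of the cyclic group `T/K`.
-/

set_option autoImplicit false
set_option linter.unusedSectionVars false
set_option linter.style.haveILetI false
set_option linter.unusedVariables false

namespace Cfsg.Agent.Lib.Helper83.TG

open scoped ComplexConjugate
open Cfsg Cfsg.Agent.Lib Cfsg.Agent.Lib.Helper22.TG

/-- normal subgroup with cyclic quotient: an irreducible character over `θ` has degree
`|Γ : I_Γ(θ)| θ(1)` -/
theorem cliff_cyc_normal {Γ : Type*} [Group Γ] [Fintype Γ] (N : Subgroup Γ) [hN : N.Normal]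
    [Fintype N] [hc : IsCyclic (Γ ⧸ N)] {θ : N → ℂ} (hθ : IsIrrCharacter N θ) {ξ : Γ → ℂ}
    (hξ : IsIrrCharacter Γ ξ) (hcon : classInner (fun n : N => ξ n) θ ≠ 0) :
    ξ 1 = ((inertia N θ).index : ℂ) * θ 1 := by
  classical
  set T := inertia N θ with hTdef
  let _ : Fintype T := Fintype.ofFinite _
  have hNT : N ≤ T := le_inertia N hθ
  have hnorm : (N.subgroupOf T).Normal := inferInstance
  have hcycT : IsCyclic (T ⧸ N.subgroupOf T) := by
    let φ : T ⧸ N.subgroupOf T →* Γ ⧸ N :=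
      QuotientGroup.map (N.subgroupOf T) N T.subtype (fun x hx => hx)
    have hφ : Function.Injective φ := by
      rw [injective_iff_map_eq_one]
      intro x hx
      induction x using QuotientGroup.induction_on with
      | H t =>
        have hx' : (((T.subtype t : Γ)) : Γ ⧸ N) = 1 := hx
        rw [QuotientGroup.eq_one_iff] at hx'
        rw [QuotientGroup.eq_one_iff]
        exact hx'
    exact isCyclic_of_injective φ hφ
  let e : N.subgroupOf T ≃* N := Subgroup.subgroupOfEquivOfLe hNT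
  have hθ' : IsIrrCharacter (N.subgroupOf T) (fun n => θ (e n)) :=
    Helper20.irr_comp_surjective e.toMonoidHom e.surjective hθ
  have hinv : ∀ (g : T) (n : N.subgroupOf T),
      (fun n => θ (e n)) ⟨g * n * g⁻¹, hnorm.conj_mem n n.2 g⟩ = (fun n => θ (e n)) n := by
    intro g n
    have hg : Helper20.conjFun N θ (g : Γ) = θ := g.2
    have h1 := congrFun hg (e n)
    rw [Helper20.conjFun_apply] at h1
    show θ (e _) = θ (e n)
    rw [← h1]
    congr 1
  obtain ⟨η, hη, hηext⟩ := cyclic_extension (N.subgroupOf T) (fun n => θ (e n)) hθ' hinv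
  have hηN : ∀ n : N, η ⟨(n : Γ), hNT n.2⟩ = θ n := by
    intro n
    have h1 := hηext (e.symm n)
    simp only [MulEquiv.apply_symm_apply] at h1
    rw [← h1]
    congr 1
  obtain ⟨β, hβ⟩ := cg_exists N T hθ (fun g => Iff.rfl) hNT hη hηN hξ hcon
  have hβ1 : (β : T ⧸ N.subgroupOf T → ℂ) 1 = 1 := by
    have : IsMulCommutative (T ⧸ N.subgroupOf T) :=
      ⟨⟨fun a b => (IsCyclic.commGroup (α := T ⧸ N.subgroupOf T)).mul_comm a b⟩⟩
    exact irr_comm_degree β.2
  rw [hβ, indFun_one, cgPsi_apply, QuotientGroup.mk_one, hβ1, one_mul]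
  congr 1
  have h2 := hηN 1
  rw [← h2]
  congr 1

/-- PIECE CLIFF -/
theorem cliff_cyc {G : Type*} [Group G] [Fintype G] (H K : Subgroup G) (hKH : K ≤ H)
    (hnorm : ∀ h ∈ H, ∀ y ∈ K, h * y * h⁻¹ ∈ K)
    (hcyc : ∃ g ∈ H, ∀ h ∈ H, ∃ (i : ℕ), ∃ y ∈ K, h = g ^ i * y)
    (θ : IrrCharacter K) (ξ : IrrCharacter H)
    (hne : ∑ᶠ y : K, (ξ : H → ℂ) ⟨(y : G), hKH y.2⟩ * conj ((θ : K → ℂ) y) ≠ 0) :
    charDegree (ξ : H → ℂ) = Nat.card (orb K (θ : K → ℂ) H) * charDegree (θ : K → ℂ) := by
  classical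
  let _ : Fintype H := Fintype.ofFinite _
  let _ : Fintype K := Fintype.ofFinite _
  set N : Subgroup H := K.subgroupOf H with hNdef
  have hNn : N.Normal := by
    constructor
    intro n hn g
    rw [hNdef, Subgroup.mem_subgroupOf] at hn ⊢
    exact hnorm g g.2 n hn
  let _ : Fintype N := Fintype.ofFinite _
  have hcycN : IsCyclic (H ⧸ N) := by
    obtain ⟨g, hg, hgen⟩ := hcyc
    refine ⟨⟨((⟨g, hg⟩ : H) : H ⧸ N), ?_⟩⟩
    intro x
    induction x using QuotientGroup.induction_on with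
    | H h =>
      obtain ⟨i, y, hy, hh⟩ := hgen h h.2
      refine ⟨(i : ℤ), ?_⟩
      show ((⟨g, hg⟩ : H) : H ⧸ N) ^ (i : ℤ) = (h : H ⧸ N)
      rw [zpow_natCast, ← QuotientGroup.mk_pow, QuotientGroup.eq, hNdef, Subgroup.mem_subgroupOf]
      have h1 : ((((⟨g, hg⟩ : H) ^ i)⁻¹ * h : H) : G) = y := by
        push_cast
        rw [hh]
        group
      rw [h1]
      exact hy
  let e : N ≃* K := Subgroup.subgroupOfEquivOfLe hKH
  set θ' : N → ℂ := fun n => (θ : K → ℂ) (e n) with hθ'def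
  have hθ' : IsIrrCharacter N θ' := Helper20.irr_comp_surjective e.toMonoidHom e.surjective θ.2
  have hcon : classInner (fun n : N => (ξ : H → ℂ) n) θ' ≠ 0 := by
    have h1 : (fun n : N => (ξ : H → ℂ) n) =
        fun n => (fun k : K => (ξ : H → ℂ) ⟨(k : G), hKH k.2⟩) (e n) := by
      funext n
      congr 1
    rw [h1, hθ'def]
    have h2 := Helper20.classInner_comp_equiv e
      (fun k : K => (ξ : H → ℂ) ⟨(k : G), hKH k.2⟩) (θ : K → ℂ)
    rw [h2]
    unfold classInner
    rw [finsum_eq_sum_of_fintype] at hne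
    exact mul_ne_zero (inv_ne_zero (by exact_mod_cast (Nat.card_pos (α := K)).ne')) hne
  have hdeg := cliff_cyc_normal N hθ' ξ.2 hcon
  set T := inertia N θ' with hTdef
  -- relation between `cj` and `conjFun`
  have hrel : ∀ (x : H) (n : N),
      cj K (θ : K → ℂ) (x : G) (e n) = Helper20.conjFun N θ' x⁻¹ n := by
    intro x n
    have hmem : (x : G)⁻¹ * ((e n : K) : G) * (x : G) ∈ K := by
      have := hnorm (x⁻¹ : H) (x⁻¹ : H).2 (e n) (e n).2
      simpa using this
    rw [cj_apply K _ _ _ hmem, Helper20.conjFun_apply]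
    show (θ : K → ℂ) _ = (θ : K → ℂ) (e _)
    refine congrArg _ (Subtype.ext ?_)
    show (x : G)⁻¹ * ((e n : K) : G) * (x : G) = ((e _ : K) : G)
    rw [Subgroup.subgroupOfEquivOfLe_apply_coe, Subgroup.subgroupOfEquivOfLe_apply_coe]
    simp
  have hkey : ∀ x x' : H, cj K (θ : K → ℂ) (x : G) = cj K (θ : K → ℂ) (x' : G) ↔
      x⁻¹ * x' ∈ T := by
    intro x x'
    have h1 : cj K (θ : K → ℂ) (x : G) = cj K (θ : K → ℂ) (x' : G) ↔
        Helper20.conjFun N θ' x⁻¹ = Helper20.conjFun N θ' x'⁻¹ := by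
      constructor
      · intro h
        funext n
        rw [← hrel, ← hrel, h]
      · intro h
        funext y
        have h2 := hrel x (e.symm y)
        have h3 := hrel x' (e.symm y)
        rw [MulEquiv.apply_symm_apply] at h2 h3
        rw [h2, h3, h]
    rw [h1, hTdef, mem_inertia]
    constructor
    · intro h
      have h2 : Helper20.conjFun N (Helper20.conjFun N θ' x⁻¹) x' =
          Helper20.conjFun N (Helper20.conjFun N θ' x'⁻¹) x' := by rw [h]
      rwa [Helper20.conjFun_conjFun, Helper20.conjFun_conjFun, inv_mul_cancel,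
        Helper20.conjFun_one] at h2
    · intro h
      have h2 : Helper20.conjFun N (Helper20.conjFun N θ' (x⁻¹ * x')) x'⁻¹ =
          Helper20.conjFun N θ' x'⁻¹ := by rw [h]
      rwa [Helper20.conjFun_conjFun, mul_inv_cancel_right] at h2
  have horb : Nat.card (orb K (θ : K → ℂ) H) = T.index := by
    let Φ : H ⧸ T → orb K (θ : K → ℂ) H :=
      @Quotient.lift _ _ (QuotientGroup.leftRel T)
        (fun x : H => (⟨cj K (θ : K → ℂ) (x : G), ⟨(x : G), x.2, rfl⟩⟩ : orb K (θ : K → ℂ) H))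
        (fun a b hab => Subtype.ext ((hkey a b).mpr (QuotientGroup.leftRel_apply.mp hab)))
    have hΦ : Function.Bijective Φ := by
      constructor
      · intro q q'
        induction q using QuotientGroup.induction_on with
        | H a =>
          induction q' using QuotientGroup.induction_on with
          | H b =>
            intro h
            have h1 : cj K (θ : K → ℂ) (a : G) = cj K (θ : K → ℂ) (b : G) :=
              congrArg Subtype.val h
            exact QuotientGroup.eq.mpr ((hkey a b).mp h1)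
      · rintro ⟨f, n, hn, rfl⟩
        exact ⟨((⟨n, hn⟩ : H) : H ⧸ T), rfl⟩
    rw [← Nat.card_congr (Equiv.ofBijective Φ hΦ)]
    rfl
  have h1 : ((charDegree (ξ : H → ℂ) : ℕ) : ℂ) = (ξ : H → ℂ) 1 := ((irr_degree ξ.2).2).symm
  have h2 : ((charDegree (θ : K → ℂ) : ℕ) : ℂ) = (θ : K → ℂ) 1 := ((irr_degree θ.2).2).symm
  have h3 : θ' 1 = (θ : K → ℂ) 1 := by simp [hθ'def]
  rw [horb]
  have h4 : ((charDegree (ξ : H → ℂ) : ℕ) : ℂ) =
      ((T.index * charDegree (θ : K → ℂ) : ℕ) : ℂ) := by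
    push_cast
    rw [h1, h2, hdeg, h3]
  exact_mod_cast h4

end Cfsg.Agent.Lib.Helper83.TG
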