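import Mathlib
import Cfsg.Agent.Lib.Helper22.HPDefs
import Cfsg.Agent.Lib.Helper83.IrrBasic
import Cfsg.Agent.Lib.Helper82.PQ
import Cfsg.Agent.Lib.Helper67.BFZCENT

/-!
# S4504 (helper22's HP project): piece HP-KFZ

Under `HP` and without a normal subgroup of order `p`, the `p`-regular elements of `C_G(z)` are
exactly the central elements.
-/

set_option autoImplicit false
set_option linter.style.haveILetI false
set_option linter.unusedVariables false

namespace Cfsg.Agent.Lib.Helper83.HPT

open Cfsg Cfsg.Agent.Lib.Helper22.BFD Cfsg.Agent.Lib.Helper22.HPD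
open scoped ComplexConjugate

universe u

/-- a central element of order `p` generates a normal subgroup of order `p` -/
theorem kfz_no_central {G : Type u} [Group G] [Fintype G] (p : ℕ)
    (hnn : ∀ H : Subgroup G, H.Normal → Nat.card H ≠ p) (w : G)
    (hw : w ∈ Subgroup.center G) (ho : orderOf w = p) : False := by
  have hle : Subgroup.zpowers w ≤ Subgroup.center G := (Subgroup.zpowers_le).mpr hw
  have hN : (Subgroup.zpowers w).Normal := by
    refine ⟨fun n hn g => ?_⟩
    have hc := Subgroup.mem_center_iff.mp (hle hn) g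
    have : g * n * g⁻¹ = n := by rw [hc, mul_inv_cancel_right]
    rw [this]
    exact hn
  exact hnn _ hN (by rw [Nat.card_zpowers, ho])

/-- PIECE KFZ (under `HP`, the `p`-regular elements of `C_G(z)` are the central elements) -/
theorem hp_kfz {G : Type u} [Group G] [Fintype G] (p : ℕ) [Fact p.Prime]
    (hnn : ∀ H : Subgroup G, H.Normal → Nat.card H ≠ p) (χ : G → ℂ) (z : G) (ζ : ℂ)
    (hHP : HP p ζ z χ) : ∀ y : G, y ∈ Kf p z ↔ y ∈ Subgroup.center G := by
  classical
  have hp : p.Prime := Fact.out
  intro y
  unfold Kf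
  rw [Finset.mem_filter]
  constructor
  · rintro ⟨-, hyz, hyp⟩
    obtain ⟨t, u, hu, hy⟩ := hHP.hC y hyz
    by_cases ht : t = 0
    · rw [ht, ZMod.val_zero, pow_zero, one_mul] at hy
      rw [hy]
      exact hu
    · exfalso
      set n := orderOf y with hn
      have hcomm : Commute (z ^ t.val) u := Subgroup.mem_center_iff.mp hu (z ^ t.val)
      have h1 : z ^ (t.val * n) * u ^ n = 1 := by
        rw [pow_mul, ← hcomm.mul_pow, ← hy, hn, pow_orderOf_eq_one]
      have h2 : z ^ (t.val * n) = (u ^ n)⁻¹ := eq_inv_of_mul_eq_one_left h1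
      have h3 : z ^ (t.val * n) ∈ Subgroup.center G := by
        rw [h2]
        exact (Subgroup.center G).inv_mem ((Subgroup.center G).pow_mem hu n)
      have hcop : (orderOf z).Coprime (t.val * n) := by
        rw [hHP.hz]
        refine (Nat.Prime.coprime_iff_not_dvd hp).mpr ?_
        intro hdvd
        rcases (Nat.Prime.dvd_mul hp).mp hdvd with h4 | h4
        · have h5 : t.val < p := ZMod.val_lt t
          have h6 : t.val = 0 := Nat.eq_zero_of_dvd_of_lt h4 h5
          exact ht ((ZMod.val_eq_zero t).mp h6)
        · exact hyp h4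
      have h4 : orderOf (z ^ (t.val * n)) = p := by
        rw [hcop.orderOf_pow, hHP.hz]
      exact kfz_no_central p hnn _ h3 h4
  · intro hy
    refine ⟨Finset.mem_univ _, Subgroup.mem_center_iff.mp hy z |>.symm ▸ rfl, ?_⟩
    intro hdvd
    have h1 : orderOf (y ^ (orderOf y / p)) = p :=
      orderOf_pow_orderOf_div (orderOf_pos y).ne' hdvd
    exact kfz_no_central p hnn _ ((Subgroup.center G).pow_mem hy _) h1

end Cfsg.Agent.Lib.Helper83.HPT
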