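import Mathlib
import Cfsg.Prelude.Def_GeometricClasses
import Cfsg.Prelude.Def_LieClassical
import Cfsg.Agent.Lib.Helper52.GeoOmega
import Cfsg.Agent.Lib.Helper52.Siegel
import Cfsg.Agent.Lib.Helper52.SiegelGeom

/-!
# Project OMP (helper71; S5814 + S5859): piece NO5

`Ω(Q)` is not contained in a subfield group (dimension at least 5).
-/

set_option autoImplicit false
set_option linter.style.haveILetI false
set_option linter.unusedVariables false
set_option linter.unusedSectionVars false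

namespace Cfsg.Agent.Lib.Helper83.OMPNO5

open Matrix Cfsg.Geo
open scoped Pointwise

variable {n : ℕ} {F : Type*} [Field F] [Fintype F]

variable {κ : Type} [Fintype κ] [DecidableEq κ]

open Cfsg.Agent.Lib.Helper52 (eichMat eichMat_mulVec eichMat_mul eichMat_zero eich coe_eich
  eich_mem_commutator coe_mem_omegaGL exists_quadraticForm_of_nondeg exists_singular_orth
  exists_polar_ne_zero)

/-- unpacking membership in a subfield group -/
theorem no5_unpack (F₀ : Subfield F) (P g : GL κ F) (hg : g ∈ subfieldSubgroup F₀ P) :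
    ∃ (l : F) (b : Matrix κ κ F), l ≠ 0 ∧ (∀ i j, b i j ∈ F₀) ∧
      (P⁻¹ : GL κ F).1 * g.1 * P.1 = l • b := by
  unfold subfieldSubgroup at hg
  rw [Subgroup.mem_map] at hg
  obtain ⟨y, hy, hyg⟩ := hg
  have hy' : y ∈ (((Matrix.GeneralLinearGroup.map (F₀.subtype : F₀ →+* F)).range :
      Subgroup (GL κ F)) : Set (GL κ F)) *
      (scalars κ F : Set (GL κ F)) := by
    rw [← Subgroup.mul_normal]
    exact hy
  obtain ⟨b, hb, s, hs, hbs⟩ := Set.mem_mul.mp hy'
  obtain ⟨b₀, hb₀⟩ := hb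
  have hs' : s ∈ scalars κ F := hs
  rw [mem_scalars_iff] at hs'
  obtain ⟨l, hl⟩ := hs'
  have hbentry : ∀ i j, b.1 i j ∈ F₀ := by
    intro i j
    rw [← hb₀]
    have := Matrix.GeneralLinearGroup.map_apply (F₀.subtype : F₀ →+* F) i j b₀
    rw [show (Matrix.GeneralLinearGroup.map (F₀.subtype : F₀ →+* F) b₀).1 i j
      = (F₀.subtype : F₀ →+* F) (b₀.1 i j) from this]
    exact (b₀.1 i j).2
  refine ⟨(l : F), b.1, l.ne_zero, hbentry, ?_⟩
  have h1 : g = P * y * P⁻¹ := hyg.symm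
  have e1 : (P⁻¹ : GL κ F).1 * P.1 = 1 := Units.inv_mul P
  have h2 : (P⁻¹ : GL κ F).1 * g.1 * P.1 = y.1 := by
    rw [h1]
    simp only [Units.val_mul]
    calc (P⁻¹ : GL κ F).1 * (P.1 * y.1 * (P⁻¹ : GL κ F).1) * P.1
        = ((P⁻¹ : GL κ F).1 * P.1) * y.1 * ((P⁻¹ : GL κ F).1 * P.1) := by
          simp only [Matrix.mul_assoc]
      _ = y.1 := by rw [e1, Matrix.one_mul, Matrix.mul_one]
  rw [h2, ← hbs, Units.val_mul, hl, Matrix.mul_smul, Matrix.mul_one]

/-- matrices with entries in a subfield: products -/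
theorem no5_mul_mem (F₀ : Subfield F) (A B : Matrix κ κ F) (hA : ∀ i j, A i j ∈ F₀)
    (hB : ∀ i j, B i j ∈ F₀) : ∀ i j, (A * B) i j ∈ F₀ := by
  intro i j
  rw [Matrix.mul_apply]
  exact F₀.sum_mem (fun k _ => F₀.mul_mem (hA i k) (hB k j))

theorem no5_one_mem (F₀ : Subfield F) : ∀ i j, (1 : Matrix κ κ F) i j ∈ F₀ := by
  intro i j
  rw [Matrix.one_apply]
  split_ifs
  · exact F₀.one_mem
  · exact F₀.zero_mem

theorem no5_pow_mem (F₀ : Subfield F) (A : Matrix κ κ F) (hA : ∀ i j, A i j ∈ F₀) (k : ℕ) :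
    ∀ i j, (A ^ k) i j ∈ F₀ := by
  induction k with
  | zero => rw [pow_zero]; exact no5_one_mem F₀
  | succ k ih => rw [pow_succ]; exact no5_mul_mem F₀ _ _ ih hA

/-- a `p`-th root (in `F`) of an element of the subfield lies in the subfield -/
theorem no5_frob (F₀ : Subfield F) (p : ℕ) [Fact p.Prime] [CharP F p] (l : F)
    (h : l ^ p ∈ F₀) : l ∈ F₀ := by
  have hinj : Function.Injective (fun a : F₀ => a ^ p) := by
    intro a b hab
    have h1 : (a : F) ^ p = (b : F) ^ p := by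
      have := congrArg (Subtype.val) hab
      simpa using this
    exact Subtype.ext (frobenius_inj F p h1)
  obtain ⟨a, ha⟩ := Finite.surjective_of_injective hinj ⟨l ^ p, h⟩
  have h2 : (a : F) ^ p = l ^ p := by
    have := congrArg (Subtype.val) ha
    simpa using this
  have h3 : (a : F) = l := frobenius_inj F p h2
  rw [← h3]
  exact a.2

section Eich

variable (Q : QuadraticForm F (κ → F))

/-- powers of an Eichler matrix -/
theorem no5_eich_pow (u w : κ → F) (hu : Q u = 0) (huw : QuadraticMap.polar ⇑Q u w = 0)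
    (k : ℕ) : (eichMat Q u w) ^ k = eichMat Q u (k • w) := by
  induction k with
  | zero => rw [pow_zero, zero_smul, eichMat_zero]
  | succ k ih =>
    have h1 : QuadraticMap.polar ⇑Q u (k • w) = 0 := by
      rw [← Nat.cast_smul_eq_nsmul F k w, QuadraticMap.polar_smul_right, huw, smul_zero]
    rw [pow_succ, ih, eichMat_mul Q u (k • w) w hu h1 huw, succ_nsmul]

/-- an Eichler matrix has order dividing the characteristic -/
theorem no5_eich_char (p : ℕ) [CharP F p] (u w : κ → F) (hu : Q u = 0)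
    (huw : QuadraticMap.polar ⇑Q u w = 0) : (eichMat Q u w) ^ p = 1 := by
  rw [no5_eich_pow Q u w hu huw, ← Nat.cast_smul_eq_nsmul F p w, CharP.cast_eq_zero F p,
    zero_smul, eichMat_zero]

/-- scaling the second vector of an Eichler matrix, for a singular second vector -/
theorem no5_eich_smul (u w : κ → F) (hw : Q w = 0) (c : F) :
    eichMat Q u (c • w) - 1 = c • (eichMat Q u w - 1) := by
  have h1 : Cfsg.polarVec ⇑Q (c • w) = c • Cfsg.polarVec ⇑Q w := by
    funext j
    simp only [Cfsg.polarVec, Pi.smul_apply, smul_eq_mul]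
    rw [QuadraticMap.polar_smul_left, smul_eq_mul]
  have h2 : Q (c • w) = 0 := by
    rw [QuadraticMap.map_smul, hw, smul_zero]
  unfold eichMat
  rw [h1, h2, hw, zero_smul, Matrix.vecMulVec_smul, Matrix.smul_vecMulVec]
  simp only [sub_zero, smul_sub, smul_add]
  abel

/-- the Eichler matrices are rational for the structure of a subfield group containing `Ω` -/
theorem no5_eich_rat (hQ : (QuadraticMap.polarBilin Q).Nondegenerate)
    (hk : 5 ≤ Fintype.card κ) (F₀ : Subfield F) (P : GL κ F)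
    (hle : omegaGL ⇑Q ≤ subfieldSubgroup F₀ P) (u w : κ → F) (hu : Q u = 0)
    (huw : QuadraticMap.polar ⇑Q u w = 0) :
    ∀ i j, ((P⁻¹ : GL κ F).1 * eichMat Q u w * P.1) i j ∈ F₀ := by
  have hmem : ((eich Q u w hu huw : ↥(Cfsg.isometryGroup F ⇑Q)) : GL κ F) ∈
      subfieldSubgroup F₀ P :=
    hle (coe_mem_omegaGL Q (eich_mem_commutator Q hQ hk u w hu huw))
  obtain ⟨l, B, hl, hB, hPB⟩ := no5_unpack F₀ P _ hmem
  rw [coe_eich] at hPB
  -- the characteristic
  set p := ringChar F with hp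
  haveI : CharP F p := ringChar.charP F
  haveI : Fact p.Prime := ⟨CharP.char_is_prime F p⟩
  have hpow : (l • B) ^ p = 1 := by
    rw [← hPB]
    have h1 := Units.conj_pow (P⁻¹ : GL κ F) (eichMat Q u w) p
    rw [inv_inv] at h1
    rw [h1, no5_eich_char Q p u w hu huw, Matrix.mul_one]
    exact Units.inv_mul P
  rw [smul_pow] at hpow
  have hne : Nonempty κ := by
    rw [← Fintype.card_pos_iff]
    omega
  obtain ⟨i₀⟩ := hne
  have h2 : l ^ p * (B ^ p) i₀ i₀ = 1 := by
    have := congrFun (congrFun hpow i₀) i₀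
    rw [Matrix.smul_apply, smul_eq_mul, Matrix.one_apply_eq] at this
    exact this
  have h3 : l ^ p ∈ F₀ := by
    rw [eq_inv_of_mul_eq_one_left h2]
    exact F₀.inv_mem (no5_pow_mem F₀ B hB p i₀ i₀)
  have h4 : l ∈ F₀ := no5_frob F₀ p l h3
  intro i j
  rw [hPB, Matrix.smul_apply, smul_eq_mul]
  exact F₀.mul_mem h4 (hB i j)

end Eich

/-- NO5 -/
theorem NO5 (Q : (κ → F) → F) (hQ : IsNondegenerateQuadraticForm Q)
    (hodd : Odd (Fintype.card F)) (hk : 5 ≤ Fintype.card κ) (F₀ : Subfield F) (hF₀ : F₀ ≠ ⊤)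
    (P : GL κ F) : ¬ omegaGL Q ≤ subfieldSubgroup F₀ P := by
  classical
  obtain ⟨Q', rfl, hQ'⟩ := exists_quadraticForm_of_nondeg Q hQ
  intro hle
  apply hF₀
  -- a singular vector `u`, a vector `y₁` not orthogonal to it, a singular `w` orthogonal to both
  obtain ⟨u, hu0, hu, -⟩ := exists_singular_orth Q' hQ' ∅ (by simp; omega)
  obtain ⟨y₁, hy₁⟩ := exists_polar_ne_zero Q' hQ' u hu0
  obtain ⟨w, hw0, hw, horth⟩ := exists_singular_orth Q' hQ' {u, y₁}
    (by have := Finset.card_le_two (a := u) (b := y₁); omega)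
  have huw : QuadraticMap.polar ⇑Q' u w = 0 := horth u (by simp)
  have hyw : QuadraticMap.polar ⇑Q' y₁ w = 0 := horth y₁ (by simp)
  -- `N = E(u, w) - 1` is not zero
  have hN : eichMat Q' u w - 1 ≠ 0 := by
    intro h0
    have h1 : eichMat Q' u w = 1 := sub_eq_zero.mp h0
    have h2 := eichMat_mulVec Q' u w y₁
    rw [h1, Matrix.one_mulVec, QuadraticMap.polar_comm ⇑Q' w y₁, hyw, hw, zero_smul, zero_mul,
      zero_smul, add_zero, sub_zero] at h2
    have h3 : QuadraticMap.polar ⇑Q' u y₁ • w = 0 := by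
      have h4 : y₁ - (y₁ - QuadraticMap.polar ⇑Q' u y₁ • w) = 0 := by
        rw [← h2, sub_self]
      rwa [sub_sub_cancel] at h4
    rcases smul_eq_zero.mp h3 with h5 | h5
    · exact hy₁ h5
    · exact hw0 h5
  set D := (P⁻¹ : GL κ F).1 * (eichMat Q' u w - 1) * P.1 with hD
  have hD0 : D ≠ 0 := by
    intro h0
    apply hN
    have h1 : P.1 * D * (P⁻¹ : GL κ F).1 = eichMat Q' u w - 1 := by
      rw [hD]
      calc P.1 * ((P⁻¹ : GL κ F).1 * (eichMat Q' u w - 1) * P.1) * (P⁻¹ : GL κ F).1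
          = (P.1 * (P⁻¹ : GL κ F).1) * (eichMat Q' u w - 1) * (P.1 * (P⁻¹ : GL κ F).1) := by
            simp only [Matrix.mul_assoc]
        _ = eichMat Q' u w - 1 := by
            rw [Units.mul_inv P, Matrix.one_mul, Matrix.mul_one]
    rw [← h1, h0, Matrix.mul_zero, Matrix.zero_mul]
  have hrat : ∀ c : F, ∀ i j, (c • D) i j ∈ F₀ := by
    intro c i j
    have huw' : QuadraticMap.polar ⇑Q' u (c • w) = 0 := by
      rw [QuadraticMap.polar_smul_right, huw, smul_zero]
    have h1 := no5_eich_rat Q' hQ' hk F₀ P hle u (c • w) hu huw' i j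
    have h2 : c • D = (P⁻¹ : GL κ F).1 * eichMat Q' u (c • w) * P.1 - 1 := by
      rw [hD, ← Matrix.smul_mul, ← Matrix.mul_smul, ← no5_eich_smul Q' u w hw c, Matrix.mul_sub,
        Matrix.sub_mul, Matrix.mul_one, Units.inv_mul P]
    rw [h2, Matrix.sub_apply]
    exact F₀.sub_mem h1 (no5_one_mem F₀ i j)
  obtain ⟨i, j, hij⟩ : ∃ i j, D i j ≠ 0 := by
    by_contra hcon
    push Not at hcon
    exact hD0 (Matrix.ext hcon)
  rw [eq_top_iff]
  intro c _
  have h1 := hrat c i j
  have h2 := hrat 1 i j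
  rw [one_smul] at h2
  rw [Matrix.smul_apply, smul_eq_mul] at h1
  have h3 : c = c * D i j * (D i j)⁻¹ := by
    rw [mul_assoc, mul_inv_cancel₀ hij, mul_one]
  rw [h3]
  exact F₀.mul_mem h1 (F₀.inv_mem h2)

end Cfsg.Agent.Lib.Helper83.OMPNO5
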