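import Mathlib
import Cfsg.Prelude.Def_GeometricClasses
import Cfsg.Prelude.Def_LieClassical
import Cfsg.Agent.Lib.Helper71.Asch0

/-! Project SPP (S5805/S5844, helper71), piece HOMP: for `L = P (R ⊗ 1) P⁻¹` with `R` irreducible, a
subspace invariant under `L` and under the commutant of `L` is trivial. -/

set_option autoImplicit false
set_option linter.style.haveILetI false
set_option linter.unusedVariables false
set_option linter.unusedSectionVars false

namespace Cfsg.Agent.Lib.Helper83.SPPHOMP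

open Matrix Cfsg.Geo Cfsg.Agent.Lib.Helper71.Asch
open scoped Kronecker

variable {n : ℕ} {F : Type*} [Field F] [Fintype F]

/-- `u ↦ u ⊗ e_a` -/
def ten {d k : ℕ} (a : Fin k) : (Fin d → F) →ₗ[F] (Fin d × Fin k → F) where
  toFun u := fun p => u p.1 * (if p.2 = a then 1 else 0)
  map_add' u v := by
    funext p
    simp only [Pi.add_apply]
    ring
  map_smul' c u := by
    funext p
    simp only [Pi.smul_apply, smul_eq_mul, RingHom.id_apply]
    ring

theorem ten_apply {d k : ℕ} (a : Fin k) (u : Fin d → F) (p : Fin d × Fin k) :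
    ten a u p = u p.1 * (if p.2 = a then 1 else 0) := rfl

theorem kron_one_mulVec {d k : ℕ} (y : Matrix (Fin d) (Fin d) F) (x : Fin d × Fin k → F)
    (p : Fin d × Fin k) :
    ((y ⊗ₖ (1 : Matrix (Fin k) (Fin k) F)) *ᵥ x) p = ∑ i', y p.1 i' * x (i', p.2) := by
  obtain ⟨i, j⟩ := p
  simp only [Matrix.mulVec, dotProduct, Matrix.kroneckerMap_apply, Fintype.sum_prod_type,
    Matrix.one_apply]
  apply Finset.sum_congr rfl
  intro i' _
  rw [Finset.sum_eq_single j]
  · simp
  · intro j' _ hj'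
    simp [Ne.symm hj']
  · intro h
    exact absurd (Finset.mem_univ j) h

theorem one_kron_mulVec {d k : ℕ} (b : Matrix (Fin k) (Fin k) F) (x : Fin d × Fin k → F)
    (p : Fin d × Fin k) :
    (((1 : Matrix (Fin d) (Fin d) F) ⊗ₖ b) *ᵥ x) p = ∑ j', b p.2 j' * x (p.1, j') := by
  obtain ⟨i, j⟩ := p
  simp only [Matrix.mulVec, dotProduct, Matrix.kroneckerMap_apply, Fintype.sum_prod_type,
    Matrix.one_apply]
  rw [Finset.sum_eq_single i]
  · simp
  · intro i' _ hi'
    simp [Ne.symm hi']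
  · intro h
    exact absurd (Finset.mem_univ i) h

theorem kron_one_ten {d k : ℕ} (y : Matrix (Fin d) (Fin d) F) (a : Fin k) (u : Fin d → F) :
    (y ⊗ₖ (1 : Matrix (Fin k) (Fin k) F)) *ᵥ (ten a u) = ten a (y *ᵥ u) := by
  funext p
  rw [kron_one_mulVec, ten_apply, Matrix.mulVec, dotProduct, Finset.sum_mul]
  apply Finset.sum_congr rfl
  intro i' _
  rw [ten_apply]
  ring

theorem one_kron_single {d k : ℕ} (c a : Fin k) (x : Fin d × Fin k → F) :
    ((1 : Matrix (Fin d) (Fin d) F) ⊗ₖ (Matrix.single c a (1 : F))) *ᵥ x =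
      ten c (fun i => x (i, a)) := by
  funext p
  rw [one_kron_mulVec, ten_apply, Finset.sum_eq_single a]
  · by_cases hp : p.2 = c
    · simp [hp]
    · simp [hp, Ne.symm hp]
  · intro j' _ hj'
    simp [Ne.symm hj']
  · intro h
    exact absurd (Finset.mem_univ a) h

/-- the abstract statement on `F^d ⊗ F^k` -/
theorem homA {d k : ℕ} (R : Subgroup (GL (Fin d) F)) (hR : ActsIrreducibly (matrixSet R))
    (W' : Submodule F (Fin d × Fin k → F))
    (h1 : ∀ y ∈ R, ∀ x ∈ W', (y.1 ⊗ₖ (1 : Matrix (Fin k) (Fin k) F)) *ᵥ x ∈ W')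
    (h2 : ∀ b : Matrix (Fin k) (Fin k) F, ∀ x ∈ W',
      ((1 : Matrix (Fin d) (Fin d) F) ⊗ₖ b) *ᵥ x ∈ W') :
    W' = ⊥ ∨ W' = ⊤ := by
  rcases Nat.eq_zero_or_pos k with hk | hk
  · subst hk
    left
    rw [eq_bot_iff]
    intro x _
    rw [Submodule.mem_bot]
    funext p
    exact Fin.elim0 p.2
  · let a₀ : Fin k := ⟨0, hk⟩
    let W₀ : Submodule F (Fin d → F) := W'.comap (ten a₀)
    have hW₀ : W₀ = ⊥ ∨ W₀ = ⊤ := by
      apply hR
      rintro s ⟨y, hy, rfl⟩
      rintro _ ⟨u, hu, rfl⟩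
      show ten a₀ (Matrix.toLin' y.1 u) ∈ W'
      rw [Matrix.toLin'_apply, ← kron_one_ten]
      exact h1 y hy _ hu
    have hslice : ∀ x ∈ W', ∀ a : Fin k, (fun i => x (i, a)) ∈ W₀ := by
      intro x hx a
      show ten a₀ (fun i => x (i, a)) ∈ W'
      rw [← one_kron_single]
      exact h2 _ x hx
    rcases hW₀ with h | h
    · left
      rw [eq_bot_iff]
      intro x hx
      rw [Submodule.mem_bot]
      funext p
      have h3 := hslice x hx p.2
      rw [h, Submodule.mem_bot] at h3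
      exact congrFun h3 p.1
    · right
      rw [eq_top_iff]
      intro x _
      have hten : ∀ (u : Fin d → F) (a : Fin k), ten a u ∈ W' := by
        intro u a
        have h0 : ten a₀ u ∈ W' := by
          have h4 : u ∈ W₀ := by rw [h]; trivial
          exact h4
        have h5 := h2 (Matrix.single a a₀ 1) _ h0
        rw [one_kron_single] at h5
        have h6 : (fun i => ten a₀ u (i, a₀)) = u := by
          funext i
          simp [ten_apply]
        rw [h6] at h5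
        exact h5
      have hx : x = ∑ a : Fin k, ten a (fun i => x (i, a)) := by
        funext p
        rw [Finset.sum_apply, Finset.sum_eq_single p.2]
        · simp [ten_apply]
        · intro a _ ha
          simp [ten_apply, Ne.symm ha]
        · intro h7
          exact absurd (Finset.mem_univ p.2) h7
      rw [hx]
      exact Submodule.sum_mem _ (fun a _ => hten _ a)

theorem tmat_mul' {d k : ℕ} (e : Fin n ≃ Fin d × Fin k) (P : GL (Fin n) F)
    (a a' : Matrix (Fin d) (Fin d) F) (b b' : Matrix (Fin k) (Fin k) F) :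
    tmat e P a b * tmat e P a' b' = tmat e P (a * a') (b * b') := by
  have hP : (P⁻¹ : GL (Fin n) F).1 * P.1 = 1 := by
    rw [← Units.val_mul, inv_mul_cancel, Units.val_one]
  unfold tmat
  have hre : Matrix.reindex e.symm e.symm (a ⊗ₖ b) * Matrix.reindex e.symm e.symm (a' ⊗ₖ b') =
      Matrix.reindex e.symm e.symm ((a * a') ⊗ₖ (b * b')) := by
    rw [Matrix.mul_kronecker_mul]
    simp only [Matrix.reindex_apply, Equiv.symm_symm]
    rw [Matrix.submatrix_mul_equiv]
  calc P.1 * Matrix.reindex e.symm e.symm (a ⊗ₖ b) * (P⁻¹ : GL (Fin n) F).1 *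
        (P.1 * Matrix.reindex e.symm e.symm (a' ⊗ₖ b') * (P⁻¹ : GL (Fin n) F).1)
      = P.1 * Matrix.reindex e.symm e.symm (a ⊗ₖ b) * ((P⁻¹ : GL (Fin n) F).1 * P.1) *
          Matrix.reindex e.symm e.symm (a' ⊗ₖ b') * (P⁻¹ : GL (Fin n) F).1 := by
        simp only [Matrix.mul_assoc]
    _ = P.1 * (Matrix.reindex e.symm e.symm (a ⊗ₖ b) * Matrix.reindex e.symm e.symm (a' ⊗ₖ b')) *
          (P⁻¹ : GL (Fin n) F).1 := by
        rw [hP, Matrix.mul_one, Matrix.mul_assoc P.1]
    _ = _ := by rw [hre]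

theorem tmat_mulVec {d k : ℕ} (e : Fin n ≃ Fin d × Fin k) (P : GL (Fin n) F)
    (a : Matrix (Fin d) (Fin d) F) (b : Matrix (Fin k) (Fin k) F) (x : Fin d × Fin k → F) :
    tmat e P a b *ᵥ (P.1 *ᵥ (x ∘ e)) = P.1 *ᵥ (((a ⊗ₖ b) *ᵥ x) ∘ e) := by
  have hP : (P⁻¹ : GL (Fin n) F).1 * P.1 = 1 := by
    rw [← Units.val_mul, inv_mul_cancel, Units.val_one]
  unfold tmat
  rw [Matrix.mulVec_mulVec, Matrix.mul_assoc, Matrix.mul_assoc, hP, Matrix.mul_one,
    ← Matrix.mulVec_mulVec]
  congr 1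
  rw [Matrix.reindex_apply, Equiv.symm_symm, Matrix.submatrix_mulVec_equiv]
  congr 2
  funext q
  simp

/-- HOMP: in the homogeneous case a subspace invariant under `L` and its commutant is trivial. -/
theorem HOMP {d k : ℕ} (e : Fin n ≃ Fin d × Fin k) (P : GL (Fin n) F)
    (R : Subgroup (GL (Fin d) F)) (L : Subgroup (GL (Fin n) F))
    (hR : ActsIrreducibly (matrixSet R)) (h1 : ∀ x ∈ L, ∃ y ∈ R, x.1 = tmat e P y.1 1)
    (h2 : ∀ y ∈ R, ∃ x ∈ L, x.1 = tmat e P y.1 1) :
    ∀ W : Submodule F (Fin n → F), (∀ x ∈ L, W.map (Matrix.toLin' x.1) ≤ W) →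
      (∀ X : Matrix (Fin n) (Fin n) F, (∀ x ∈ L, X * x.1 = x.1 * X) →
        W.map (Matrix.toLin' X) ≤ W) →
      W = ⊥ ∨ W = ⊤ := by
  intro W hWL hWC
  have hP : (P⁻¹ : GL (Fin n) F).1 * P.1 = 1 := by
    rw [← Units.val_mul, inv_mul_cancel, Units.val_one]
  have hP' : P.1 * (P⁻¹ : GL (Fin n) F).1 = 1 := by
    rw [← Units.val_mul, mul_inv_cancel, Units.val_one]
  let Φ : (Fin d × Fin k → F) →ₗ[F] (Fin n → F) :=
    (Matrix.toLin' P.1).comp (LinearMap.funLeft F F e)
  have hΦ : ∀ x, Φ x = P.1 *ᵥ (x ∘ e) := fun x => rfl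
  have hsurj : ∀ w : Fin n → F, ∃ x, Φ x = w := by
    intro w
    refine ⟨((P⁻¹ : GL (Fin n) F).1 *ᵥ w) ∘ e.symm, ?_⟩
    rw [hΦ]
    have h3 : (((P⁻¹ : GL (Fin n) F).1 *ᵥ w) ∘ e.symm) ∘ e = (P⁻¹ : GL (Fin n) F).1 *ᵥ w := by
      funext q
      simp
    rw [h3, Matrix.mulVec_mulVec, hP', Matrix.one_mulVec]
  have hinv : ∀ (M : Matrix (Fin n) (Fin n) F), W.map (Matrix.toLin' M) ≤ W →
      ∀ w ∈ W, M *ᵥ w ∈ W := by
    intro M hM w hw
    apply hM
    exact ⟨w, hw, Matrix.toLin'_apply M w⟩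
  have hA := homA R hR (W.comap Φ) (by
      intro y hy x hx
      obtain ⟨xl, hxl, hxe⟩ := h2 y hy
      have h3 := hinv _ (hWL xl hxl) _ hx
      rw [hxe, hΦ, tmat_mulVec] at h3
      exact h3) (by
      intro b x hx
      have hcomm : ∀ xl ∈ L, tmat e P 1 b * xl.1 = xl.1 * tmat e P 1 b := by
        intro xl hxl
        obtain ⟨y, hy, hxe⟩ := h1 xl hxl
        rw [hxe, tmat_mul', tmat_mul', Matrix.one_mul, Matrix.mul_one, Matrix.mul_one,
          Matrix.one_mul]
      have h3 := hinv _ (hWC _ hcomm) _ hx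
      rw [hΦ, tmat_mulVec] at h3
      exact h3)
  rcases hA with h | h
  · left
    rw [eq_bot_iff]
    intro w hw
    obtain ⟨x, rfl⟩ := hsurj w
    have hx : x ∈ W.comap Φ := hw
    rw [h, Submodule.mem_bot] at hx
    rw [hx, map_zero]
    exact Submodule.zero_mem _
  · right
    rw [eq_top_iff]
    intro w _
    obtain ⟨x, rfl⟩ := hsurj w
    have hx : x ∈ W.comap Φ := by rw [h]; trivial
    exact hx

end Cfsg.Agent.Lib.Helper83.SPPHOMP
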