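import Mathlib
import Cfsg.Prelude.Def_GeometricClasses
import Cfsg.Prelude.Def_LieClassical
import Cfsg.Agent.Lib.Helper71.Asch0
import Cfsg.Agent.Lib.Helper71.SUP0

/-!
# Project U9 (helper44, S5832), piece EICHU

An element of odd order of `SU_9(q)` with `rank (g - 1) ≤ 2`: the permutation matrix of the
3-cycle `0 ↦ 1 ↦ 2 ↦ 0` (it preserves the standard hermitian form, has determinant `1`, order `3`,
and `g - 1` has its image in the span of `e₀ - e₂` and `e₁ - e₂`).
-/

set_option autoImplicit false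
set_option linter.unusedVariables false

namespace Cfsg.Agent.Lib.Helper44.U9

open Matrix Cfsg.Geo Cfsg.Agent.Lib.Helper71.Asch
open scoped Kronecker

variable {n : ℕ} {F : Type*} [Field F] [Fintype F] {q : ℕ}

/-- the 3-cycle `0 ↦ 1 ↦ 2 ↦ 0` of `Fin 9` -/
def EICHU_sigma : Equiv.Perm (Fin 9) := Equiv.swap 0 1 * Equiv.swap 1 2

theorem EICHU_sigma_apply (i : Fin 9) :
    EICHU_sigma i = if i = 0 then 1 else if i = 1 then 2 else if i = 2 then 0 else i := by
  revert i
  decide

theorem EICHU_sigma_cube : EICHU_sigma * (EICHU_sigma * EICHU_sigma) = 1 := by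
  decide

theorem EICHU_sigma_sign : Equiv.Perm.sign EICHU_sigma = 1 := by
  unfold EICHU_sigma
  rw [Equiv.Perm.sign_mul, Equiv.Perm.sign_swap (by decide), Equiv.Perm.sign_swap (by decide)]
  simp

/-- the permutation matrix of the 3-cycle as an element of `GL` -/
def EICHU_g (F : Type*) [Field F] : GL (Fin 9) F :=
  ⟨EICHU_sigma.permMatrix F, (EICHU_sigma⁻¹).permMatrix F,
    by rw [← Matrix.permMatrix_mul, inv_mul_cancel, Matrix.permMatrix_one],
    by rw [← Matrix.permMatrix_mul, mul_inv_cancel, Matrix.permMatrix_one]⟩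

omit [Fintype F] in
theorem EICHU_mulVec (x : Fin 9 → F) : (EICHU_g F).1 *ᵥ x = x ∘ EICHU_sigma :=
  Matrix.permMatrix_mulVec EICHU_sigma

omit [Fintype F] in
theorem EICHU_sub_mulVec (x : Fin 9 → F) :
    ((EICHU_g F).1 - 1) *ᵥ x = (x 1 - x 0) • (Pi.single 0 1 - Pi.single 2 1 : Fin 9 → F) +
      (x 2 - x 1) • (Pi.single 1 1 - Pi.single 2 1 : Fin 9 → F) := by
  rw [Matrix.sub_mulVec, EICHU_mulVec, Matrix.one_mulVec]
  funext i
  simp only [Pi.sub_apply, Function.comp_apply, Pi.add_apply, Pi.smul_apply, smul_eq_mul,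
    EICHU_sigma_apply, Pi.single_apply]
  by_cases h0 : i = 0
  · subst h0
    simp
  by_cases h1 : i = 1
  · subst h1
    simp
  by_cases h2 : i = 2
  · subst h2
    simp
  simp [h0, h1, h2]

/-- EICHU: an element of odd order of `SU_9(q)` with `rank (g - 1) ≤ 2`. -/
theorem EICHU (hF : Fintype.card F = q ^ 2) :
    ∃ g : GL (Fin 9) F, g ∈ Cfsg.GU 9 F q ⊓ specialLinear (Fin 9) F ∧ g ≠ 1 ∧
      (g.1 - 1).rank ≤ 2 ∧ ∃ p : ℕ, Odd p ∧ g ^ p = 1 := by
  classical
  refine ⟨EICHU_g F, ?_, ?_, ?_, 3, by decide, ?_⟩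
  · rw [Cfsg.Agent.Lib.Helper71.SUP.mem_S_iff]
    refine ⟨fun u v => ?_, ?_⟩
    · rw [EICHU_mulVec, EICHU_mulVec]
      unfold Cfsg.hermForm
      exact Equiv.sum_comp EICHU_sigma (fun i => u i * v i ^ q)
    · show (EICHU_sigma.permMatrix F).det = 1
      rw [Matrix.det_permutation, EICHU_sigma_sign]
      simp
  · intro h1
    have h2 := EICHU_mulVec (F := F) (Pi.single 0 1)
    rw [h1, Units.val_one, Matrix.one_mulVec] at h2
    have h3 := congrFun h2 2
    rw [Function.comp_apply, EICHU_sigma_apply] at h3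
    simp at h3
  · have hrange : LinearMap.range ((EICHU_g F).1 - 1).mulVecLin ≤
        Submodule.span F
          ((({(Pi.single 0 1 - Pi.single 2 1 : Fin 9 → F), Pi.single 1 1 - Pi.single 2 1} :
            Finset (Fin 9 → F)) : Set (Fin 9 → F))) := by
      rintro _ ⟨x, rfl⟩
      rw [Matrix.mulVecLin_apply, EICHU_sub_mulVec]
      exact add_mem
        (Submodule.smul_mem _ _ (Submodule.subset_span (by simp)))
        (Submodule.smul_mem _ _ (Submodule.subset_span (by simp)))
    calc ((EICHU_g F).1 - 1).rank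
        = Module.finrank F (LinearMap.range ((EICHU_g F).1 - 1).mulVecLin) := rfl
      _ ≤ Module.finrank F (Submodule.span F
          ((({(Pi.single 0 1 - Pi.single 2 1 : Fin 9 → F), Pi.single 1 1 - Pi.single 2 1} :
            Finset (Fin 9 → F)) : Set (Fin 9 → F)))) := Submodule.finrank_mono hrange
      _ ≤ ({(Pi.single 0 1 - Pi.single 2 1 : Fin 9 → F), Pi.single 1 1 - Pi.single 2 1} :
            Finset (Fin 9 → F)).card := finrank_span_finset_le_card _
      _ ≤ 2 := Finset.card_le_two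
  · apply Units.ext
    rw [Units.val_pow_eq_pow_val, Units.val_one]
    show (EICHU_sigma.permMatrix F) ^ 3 = 1
    rw [pow_succ, pow_two, ← Matrix.permMatrix_mul, ← Matrix.permMatrix_mul, EICHU_sigma_cube,
      Matrix.permMatrix_one]

end Cfsg.Agent.Lib.Helper44.U9
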