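import Mathlib
import Cfsg.Agent.Lib.Helper48.SVA

/-!
# S2425 piece SV-COMPL (project of helper48; proof by helper83)

Complements of `A` in `C₀ ⊕ A` correspond to homomorphisms `C₀ → A`.
-/

set_option autoImplicit false
set_option linter.style.haveILetI false
set_option linter.unusedVariables false

namespace Cfsg.Agent.Lib.Helper48.SV

open Cfsg
open scoped MatrixGroups Polynomial

/-- piece COMPL: complements of `A` in `C₀ ⊕ A` correspond to homomorphisms `C₀ → A` -/
theorem card_compl {R : Type*} [Ring R] {M : Type*} [AddCommGroup M] [Module R M]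
    (A C₀ : Submodule R M) (h : Disjoint C₀ A) :
    Nat.card {C : Submodule R M // C ⊔ A = C₀ ⊔ A ∧ Disjoint C A} = Nat.card (↥C₀ →ₗ[R] ↥A) := by
  classical
  symm
  let g : (↥C₀ →ₗ[R] ↥A) → (↥C₀ →ₗ[R] M) := fun f => C₀.subtype + A.subtype.comp f
  have hg : ∀ (f : ↥C₀ →ₗ[R] ↥A) (c : C₀), g f c = (c : M) + (f c : M) := fun f c => rfl
  have hdisj : ∀ x : M, x ∈ C₀ → x ∈ A → x = 0 := by
    intro x hx1 hx2
    have hx : x ∈ C₀ ⊓ A := ⟨hx1, hx2⟩
    rw [h.eq_bot] at hx
    exact (Submodule.mem_bot R).1 hx
  have h1 : ∀ f : ↥C₀ →ₗ[R] ↥A, LinearMap.range (g f) ⊔ A = C₀ ⊔ A ∧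
      Disjoint (LinearMap.range (g f)) A := by
    intro f
    constructor
    · apply le_antisymm
      · apply sup_le
        · rintro _ ⟨c, rfl⟩
          rw [hg]
          exact Submodule.add_mem _ (Submodule.mem_sup_left c.2)
            (Submodule.mem_sup_right (f c).2)
        · exact le_sup_right
      · apply sup_le
        · intro c hc
          have hc2 : c = g f ⟨c, hc⟩ - (f ⟨c, hc⟩ : M) := by
            rw [hg]; simp
          rw [hc2]
          exact Submodule.sub_mem _ (Submodule.mem_sup_left ⟨_, rfl⟩)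
            (Submodule.mem_sup_right (f ⟨c, hc⟩).2)
        · exact le_sup_right
    · rw [Submodule.disjoint_def]
      rintro _ ⟨c, rfl⟩ hA
      rw [hg] at hA ⊢
      have hc : (c : M) ∈ A := by
        have h2 := Submodule.sub_mem _ hA (f c).2
        simpa using h2
      have hc0 : (c : M) = 0 := hdisj _ c.2 hc
      have hc1 : c = 0 := Subtype.ext hc0
      rw [hc1]
      simp
  refine Nat.card_congr (Equiv.ofBijective (fun f => ⟨LinearMap.range (g f), h1 f⟩) ⟨?_, ?_⟩)
  · intro f f' hff
    have hr : LinearMap.range (g f) = LinearMap.range (g f') := congrArg Subtype.val hff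
    apply LinearMap.ext
    intro c
    have hc : g f c ∈ LinearMap.range (g f') := by
      rw [← hr]; exact ⟨c, rfl⟩
    obtain ⟨c', hc'⟩ := hc
    rw [hg, hg] at hc'
    have hcc : ((c' - c : C₀) : M) = 0 := by
      apply hdisj _ (c' - c).2
      have h3 : ((c' - c : C₀) : M) = (f c : M) - (f' c' : M) := by
        rw [Submodule.coe_sub, sub_eq_sub_iff_add_eq_add, hc', add_comm]
      rw [h3]
      exact Submodule.sub_mem _ (f c).2 (f' c').2
    have hcc' : c' = c := by
      have h4 : c' - c = 0 := Subtype.ext hcc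
      exact sub_eq_zero.1 h4
    rw [hcc'] at hc'
    apply Subtype.ext
    exact (add_left_cancel hc').symm
  · rintro ⟨C, hC1, hC2⟩
    have hdisjC : ∀ x : M, x ∈ C → x ∈ A → x = 0 := by
      intro x hx1 hx2
      have hx : x ∈ C ⊓ A := ⟨hx1, hx2⟩
      rw [hC2.eq_bot] at hx
      exact (Submodule.mem_bot R).1 hx
    have hex : ∀ c : C₀, ∃ a : A, (c : M) - (a : M) ∈ C := by
      intro c
      have hc : (c : M) ∈ C ⊔ A := by
        rw [hC1]; exact Submodule.mem_sup_left c.2
      obtain ⟨y, hy, z, hz, hyz⟩ := Submodule.mem_sup.1 hc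
      refine ⟨⟨z, hz⟩, ?_⟩
      have h5 : (c : M) - z = y := by rw [← hyz]; simp
      rw [h5]; exact hy
    choose a ha using hex
    have huniq : ∀ (c : C₀) (a' : A), (c : M) - (a' : M) ∈ C → a' = a c := by
      intro c a' ha'
      have h6 : ((a' - a c : A) : M) = 0 := by
        apply hdisjC _ _ (a' - a c).2
        have h7 : ((a' - a c : A) : M) = ((c : M) - (a c : M)) - ((c : M) - (a' : M)) := by
          rw [Submodule.coe_sub]; abel
        rw [h7]
        exact Submodule.sub_mem _ (ha c) ha'
      have h8 : a' - a c = 0 := Subtype.ext h6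
      exact sub_eq_zero.1 h8
    let f : ↥C₀ →ₗ[R] ↥A :=
      { toFun := fun c => - a c
        map_add' := by
          intro c c'
          have h9 : a c + a c' = a (c + c') := by
            apply huniq
            have h10 : ((c + c' : C₀) : M) - ((a c + a c' : A) : M) =
                ((c : M) - (a c : M)) + ((c' : M) - (a c' : M)) := by
              rw [Submodule.coe_add, Submodule.coe_add]; abel
            rw [h10]
            exact Submodule.add_mem _ (ha c) (ha c')
          rw [← h9, neg_add]
        map_smul' := by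
          intro r c
          have h9 : r • a c = a (r • c) := by
            apply huniq
            have h10 : ((r • c : C₀) : M) - ((r • a c : A) : M) =
                r • ((c : M) - (a c : M)) := by
              rw [Submodule.coe_smul, Submodule.coe_smul, smul_sub]
            rw [h10]
            exact Submodule.smul_mem _ r (ha c)
          simp only [RingHom.id_apply]
          rw [← h9, smul_neg] }
    have hf : ∀ c : C₀, (f c : M) = - (a c : M) := fun c => rfl
    refine ⟨f, ?_⟩
    apply Subtype.ext
    show LinearMap.range (g f) = C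
    apply le_antisymm
    · rintro _ ⟨c, rfl⟩
      rw [hg, hf, ← sub_eq_add_neg]
      exact ha c
    · intro x hx
      have hx2 : x ∈ C₀ ⊔ A := by
        rw [← hC1]; exact Submodule.mem_sup_left hx
      obtain ⟨c, hc, z, hz, hcz⟩ := Submodule.mem_sup.1 hx2
      have h11 : (-⟨z, hz⟩ : A) = a ⟨c, hc⟩ := by
        apply huniq
        have h12 : ((⟨c, hc⟩ : C₀) : M) - ((-⟨z, hz⟩ : A) : M) = x := by
          rw [← hcz]; simp
        rw [h12]; exact hx
      refine ⟨⟨c, hc⟩, ?_⟩
      rw [hg, hf, ← h11, ← hcz]
      simp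

end Cfsg.Agent.Lib.Helper48.SV
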