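import Mathlib
import Cfsg.Agent.Lib.Helper52.SP8EBDefs

/-! SP8-EB (sub-project of S5823, helper52), piece QSPAN: over a field with three elements the
quaternion elements `1, i, j, k` span the `2 × 2` matrices. -/

set_option autoImplicit false

namespace Cfsg.Agent.Lib.Helper52.SP8EB

open Matrix Cfsg.Geo Cfsg.Agent.Lib.Helper71.Asch

variable {n : ℕ} {F : Type*} [Field F] [Fintype F]

/-- QSPAN [card F = 3]: 1, i = !![0,1;-1,0], j = !![1,1;1,-1], i*j = !![1,-1;-1,-1] are in Q and span M_2(F). -/
theorem QSPAN (hq3 : Fintype.card F = 3) : HQspan F := by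
  have h3 : (3 : F) = 0 := by
    have := Nat.cast_card_eq_zero F
    rw [hq3] at this
    exact_mod_cast this
  intro A
  refine ⟨![-(A 0 0 + A 1 1), A 1 0 - A 0 1, A 0 0 - A 1 1 + A 0 1 + A 1 0,
      A 0 0 - A 1 1 - A 0 1 - A 1 0],
    ![1, !![0, 1; -1, 0], !![1, 1; 1, -1], !![1, -1; -1, -1]], ?_, ?_⟩
  · intro t
    fin_cases t
    · exact ⟨Matrix.det_one, Or.inl rfl⟩
    · refine ⟨?_, Or.inr (Or.inr ?_)⟩
      · simp [Matrix.det_fin_two]
      · simp [Matrix.trace_fin_two]
    · refine ⟨?_, Or.inr (Or.inr ?_)⟩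
      · simp [Matrix.det_fin_two]
        linear_combination (-1 : F) * h3
      · simp [Matrix.trace_fin_two]
    · refine ⟨?_, Or.inr (Or.inr ?_)⟩
      · simp [Matrix.det_fin_two]
        linear_combination (-1 : F) * h3
      · simp [Matrix.trace_fin_two]
  · ext i j
    fin_cases i <;> fin_cases j <;> simp [Fin.sum_univ_four] <;>
      first
        | linear_combination (A 1 1) * h3
        | linear_combination (-(A 1 1)) * h3
        | linear_combination (A 1 0) * h3
        | linear_combination (-(A 1 0)) * h3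
        | linear_combination (A 0 1) * h3
        | linear_combination (-(A 0 1)) * h3
        | linear_combination (A 0 0) * h3

end Cfsg.Agent.Lib.Helper52.SP8EB
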