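import Mathlib
import Cfsg.Prelude.Def_GeometricClasses
import Cfsg.Prelude.Def_LieClassical
import Cfsg.Agent.Lib.Helper59.U52Defs

/-! Project U52 (S5796, helper59), piece SYL: two elements of order `11` of a subgroup `S` of
`GL_5(4)` generate `S`-conjugate subgroups (the `11`-part of `|GL_5(4)|` is `11`). -/

set_option autoImplicit false
set_option linter.style.haveILetI false
set_option linter.unusedVariables false

namespace Cfsg.Agent.Lib.Helper59.U52

open Matrix Cfsg.Geo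

private theorem syl_mem_zpowers {G : Type*} [Group G] (S : Subgroup G) (c : G) (hc : c ∈ S)
    (y : ↥S) : y ∈ Subgroup.zpowers (⟨c, hc⟩ : ↥S) ↔ (y : G) ∈ Subgroup.zpowers c := by
  simp only [Subgroup.mem_zpowers_iff]
  constructor
  · rintro ⟨k, rfl⟩
    exact ⟨k, by simp⟩
  · rintro ⟨k, hk⟩
    exact ⟨k, Subtype.ext (by simpa using hk)⟩

/-- in a finite group whose order is not divisible by `p²`, a cyclic subgroup of order `p` is
a Sylow `p`-subgroup -/
private theorem syl_sylow_eq {G : Type*} [Group G] [Finite G] (p : ℕ) [Fact p.Prime]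
    (hp2 : ¬ p ^ 2 ∣ Nat.card G) (c : G) (ho : orderOf c = p) (P : Sylow p G)
    (hle : Subgroup.zpowers c ≤ (P : Subgroup G)) : (P : Subgroup G) = Subgroup.zpowers c := by
  have hp : p.Prime := Fact.out
  obtain ⟨n, hn⟩ := IsPGroup.iff_card.mp P.isPGroup'
  have hdvd : Nat.card (P : Subgroup G) ∣ Nat.card G := Subgroup.card_subgroup_dvd_card _
  have hn1 : n ≤ 1 := by
    by_contra hcon
    have h2 : 2 ≤ n := by omega
    exact hp2 ((pow_dvd_pow p h2).trans (hn ▸ hdvd))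
  have hcz : Nat.card (Subgroup.zpowers c) = p := by rw [Nat.card_zpowers, ho]
  have hcard : Nat.card (P : Subgroup G) ≤ Nat.card (Subgroup.zpowers c) := by
    rw [hcz, hn]
    calc p ^ n ≤ p ^ 1 := Nat.pow_le_pow_right hp.pos hn1
      _ = p := pow_one p
  exact (Subgroup.eq_of_le_of_card_ge hle hcard).symm

-- piece SYL
theorem syl {F : Type*} [Field F] [Fintype F] (hF : Fintype.card F = 4)
    (S : Subgroup (GL (Fin 5) F)) (c c₀ : GL (Fin 5) F) (hc : c ∈ S) (hc₀ : c₀ ∈ S)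
    (ho : orderOf c = 11) (ho₀ : orderOf c₀ = 11) :
    ∃ s ∈ S, ∀ x : GL (Fin 5) F,
      x ∈ Subgroup.zpowers c ↔ s⁻¹ * x * s ∈ Subgroup.zpowers c₀ := by
  classical
  haveI : Fact (Nat.Prime 11) := ⟨by norm_num⟩
  have hGL : Nat.card (GL (Fin 5) F) = 1023 * 1020 * 1008 * 960 * 768 := by
    rw [Matrix.card_GL_field, hF]
    simp [Fin.prod_univ_five]
  have hS2 : ¬ 11 ^ 2 ∣ Nat.card ↥S := by
    intro h
    have h1 : 11 ^ 2 ∣ Nat.card (GL (Fin 5) F) := h.trans (Subgroup.card_subgroup_dvd_card S)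
    rw [hGL] at h1
    revert h1
    norm_num
  have ho' : orderOf (⟨c, hc⟩ : ↥S) = 11 := by
    rw [← ho]; exact Subgroup.orderOf_mk c hc
  have ho₀' : orderOf (⟨c₀, hc₀⟩ : ↥S) = 11 := by
    rw [← ho₀]; exact Subgroup.orderOf_mk c₀ hc₀
  have hpg : ∀ d : ↥S, orderOf d = 11 → IsPGroup 11 ↥(Subgroup.zpowers d) := by
    intro d hd
    apply IsPGroup.of_card (n := 1)
    rw [Nat.card_zpowers, hd, pow_one]
  obtain ⟨P, hP⟩ := (hpg _ ho').exists_le_sylow
  obtain ⟨P₀, hP₀⟩ := (hpg _ ho₀').exists_le_sylow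
  have hPe := syl_sylow_eq 11 hS2 _ ho' P hP
  have hP₀e := syl_sylow_eq 11 hS2 _ ho₀' P₀ hP₀
  obtain ⟨g, hg⟩ := MulAction.exists_smul_eq ↥S P₀ P
  have hgs : ((g • P₀ : Sylow 11 ↥S) : Subgroup ↥S) = (P : Subgroup ↥S) := by rw [hg]
  have key : ∀ y : ↥S, y ∈ (P : Subgroup ↥S) ↔ g⁻¹ * y * g ∈ (P₀ : Subgroup ↥S) := by
    intro y
    rw [← hgs, Sylow.coe_subgroup_smul, Subgroup.mem_pointwise_smul_iff_inv_smul_mem]
    simp [MulAut.smul_def]
  refine ⟨g, g.2, fun x => ?_⟩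
  constructor
  · intro hx
    have hxS : x ∈ S := by
      rw [Subgroup.mem_zpowers_iff] at hx
      obtain ⟨k, rfl⟩ := hx
      exact S.zpow_mem hc k
    have h1 : (⟨x, hxS⟩ : ↥S) ∈ (P : Subgroup ↥S) := by
      rw [hPe, syl_mem_zpowers]; exact hx
    have h2 := (key _).1 h1
    rw [hP₀e, syl_mem_zpowers] at h2
    simpa using h2
  · intro hx
    have hyS : (g : GL (Fin 5) F)⁻¹ * x * g ∈ S := by
      rw [Subgroup.mem_zpowers_iff] at hx
      obtain ⟨k, hk⟩ := hx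
      rw [← hk]
      exact S.zpow_mem hc₀ k
    have hxS : x ∈ S := by
      have h3 : (g : GL (Fin 5) F) * ((g : GL (Fin 5) F)⁻¹ * x * g) * (g : GL (Fin 5) F)⁻¹ ∈ S :=
        S.mul_mem (S.mul_mem g.2 hyS) (S.inv_mem g.2)
      have h4 : (g : GL (Fin 5) F) * ((g : GL (Fin 5) F)⁻¹ * x * g) * (g : GL (Fin 5) F)⁻¹ = x := by
        group
      rwa [h4] at h3
    have h2 : g⁻¹ * (⟨x, hxS⟩ : ↥S) * g ∈ (P₀ : Subgroup ↥S) := by
      rw [hP₀e, syl_mem_zpowers]
      simpa using hx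
    have h1 := (key _).2 h2
    rw [hPe, syl_mem_zpowers] at h1
    exact h1

end Cfsg.Agent.Lib.Helper59.U52
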