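import Mathlib
import Cfsg.Agent.Lib.Helper72.JLDefs
import Cfsg.Agent.Lib.Helper82.JcOCPC

/-! Project JL (S2942, architect helper72), piece JL-TRC: in a ZN-group, for `L` a `J(T)`-overgroup,
the centralizer in `L` of `Ω₁(Z(T))` normalizes `T`. -/

set_option autoImplicit false
set_option linter.style.haveILetI false
set_option linter.unusedVariables false

namespace Cfsg.Agent.Lib.Helper83.JL

open Cfsg.Agent.Lib.Helper72.JL Cfsg.Agent.Lib.Helper72.SC Cfsg.Agent.Lib.Helper78.Jc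

universe u

/-- a 2-subgroup `Q` of `L` containing a subgroup `T` of odd index in `L` equals `T` -/
theorem trc_le_of_odd {G : Type u} [Group G] [Finite G] (T Q L : Subgroup G) (hTQ : T ≤ Q)
    (hQL : Q ≤ L) (hQ2 : IsPGroup 2 ↥Q) (hodd : Odd (T.relIndex L)) : Q ≤ T := by
  haveI : Fact (Nat.Prime 2) := ⟨Nat.prime_two⟩
  have hmul := Subgroup.relIndex_mul_relIndex T Q L hTQ hQL
  obtain ⟨n, hn⟩ : ∃ n : ℕ, T.relIndex Q = 2 ^ n := hQ2.index (T.subgroupOf Q)
  have hone : T.relIndex Q = 1 := by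
    rcases Nat.eq_zero_or_pos n with h0 | hpos
    · rw [hn, h0, pow_zero]
    · exfalso
      have h2 : 2 ∣ T.relIndex L := by
        rw [← hmul, hn]
        exact Dvd.dvd.mul_right (dvd_pow_self 2 hpos.ne') _
      exact (Nat.not_even_iff_odd.2 hodd) (even_iff_two_dvd.2 h2)
  exact Subgroup.relIndex_eq_one.1 hone

theorem trc : TrcStmt.{u} := by
  intro G _ _ hZN T L hL x hx
  obtain ⟨_, _, hZ⟩ := hZN
  obtain ⟨⟨hTL, hT2, hodd⟩, _, hcent⟩ := hL
  haveI : Fact (Nat.Prime 2) := ⟨Nat.prime_two⟩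
  obtain ⟨S, hTS⟩ := hT2.exists_le_sylow
  -- `S ⊓ L = T`
  have hSL : (S : Subgroup G) ⊓ L = T :=
    le_antisymm (trc_le_of_odd T _ L (le_inf hTS hTL) inf_le_right
      (S.isPGroup'.to_le inf_le_left) hodd) (le_inf hTS hTL)
  -- `O₂(L) ≤ T`
  have hP2 : IsPGroup 2 ↥(Cfsg.pCoreOf 2 L) := Cfsg.Agent.Lib.Helper82.Jc.pc_pgroup L
  have hPL : Cfsg.pCoreOf 2 L ≤ L := Cfsg.Agent.Lib.Helper82.Jc.pc_le L
  have hPT : Cfsg.pCoreOf 2 L ≤ T := by
    have h1 : IsPGroup 2 ↥(T ⊔ Cfsg.pCoreOf 2 L) :=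
      IsPGroup.to_sup_of_normal_right' hT2 hP2
        (hTL.trans (Cfsg.Agent.Lib.Helper82.Jc.pc_le_normalizer L))
    exact le_sup_right.trans (trc_le_of_odd T _ L le_sup_left (sup_le hTL hPL) h1 hodd)
  -- `x` centralizes `Ω₁(Z(S))`
  have hxc : (x : G) ∈ Subgroup.centralizer (Cfsg.omegaCenterOf (S : Subgroup G) : Set G) := by
    rw [Subgroup.mem_centralizer_iff]
    intro z hz
    have hzS : z ∈ (S : Subgroup G) := Cfsg.Agent.Lib.Helper82.Jc.oc_le _ hz
    have hzc : ∀ y ∈ (S : Subgroup G), z * y = y * z :=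
      fun y hy => Cfsg.Agent.Lib.Helper82.Jc.oc_comm _ z hz y hy
    have hz2 : z * z = 1 := Cfsg.Agent.Lib.Helper82.Jc.oc_sq _ z hz
    have hzP : z ∈ Cfsg.pCoreOf 2 L := by
      apply hcent
      rw [Subgroup.mem_centralizer_iff]
      intro y hy
      exact (hzc y (hTS (hPT hy))).symm
    have hzT : z ∈ T := hPT hzP
    have hzL : z ∈ L := hTL hzT
    have hmem : (⟨z, hzL⟩ : ↥L) ∈ Cfsg.omegaCenterOf (T.subgroupOf L) := by
      apply Cfsg.Agent.Lib.Helper82.Jc.oc_mem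
      · rw [Subgroup.mem_subgroupOf]; exact hzT
      · intro y hy
        rw [Subgroup.mem_subgroupOf] at hy
        apply Subtype.ext
        exact hzc y (hTS hy)
      · apply Subtype.ext
        exact hz2
    have h := hx _ hmem
    have h' : (x : G) * z = z * (x : G) := congrArg Subtype.val h
    exact h'.symm
  have hxN : (x : G) ∈ Subgroup.normalizer ((S : Subgroup G) : Set G) := hZ S hxc
  rw [Subgroup.mem_normalizer_iff]
  intro h
  rw [Subgroup.mem_subgroupOf, Subgroup.mem_subgroupOf, ← hSL, Subgroup.mem_inf, Subgroup.mem_inf]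
  have hN := (Subgroup.mem_normalizer_iff.1 hxN) (h : G)
  constructor
  · rintro ⟨h1, _⟩
    exact ⟨hN.1 h1, (x * h * x⁻¹).2⟩
  · rintro ⟨h1, _⟩
    exact ⟨hN.2 h1, h.2⟩

end Cfsg.Agent.Lib.Helper83.JL
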