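import Mathlib
import Cfsg.Prelude.Def_Blocks
import Cfsg.Agent.Lib.Helper4.CharClosure

/-!
# S4503, piece RED1 (helper22's BF project): strong induction via the normal closure of an
element of order `p`
-/

set_option autoImplicit false
set_option linter.style.haveILetI false
set_option linter.unusedVariables false
set_option linter.unusedSectionVars false

namespace Cfsg.Agent.Lib.Helper83.BFT

open Cfsg

universe u

/-- auxiliary: a group of order divisible by `p` exactly once with a small faithful character
has a normal subgroup of order `p` -/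
theorem red_ind_aux (p : ℕ) (hp : p.Prime)
    (htop : ∀ (H : Type u) [Group H] [Finite H], p ∣ Nat.card H → ¬ p ^ 2 ∣ Nat.card H →
      ∀ z : H, orderOf z = p → Subgroup.normalClosure ({z} : Set H) = ⊤ →
      ∀ χ : H → ℂ, IsCharacter H χ → (∀ g : H, χ g = χ 1 → g = 1) →
      2 * charDegree χ + 1 < p → Nat.card H = p) :
    ∀ (n : ℕ) (G : Type u) [Group G] [Finite G], Nat.card G = n → p ∣ Nat.card G →
      ¬ p ^ 2 ∣ Nat.card G → ∀ χ : G → ℂ, IsCharacter G χ → (∀ g : G, χ g = χ 1 → g = 1) →
      2 * charDegree χ + 1 < p → ∃ L : Subgroup G, L.Normal ∧ Nat.card L = p := by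
  intro n
  induction n using Nat.strong_induction_on with
  | _ n ih =>
    intro G _ _ hn hdiv hsq χ hχ hfaith hdeg
    haveI : Fact p.Prime := ⟨hp⟩
    obtain ⟨z, hz⟩ := exists_prime_orderOf_dvd_card' p hdiv
    by_cases hH : Subgroup.normalClosure ({z} : Set G) = ⊤
    · have hc := htop G hdiv hsq z hz hH χ hχ hfaith hdeg
      refine ⟨⊤, inferInstance, ?_⟩
      rw [Subgroup.card_top]
      exact hc
    · set H : Subgroup G := Subgroup.normalClosure ({z} : Set G) with hHdef
      have hlt : Nat.card H < n := by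
        rw [← hn]
        refine lt_of_le_of_ne (Subgroup.card_le_card_group H) ?_
        intro h
        exact hH (Subgroup.eq_top_of_card_eq H h)
      have hzH : z ∈ H := Subgroup.subset_normalClosure (Set.mem_singleton z)
      have hordH : orderOf (⟨z, hzH⟩ : H) = p := by
        rw [← hz]
        exact (Subgroup.orderOf_mk z hzH)
      have hdivH : p ∣ Nat.card H := hordH ▸ orderOf_dvd_natCard _
      have hcardHG : Nat.card H ∣ Nat.card G := Subgroup.card_subgroup_dvd_card H
      have hsqH : ¬ p ^ 2 ∣ Nat.card H := fun h => hsq (h.trans hcardHG)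
      have hχH : IsCharacter H (fun h : H => χ h) :=
        Cfsg.Agent.Lib.Helper4.isCharacter_restrict H χ hχ
      have hfaithH : ∀ g : H, (fun h : H => χ h) g = (fun h : H => χ h) 1 → g = 1 := by
        intro g hg
        apply Subtype.ext
        exact hfaith g hg
      have hdegH : 2 * charDegree (fun h : H => χ h) + 1 < p := hdeg
      obtain ⟨L, hLn, hLp⟩ := ih (Nat.card H) hlt H rfl hdivH hsqH _ hχH hfaithH hdegH
      -- `L` is the set of elements of `H` of order dividing `p`
      have hidx : ¬ p ∣ L.index := by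
        intro h
        apply hsqH
        rw [← Subgroup.card_mul_index L, hLp, pow_two]
        exact Nat.mul_dvd_mul_left p h
      have hmem : ∀ y : H, y ^ p = 1 → y ∈ L := by
        intro y hy
        haveI := hLn
        rw [← QuotientGroup.eq_one_iff]
        have h1 : orderOf ((y : H ⧸ L)) ∣ p := by
          apply orderOf_dvd_of_pow_eq_one
          rw [← QuotientGroup.mk_pow, hy]
          rfl
        have h2 : orderOf ((y : H ⧸ L)) ∣ L.index := by
          rw [Subgroup.index]
          exact orderOf_dvd_natCard _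
        rcases (Nat.dvd_prime hp).mp h1 with h3 | h3
        · exact orderOf_eq_one_iff.mp h3
        · exact absurd (h3 ▸ h2) hidx
      have hLpow : ∀ y ∈ L, y ^ p = 1 := by
        intro y hy
        have h1 : (⟨y, hy⟩ : L) ^ Nat.card L = 1 := pow_card_eq_one'
        rw [hLp] at h1
        have h2 := congrArg (Subtype.val : L → H) h1
        simpa using h2
      refine ⟨L.map H.subtype, ⟨?_⟩, ?_⟩
      · rintro x ⟨y, hy, rfl⟩ g
        have hconj : g * (y : G) * g⁻¹ ∈ H :=
          (inferInstance : H.Normal).conj_mem _ y.2 g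
        refine ⟨⟨g * (y : G) * g⁻¹, hconj⟩, ?_, rfl⟩
        apply hmem
        apply Subtype.ext
        have h1 : ((y ^ p : H) : G) = 1 := by rw [hLpow y hy]; rfl
        simp only [Subgroup.coe_pow, Subgroup.coe_one] at h1 ⊢
        rw [conj_pow, h1, mul_one, mul_inv_cancel]
      · rw [Subgroup.card_map_of_injective H.subtype_injective]
        exact hLp

/-- PIECE RED1 -/
theorem red_ind (p : ℕ) (hp : p.Prime)
    (htop : ∀ (H : Type u) [Group H] [Finite H], p ∣ Nat.card H → ¬ p ^ 2 ∣ Nat.card H →
      ∀ z : H, orderOf z = p → Subgroup.normalClosure ({z} : Set H) = ⊤ →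
      ∀ χ : H → ℂ, IsCharacter H χ → (∀ g : H, χ g = χ 1 → g = 1) →
      2 * charDegree χ + 1 < p → Nat.card H = p)
    (G : Type u) [Group G] [Finite G] (hdiv : p ∣ Nat.card G) (hsq : ¬ p ^ 2 ∣ Nat.card G)
    (hnn : ∀ H : Subgroup G, H.Normal → Nat.card H ≠ p) (χ : G → ℂ) (hχ : IsCharacter G χ)
    (hfaith : ∀ g : G, χ g = χ 1 → g = 1) : p ≤ 2 * charDegree χ + 1 := by
  by_contra hlt
  obtain ⟨L, hLn, hLp⟩ := red_ind_aux p hp htop (Nat.card G) G rfl hdiv hsq χ hχ hfaith
    (not_le.mp hlt)
  exact hnn L hLn hLp

end Cfsg.Agent.Lib.Helper83.BFT
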