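import Mathlib
import Cfsg.Prelude.Def_Blocks
import Cfsg.Agent.Lib.Helper83.Quot
import Cfsg.Agent.Lib.Helper83.IrrBasic
import Cfsg.Agent.Lib.Helper4.CharDecomp
import Cfsg.Agent.Lib.Helper82.CharCore

/-!
# S4503, piece RED2 (helper22's BF project): reduction to faithful irreducible characters
-/

set_option autoImplicit false
set_option linter.style.haveILetI false
set_option linter.unusedVariables false
set_option linter.unusedSectionVars false

namespace Cfsg.Agent.Lib.Helper83.BFT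

open Cfsg Cfsg.Agent.Lib.Helper83

universe u

/-- PIECE RED2 -/
theorem red_top (p : ℕ) (hp : p.Prime)
    (hcore : ∀ (H : Type u) [Group H] [Finite H], p ∣ Nat.card H → ¬ p ^ 2 ∣ Nat.card H →
      ∀ z : H, orderOf z = p → Subgroup.normalClosure ({z} : Set H) = ⊤ →
      ∀ χ : IrrCharacter H, (∀ g : H, χ.1 g = χ.1 1 → g = 1) →
      2 * charDegree χ.1 + 1 < p → Nat.card H = p)
    (G : Type u) [Group G] [Finite G] (hdiv : p ∣ Nat.card G) (hsq : ¬ p ^ 2 ∣ Nat.card G)
    (z : G) (hz : orderOf z = p) (hncl : Subgroup.normalClosure ({z} : Set G) = ⊤)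
    (χ : G → ℂ) (hχ : IsCharacter G χ) (hfaith : ∀ g : G, χ g = χ 1 → g = 1)
    (hdeg : 2 * charDegree χ + 1 < p) : Nat.card G = p := by
  classical
  haveI : Fact p.Prime := ⟨hp⟩
  haveI : Fintype G := Fintype.ofFinite G
  haveI : Finite (IrrCharacter G) := Cfsg.Agent.Lib.Helper82.finite_irrCharacter G
  haveI : Fintype (IrrCharacter G) := Fintype.ofFinite _
  obtain ⟨m, hm⟩ := Cfsg.Agent.Lib.Helper4.exists_decomp_of_isCharacter χ hχ
  -- the degree of `χ` is the sum of the degrees of its constituents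
  have hχ1 : χ 1 = ((∑ ψ : IrrCharacter G, m ψ * charDegree ψ.1 : ℕ) : ℂ) := by
    rw [hm]
    simp only [Finset.sum_apply, Pi.smul_apply, smul_eq_mul]
    push_cast
    refine Finset.sum_congr rfl fun ψ _ => ?_
    rw [(irr_degree ψ.2).2]
  have hdegχ : charDegree χ = ∑ ψ : IrrCharacter G, m ψ * charDegree ψ.1 := by
    show ⌊(χ 1).re⌋₊ = _
    rw [hχ1, Complex.natCast_re, Nat.floor_natCast]
  have hdegψ : ∀ ψ : IrrCharacter G, m ψ ≠ 0 → charDegree ψ.1 ≤ charDegree χ := by
    intro ψ hmψ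
    rw [hdegχ]
    have h1 : m ψ * charDegree ψ.1 ≤ ∑ ψ' : IrrCharacter G, m ψ' * charDegree ψ'.1 :=
      Finset.single_le_sum (f := fun ψ' : IrrCharacter G => m ψ' * charDegree ψ'.1)
        (fun _ _ => Nat.zero_le _) (Finset.mem_univ ψ)
    have h2 : charDegree ψ.1 ≤ m ψ * charDegree ψ.1 :=
      Nat.le_mul_of_pos_left _ (Nat.pos_of_ne_zero hmψ)
    exact h2.trans h1
  -- every `p`-th power lies in the kernel of every constituent
  have key : ∀ ψ : IrrCharacter G, m ψ ≠ 0 → ∀ g : G, ψ.1 (g ^ p) = ψ.1 1 := by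
    intro ψ hmψ g
    by_cases hzN : z ∈ irrKer ψ
    · have hN : irrKer ψ = ⊤ := by
        have h1 : Subgroup.normalClosure ({z} : Set G) ≤ irrKer ψ :=
          Subgroup.normalClosure_le_normal (by simpa using hzN)
        rw [hncl] at h1
        exact top_le_iff.mp h1
      exact (mem_irrKer ψ _).mp (hN ▸ Subgroup.mem_top _)
    · obtain ⟨ψ', hψ'⟩ := exists_inflate_eq (irrKer ψ) ψ (fun x hx => (mem_irrKer ψ x).mp hx)
      have hval : ∀ g' : G, ψ'.1 (g' : G ⧸ irrKer ψ) = ψ.1 g' := by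
        intro g'
        exact congrArg (fun φ : IrrCharacter G => φ.1 g') hψ'
      have hfaith' : ∀ q : G ⧸ irrKer ψ, ψ'.1 q = ψ'.1 1 → q = 1 := by
        intro q hq
        obtain ⟨g', rfl⟩ := QuotientGroup.mk_surjective q
        have h1 : ψ.1 g' = ψ.1 1 := by
          rw [← hval g', ← hval 1]
          exact hq
        exact (QuotientGroup.eq_one_iff g').mpr ((mem_irrKer ψ g').mpr h1)
      have hcardQ : Nat.card (G ⧸ irrKer ψ) ∣ Nat.card G :=
        Subgroup.card_quotient_dvd_card (irrKer ψ)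
      have hordz : orderOf ((z : G ⧸ irrKer ψ)) = p := by
        have h1 : orderOf ((z : G ⧸ irrKer ψ)) ∣ p := by
          apply orderOf_dvd_of_pow_eq_one
          rw [← QuotientGroup.mk_pow, ← hz, pow_orderOf_eq_one]
          rfl
        rcases (Nat.dvd_prime hp).mp h1 with h2 | h2
        · exfalso
          apply hzN
          rw [orderOf_eq_one_iff] at h2
          exact (QuotientGroup.eq_one_iff z).mp h2
        · exact h2
      have hdivQ : p ∣ Nat.card (G ⧸ irrKer ψ) := hordz ▸ orderOf_dvd_natCard _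
      have hsqQ : ¬ p ^ 2 ∣ Nat.card (G ⧸ irrKer ψ) := fun h => hsq (h.trans hcardQ)
      have hnclQ : Subgroup.normalClosure ({((z : G) : G ⧸ irrKer ψ)} : Set (G ⧸ irrKer ψ)) = ⊤ := by
        have h1 := Subgroup.map_normalClosure ({z} : Set G) (QuotientGroup.mk' (irrKer ψ))
          (QuotientGroup.mk'_surjective _)
        rw [hncl, Set.image_singleton] at h1
        have h2 : Subgroup.normalClosure ({((z : G) : G ⧸ irrKer ψ)} : Set (G ⧸ irrKer ψ)) =
            Subgroup.map (QuotientGroup.mk' (irrKer ψ)) ⊤ := h1.symm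
        rw [h2]
        exact Subgroup.map_top_of_surjective _ (QuotientGroup.mk'_surjective _)
      have hdegQ : 2 * charDegree ψ'.1 + 1 < p := by
        have h1 := charDegree_inflate (irrKer ψ) ψ'
        rw [hψ'] at h1
        have h2 := hdegψ ψ hmψ
        omega
      have hQ := hcore (G ⧸ irrKer ψ) hdivQ hsqQ _ hordz hnclQ ψ' hfaith' hdegQ
      have h3 : ((g : G ⧸ irrKer ψ)) ^ p = 1 := by
        have h4 : ((g : G ⧸ irrKer ψ)) ^ Nat.card (G ⧸ irrKer ψ) = 1 := pow_card_eq_one'
        rwa [hQ] at h4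
      have hgN : g ^ p ∈ irrKer ψ := by
        rw [← QuotientGroup.eq_one_iff, QuotientGroup.mk_pow]
        exact h3
      exact (mem_irrKer ψ _).mp hgN
  have hpow : ∀ g : G, g ^ p = 1 := by
    intro g
    apply hfaith
    rw [hm]
    simp only [Finset.sum_apply, Pi.smul_apply, smul_eq_mul]
    refine Finset.sum_congr rfl fun ψ _ => ?_
    by_cases hmψ : m ψ = 0
    · simp [hmψ]
    · rw [key ψ hmψ g]
  have hpg : IsPGroup p G := fun g => ⟨1, by simpa using hpow g⟩
  obtain ⟨n, hn⟩ := IsPGroup.iff_card.mp hpg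
  rw [hn] at hdiv hsq ⊢
  have h1 : n ≠ 0 := by
    rintro rfl
    rw [pow_zero] at hdiv
    exact hp.one_lt.ne' (Nat.dvd_one.mp hdiv)
  have h2 : n < 2 := by
    by_contra h
    exact hsq (pow_dvd_pow p (not_lt.mp h))
  have h3 : n = 1 := by omega
  rw [h3, pow_one]

end Cfsg.Agent.Lib.Helper83.BFT
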