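import Mathlib
import Cfsg.Agent.Lib.Helper83.Cop2

/-!
# Coprime action lemmas, part 2b: the subgroup form

`coprime_over_subgroups`: inside a finite group `Γ`, let `S` normalise `G` and `N ⊴ G`, with
`|G : N|` coprime to `|S|` and the `k`-th derived subgroup of `G` inside `N`.  Then every
`S`-invariant `θ ∈ Irr(N)` lies under an `S`-invariant `χ ∈ Irr(G)`.
-/

set_option autoImplicit false

namespace Cfsg.Agent.Lib.Helper83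

open scoped ComplexConjugate
open Cfsg

theorem coprime_over_subgroups {Γ : Type*} [Group Γ] [Finite Γ] (G S N : Subgroup Γ) [Fintype N]
    (hnorm : ∀ s ∈ S, ∀ g ∈ G, s * g * s⁻¹ ∈ G) (hNG : N ≤ G)
    (hNn : ∀ g ∈ G, ∀ n ∈ N, g * n * g⁻¹ ∈ N) (hNS : ∀ s ∈ S, ∀ n ∈ N, s * n * s⁻¹ ∈ N)
    (hcop : (N.relIndex G).Coprime (Nat.card S))
    (k : ℕ) (hk : (derivedSeries G k).map G.subtype ≤ N)
    (θ : IrrCharacter N)
    (hinv : ∀ s ∈ S, ∀ g g' : N, (g' : Γ) = s * g * s⁻¹ → (θ : N → ℂ) g' = (θ : N → ℂ) g) :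
    ∃ χ : IrrCharacter G, classInner (fun n : N => (χ : G → ℂ) ⟨n, hNG n.2⟩) (θ : N → ℂ) ≠ 0 ∧
      ∀ s ∈ S, ∀ g g' : G, (g' : Γ) = s * g * s⁻¹ → (χ : G → ℂ) g' = (χ : G → ℂ) g := by
  classical
  let Γ₁ : Subgroup Γ :=
    { carrier := {x | (∀ g, g ∈ G ↔ x * g * x⁻¹ ∈ G) ∧ (∀ n, n ∈ N ↔ x * n * x⁻¹ ∈ N)}
      mul_mem' := by
        rintro x y ⟨hx1, hx2⟩ ⟨hy1, hy2⟩
        refine ⟨fun g => ?_, fun n => ?_⟩
        · rw [hy1 g, hx1 (y * g * y⁻¹)]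
          have e : x * (y * g * y⁻¹) * x⁻¹ = x * y * g * (x * y)⁻¹ := by group
          rw [e]
        · rw [hy2 n, hx2 (y * n * y⁻¹)]
          have e : x * (y * n * y⁻¹) * x⁻¹ = x * y * n * (x * y)⁻¹ := by group
          rw [e]
      one_mem' := ⟨fun g => by simp, fun n => by simp⟩
      inv_mem' := by
        rintro x ⟨hx1, hx2⟩
        refine ⟨fun g => ?_, fun n => ?_⟩
        · rw [hx1 (x⁻¹ * g * x⁻¹⁻¹)]
          have e : x * (x⁻¹ * g * x⁻¹⁻¹) * x⁻¹ = g := by group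
          rw [e]
        · rw [hx2 (x⁻¹ * n * x⁻¹⁻¹)]
          have e : x * (x⁻¹ * n * x⁻¹⁻¹) * x⁻¹ = n := by group
          rw [e] }
  have hmemΓ₁ : ∀ x, x ∈ Γ₁ ↔
      ((∀ g, g ∈ G ↔ x * g * x⁻¹ ∈ G) ∧ (∀ n, n ∈ N ↔ x * n * x⁻¹ ∈ N)) := fun x => Iff.rfl
  have hGΓ₁ : G ≤ Γ₁ := by
    intro g₀ hg₀
    rw [hmemΓ₁]
    refine ⟨fun g => ⟨fun hg => G.mul_mem (G.mul_mem hg₀ hg) (G.inv_mem hg₀), fun hg => ?_⟩,
      fun n => ⟨fun hn => hNn g₀ hg₀ n hn, fun hn => ?_⟩⟩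
    · have h1 := G.mul_mem (G.mul_mem (G.inv_mem hg₀) hg) hg₀
      have e : g₀⁻¹ * (g₀ * g * g₀⁻¹) * g₀ = g := by group
      rwa [e] at h1
    · have h1 := hNn g₀⁻¹ (G.inv_mem hg₀) _ hn
      have e : g₀⁻¹ * (g₀ * n * g₀⁻¹) * g₀⁻¹⁻¹ = n := by group
      rwa [e] at h1
  have hSΓ₁ : S ≤ Γ₁ := by
    intro s hs
    rw [hmemΓ₁]
    refine ⟨fun g => ⟨fun hg => hnorm s hs g hg, fun hg => ?_⟩,
      fun n => ⟨fun hn => hNS s hs n hn, fun hn => ?_⟩⟩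
    · have h1 := hnorm s⁻¹ (S.inv_mem hs) _ hg
      have e : s⁻¹ * (s * g * s⁻¹) * s⁻¹⁻¹ = g := by group
      rwa [e] at h1
    · have h1 := hNS s⁻¹ (S.inv_mem hs) _ hn
      have e : s⁻¹ * (s * n * s⁻¹) * s⁻¹⁻¹ = n := by group
      rwa [e] at h1
  have hNΓ₁ : N ≤ Γ₁ := hNG.trans hGΓ₁
  let G₁ : Subgroup Γ₁ := G.subgroupOf Γ₁
  let N₁ : Subgroup Γ₁ := N.subgroupOf Γ₁
  let S₁ : Subgroup Γ₁ := S.subgroupOf Γ₁
  have hG₁n : G₁.Normal := by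
    constructor
    intro a ha x
    rw [Subgroup.mem_subgroupOf] at ha ⊢
    exact ((hmemΓ₁ x).mp x.2).1 a |>.mp ha
  have hN₁n : N₁.Normal := by
    constructor
    intro a ha x
    rw [Subgroup.mem_subgroupOf] at ha ⊢
    exact ((hmemΓ₁ x).mp x.2).2 a |>.mp ha
  have hN₁G₁ : N₁ ≤ G₁ := fun a ha => Subgroup.mem_subgroupOf.mpr (hNG (Subgroup.mem_subgroupOf.mp ha))
  letI : Fintype N₁ := Fintype.ofFinite _
  let eN : N₁ ≃* N := Subgroup.subgroupOfEquivOfLe hNΓ₁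
  let eG : G₁ ≃* G := Subgroup.subgroupOfEquivOfLe hGΓ₁
  have hD₁ : (derivedSeries G₁ k).map G₁.subtype ≤ N₁ := by
    rintro _ ⟨y, hy, rfl⟩
    have h1 : eG y ∈ derivedSeries G k := by
      rw [← map_derivedSeries_eq (f := eG.toMonoidHom) eG.surjective k]
      exact ⟨y, hy, rfl⟩
    have h2 : ((eG y : G) : Γ) ∈ N := hk ⟨eG y, h1, rfl⟩
    exact Subgroup.mem_subgroupOf.mpr h2
  let θ₁ : IrrCharacter N₁ := ⟨fun a => (θ : N → ℂ) (eN a),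
    isIrrCharacter_comp_surj eN.toMonoidHom eN.surjective θ.2⟩
  have hθ₁ : ∀ h ∈ S₁, Helper20.conjFun N₁ (θ₁ : N₁ → ℂ) h = θ₁ := by
    intro h hh
    funext a
    rw [Helper20.conjFun_apply]
    exact hinv (h : Γ) (Subgroup.mem_subgroupOf.mp hh) (eN a) (eN ⟨h * a * h⁻¹, _⟩) rfl
  have hcop₁ : (N₁.relIndex S₁).Coprime (N₁.relIndex G₁) := by
    have h1 : N₁.relIndex S₁ = N.relIndex S := Subgroup.relIndex_subgroupOf hSΓ₁
    have h2 : N₁.relIndex G₁ = N.relIndex G := Subgroup.relIndex_subgroupOf hGΓ₁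
    rw [h1, h2]
    exact (Nat.Coprime.coprime_dvd_right (Subgroup.relIndex_dvd_card N S) hcop).symm
  obtain ⟨χ₁, hχ1, hχ2⟩ := coprime_over_aux G₁ k N₁ hN₁G₁ hD₁ S₁ hcop₁ θ₁ hθ₁
  refine ⟨⟨fun g => (χ₁ : G₁ → ℂ) (eG.symm g),
    isIrrCharacter_comp_surj eG.symm.toMonoidHom eG.symm.surjective χ₁.2⟩, ?_, ?_⟩
  · have h1 := Helper20.classInner_comp_equiv eN
      (fun n : N => (χ₁ : G₁ → ℂ) (eG.symm ⟨n, hNG n.2⟩)) (θ : N → ℂ)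
    rw [← h1]
    exact hχ1
  · intro s hs g g' hgg'
    have h1 := congrFun (hχ2 ⟨s, hSΓ₁ hs⟩ (Subgroup.mem_subgroupOf.mpr hs)) (eG.symm g)
    rw [Helper20.conjFun_apply] at h1
    show (χ₁ : G₁ → ℂ) (eG.symm g') = (χ₁ : G₁ → ℂ) (eG.symm g)
    rw [← h1]
    exact congrArg (χ₁ : G₁ → ℂ) (Subtype.ext (Subtype.ext hgg'))

end Cfsg.Agent.Lib.Helper83
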