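import Mathlib
import Cfsg.Agent.Lib.Helper83.Cop2
import Cfsg.Agent.Lib.Helper83.Twist

/-!
# Coprime action lemmas, part 3: the central case

`central_case`: let `G ⊴ E` with `E/G` solvable, `Z ≤ G` central in `E`, and
`(|E : G|, |G : Z|) = 1`.  Then `G = Z M` for a normal subgroup `M ≤ G` of `E` of order coprime
to `|E : G|`, and every linear character `μ` of `Z` agrees on `Z ∩ M` with the central character
of some `E`-invariant `γ ∈ Irr(M)`.
-/

set_option autoImplicit false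

namespace Cfsg.Agent.Lib.Helper83

open scoped ComplexConjugate
open Cfsg

section SPart

variable {E : Type*} [Group E]

/-- the elements of a central subgroup whose order divides a power of `s` -/
def sPart (Z : Subgroup E) (hZ : Z ≤ Subgroup.center E) (s : ℕ) : Subgroup E where
  carrier := {z | z ∈ Z ∧ ∃ k : ℕ, z ^ (s ^ k) = 1}
  mul_mem' := by
    rintro a b ⟨ha, k, hk⟩ ⟨hb, l, hl⟩
    refine ⟨Z.mul_mem ha hb, k + l, ?_⟩
    have hcomm : Commute a b := (Subgroup.mem_center_iff.mp (hZ ha) b).symm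
    rw [hcomm.mul_pow, pow_add, pow_mul, hk, one_pow, mul_comm (s ^ k), pow_mul, hl, one_pow,
      one_mul]
  one_mem' := ⟨Z.one_mem, 0, one_pow _⟩
  inv_mem' := by
    rintro a ⟨ha, k, hk⟩
    exact ⟨Z.inv_mem ha, k, by rw [inv_pow, hk, inv_one]⟩

theorem mem_sPart (Z : Subgroup E) (hZ : Z ≤ Subgroup.center E) (s : ℕ) (z : E) :
    z ∈ sPart Z hZ s ↔ z ∈ Z ∧ ∃ k : ℕ, z ^ (s ^ k) = 1 := Iff.rfl

theorem sPart_le (Z : Subgroup E) (hZ : Z ≤ Subgroup.center E) (s : ℕ) : sPart Z hZ s ≤ Z :=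
  fun _ hz => hz.1

theorem normal_of_le_center (Z : Subgroup E) (hZ : Z ≤ Subgroup.center E) : Z.Normal := by
  constructor
  intro z hz g
  have h1 : g * z = z * g := Subgroup.mem_center_iff.mp (hZ hz) g
  rw [h1, mul_inv_cancel_right]
  exact hz

/-- every prime divisor of the order of the `s`-part divides `s` -/
theorem prime_dvd_of_dvd_card_sPart [Finite E] (Z : Subgroup E) (hZ : Z ≤ Subgroup.center E)
    (s p : ℕ) (hp : p.Prime) (hdvd : p ∣ Nat.card (sPart Z hZ s)) : p ∣ s := by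
  haveI : Fact p.Prime := ⟨hp⟩
  obtain ⟨x, hx⟩ := exists_prime_orderOf_dvd_card' p hdvd
  obtain ⟨-, k, hk⟩ := x.2
  have h1 : orderOf (x : E) = p := by rw [Subgroup.orderOf_coe, hx]
  have h2 : p ∣ s ^ k := by
    rw [← h1]
    exact orderOf_dvd_of_pow_eq_one hk
  exact hp.dvd_of_dvd_pow h2

/-- no prime divisor of `s` divides the index of the `s`-part -/
theorem not_dvd_relIndex_sPart [Finite E] (Z : Subgroup E) (hZ : Z ≤ Subgroup.center E)
    (s p : ℕ) (hp : p.Prime) (hps : p ∣ s) : ¬ p ∣ (sPart Z hZ s).relIndex Z := by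
  intro hdvd
  haveI : Fact p.Prime := ⟨hp⟩
  haveI : (sPart Z hZ s).Normal := normal_of_le_center _ ((sPart_le Z hZ s).trans hZ)
  have hdvd' : p ∣ Nat.card (Z ⧸ (sPart Z hZ s).subgroupOf Z) := hdvd
  obtain ⟨q, hq⟩ := exists_prime_orderOf_dvd_card' p hdvd'
  obtain ⟨z, rfl⟩ := QuotientGroup.mk_surjective q
  have h1 : ((z ^ p : Z) : Z ⧸ (sPart Z hZ s).subgroupOf Z) = 1 := by
    rw [QuotientGroup.mk_pow, ← hq, pow_orderOf_eq_one]
  rw [QuotientGroup.eq_one_iff, Subgroup.mem_subgroupOf] at h1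
  obtain ⟨-, k, hk⟩ := h1
  obtain ⟨t, rfl⟩ := hps
  have h2 : (z : E) ∈ sPart Z hZ (p * t) := by
    refine ⟨z.2, k + 1, ?_⟩
    have h3 : (p * t) ^ (k + 1) = p * (p * t) ^ k * t := by ring
    rw [h3, pow_mul, pow_mul]
    rw [Subgroup.coe_pow] at hk
    rw [hk, one_pow]
  have h4 : (z : Z ⧸ (sPart Z hZ (p * t)).subgroupOf Z) = 1 :=
    (QuotientGroup.eq_one_iff z).mpr (Subgroup.mem_subgroupOf.mpr h2)
  rw [h4, orderOf_one] at hq
  exact hp.one_lt.ne hq

end SPart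

/-- **The central case.** -/
theorem central_case {E : Type*} [Group E] [Finite E] (G Z : Subgroup E) [hG : G.Normal]
    (hZG : Z ≤ G) (hZ : Z ≤ Subgroup.center E) (hcop : (G.index).Coprime (Z.relIndex G))
    (hsolv : Group.IsSolvable (E ⧸ G)) (μ : Z →* ℂˣ) :
    ∃ (M : Subgroup E) (_ : M.Normal) (γ : M → ℂ), M ≤ G ∧ (∀ g ∈ G, ∃ z ∈ Z, z * g ∈ M) ∧
      IsIrrCharacter M γ ∧
      (∀ (x : E) (y y' : M), (y' : E) = x * y * x⁻¹ → γ y' = γ y) ∧
      (∀ (z : Z) (y y' : M), (z : E) ∈ M → (y' : E) = z * y →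
        γ y' = ((μ z : ℂˣ) : ℂ) * γ y) := by
  classical
  set s := G.index with hs
  set Zs := sPart Z hZ s with hZsdef
  have hZsZ : Zs ≤ Z := sPart_le Z hZ s
  have hZsc : Zs ≤ Subgroup.center E := hZsZ.trans hZ
  haveI hZsn : Zs.Normal := normal_of_le_center _ hZsc
  set k₀ := Zs.relIndex G with hk₀
  have hk₀eq : Zs.relIndex Z * Z.relIndex G = k₀ :=
    Subgroup.relIndex_mul_relIndex Zs Z G hZsZ hZG
  have hk₀s : k₀.Coprime s := by
    rw [← hk₀eq]
    apply Nat.Coprime.mul_left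
    · apply Nat.Coprime.symm
      apply Nat.coprime_of_dvd
      intro p hp hps
      exact not_dvd_relIndex_sPart Z hZ s p hp hps
    · exact hcop.symm
  have hk₀Zs : k₀.Coprime (Nat.card Zs) := by
    apply Nat.Coprime.symm
    apply Nat.coprime_of_dvd
    intro p hp hpZ hpk
    exact Nat.not_coprime_of_dvd_of_dvd hp.one_lt hpk
      (prime_dvd_of_dvd_card_sPart Z hZ s p hp hpZ) hk₀s
  -- the complement `M` of the `s`-part in `G`
  let N' : Subgroup G := Zs.subgroupOf G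
  have hZsG : Zs ≤ G := hZsZ.trans hZG
  have hcardN' : Nat.card N' = Nat.card Zs :=
    Nat.card_congr (Subgroup.subgroupOfEquivOfLe hZsG).toEquiv
  have hidxN' : N'.index = k₀ := rfl
  obtain ⟨K₀, hK₀⟩ := Subgroup.exists_right_complement'_of_coprime (N := N')
    (by rw [hcardN', hidxN']; exact hk₀Zs.symm)
  set M : Subgroup E := K₀.map G.subtype with hMdef
  have hMG : M ≤ G := Subgroup.map_subtype_le _
  have hcardK₀ : Nat.card K₀ = k₀ := by
    rw [← hidxN']
    exact (hK₀.symm.index_eq_card).symm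
  have hcardM : Nat.card M = k₀ := by
    rw [hMdef, Subgroup.card_map_of_injective G.subtype_injective, hcardK₀]
  have hdec : ∀ g ∈ G, ∃ z ∈ Zs, ∃ x ∈ M, g = z * x := by
    intro g hg
    obtain ⟨⟨a, b⟩, hab⟩ := hK₀.2 ⟨g, hg⟩
    refine ⟨((a : G) : E), Subgroup.mem_subgroupOf.mp a.2, ((b : G) : E), ⟨b, b.2, rfl⟩, ?_⟩
    exact (congrArg Subtype.val hab).symm
  have hpowM : ∀ x ∈ M, x ^ k₀ = 1 := by
    intro x hx
    have h1 : (⟨x, hx⟩ : M) ^ Nat.card M = 1 := pow_card_eq_one'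
    rw [hcardM] at h1
    exact congrArg Subtype.val h1
  have hMchar : ∀ g ∈ G, g ∈ M ↔ g ^ k₀ = 1 := by
    intro g hg
    refine ⟨hpowM g, fun hgk => ?_⟩
    obtain ⟨z, hz, x, hx, rfl⟩ := hdec g hg
    have hcomm : Commute z x := (Subgroup.mem_center_iff.mp (hZsc hz) x).symm
    rw [hcomm.mul_pow, hpowM x hx, mul_one] at hgk
    have h1 : orderOf z ∣ k₀ := orderOf_dvd_of_pow_eq_one hgk
    have h2 : orderOf z ∣ Nat.card Zs := by
      have h := orderOf_dvd_natCard (⟨z, hz⟩ : Zs)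
      rwa [← Subgroup.orderOf_coe] at h
    have h3 : orderOf z = 1 := Nat.eq_one_of_dvd_coprimes hk₀Zs h1 h2
    rw [orderOf_eq_one_iff] at h3
    rw [h3, one_mul]
    exact hx
  have hMn : M.Normal := by
    constructor
    intro n hn g
    have h1 : g * n * g⁻¹ ∈ G := hG.conj_mem n (hMG hn) g
    rw [hMchar _ h1, conj_pow, hpowM n hn, mul_one, mul_inv_cancel]
  have hrelM : M.relIndex G = Nat.card Zs := by
    have h1 : M.subgroupOf G = K₀ :=
      Subgroup.comap_map_eq_self_of_injective G.subtype_injective K₀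
    show (M.subgroupOf G).index = _
    rw [h1, hK₀.index_eq_card, hcardN']
  have hidxM : M.index = Nat.card Zs * s := by
    rw [← Subgroup.relIndex_mul_index hMG, hrelM]
  have hcopM : (Nat.card M).Coprime M.index := by
    rw [hcardM, hidxM]
    exact Nat.Coprime.mul_right hk₀Zs hk₀s
  obtain ⟨St, hSt⟩ := Subgroup.exists_right_complement'_of_coprime (N := M) hcopM
  have hcardSt : Nat.card St = M.index := (hSt.symm.index_eq_card).symm
  have hdecE : ∀ x : E, ∃ m ∈ M, ∃ t ∈ St, x = m * t := by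
    intro x
    obtain ⟨⟨a, b⟩, hab⟩ := hSt.2 x
    exact ⟨a, a.2, b, b.2, hab.symm⟩
  have hdisj : ∀ x : E, x ∈ M → x ∈ St → x = 1 := by
    intro x hxM hxS
    have h1 : x ∈ M ⊓ St := ⟨hxM, hxS⟩
    rw [hSt.disjoint.eq_bot] at h1
    exact Subgroup.mem_bot.mp h1
  have hcommSt : ∀ a b : E, a ∈ St → b ∈ St → a ∈ G → b ∈ G → a * b = b * a := by
    intro a b haS hbS haG hbG
    have hq : ∀ g ∈ G, ∃ z ∈ Zs, (g : E ⧸ M) = (z : E ⧸ M) := by
      intro g hg
      obtain ⟨z, hz, x, hx, rfl⟩ := hdec g hg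
      exact ⟨z, hz, by rw [QuotientGroup.mk_mul, (QuotientGroup.eq_one_iff x).mpr hx, mul_one]⟩
    obtain ⟨z₁, hz₁, e₁⟩ := hq a haG
    obtain ⟨z₂, hz₂, e₂⟩ := hq b hbG
    have hmemM : a * b * a⁻¹ * b⁻¹ ∈ M := by
      rw [← QuotientGroup.eq_one_iff]
      simp only [QuotientGroup.mk_mul, QuotientGroup.mk_inv, e₁, e₂]
      rw [← QuotientGroup.mk_inv, ← QuotientGroup.mk_inv, ← QuotientGroup.mk_mul,
        ← QuotientGroup.mk_mul, ← QuotientGroup.mk_mul]
      have h1 : z₁ * z₂ * z₁⁻¹ * z₂⁻¹ = 1 := by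
        have hc : z₂ * z₁ = z₁ * z₂ := Subgroup.mem_center_iff.mp (hZsc hz₁) z₂
        rw [← hc]
        group
      rw [h1]
      rfl
    have h2 := hdisj _ hmemM
      (St.mul_mem (St.mul_mem (St.mul_mem haS hbS) (St.inv_mem haS)) (St.inv_mem hbS))
    have h3 : a * b = (a * b * a⁻¹ * b⁻¹) * (b * a) := by group
    rw [h3, h2, one_mul]
  have hGScomm : Group.IsSolvable (G.subgroupOf St) :=
    Group.isSolvable_of_comm (fun a b => Subtype.ext (Subtype.ext
      (hcommSt a.1 b.1 a.1.2 b.1.2 (Subgroup.mem_subgroupOf.mp a.2)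
        (Subgroup.mem_subgroupOf.mp b.2))))
  have hStsolv : Group.IsSolvable St := by
    refine @Group.isSolvable_of_ker_le_range St _ (G.subgroupOf St) (E ⧸ G) _ _
      (G.subgroupOf St).subtype ((QuotientGroup.mk' G).comp St.subtype) ?_ hGScomm hsolv
    intro t ht
    rw [MonoidHom.mem_ker] at ht
    have h1 : (t : E) ∈ G := (QuotientGroup.eq_one_iff _).mp ht
    exact ⟨⟨t, Subgroup.mem_subgroupOf.mpr h1⟩, rfl⟩
  haveI := hStsolv
  -- the Glauberman correspondence step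
  letI : Fintype M := Fintype.ofFinite _
  let φ : St →* MulAut M :=
    Helper5.resAut ((MulAut.conj).comp St.subtype) M (fun w b hb => hMn.conj_mem b hb w)
  have hφ : ∀ (t : St) (y : M), ((φ t y : M) : E) = t * y * (t : E)⁻¹ := fun t y => rfl
  let D : Subgroup M := Z.subgroupOf M
  have hcen : ∀ z ∈ Z, ∀ g : E, g * z * g⁻¹ = z := by
    intro z hz g
    have h1 : g * z = z * g := Subgroup.mem_center_iff.mp (hZ hz) g
    rw [h1, mul_inv_cancel_right]
  haveI hDn : D.Normal := by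
    constructor
    intro d hd y
    rw [Subgroup.mem_subgroupOf] at hd ⊢
    have h1 : ((y * d * y⁻¹ : M) : E) = (y : E) * d * (y : E)⁻¹ := rfl
    rw [h1, hcen _ hd]
    exact hd
  letI : Fintype D := Fintype.ofFinite _
  let φD : St →* MulAut D := Helper5.resAut φ D (fun w b hb => by
    rw [Subgroup.mem_subgroupOf] at hb ⊢
    rw [hφ, hcen _ hb]
    exact hb)
  have hφD : ∀ x n, ((φD x n : D) : M) = φ x n := fun x n => rfl
  let jD : D →* Z :=
    { toFun := fun d => ⟨((d : M) : E), Subgroup.mem_subgroupOf.mp d.2⟩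
      map_one' := rfl
      map_mul' := fun a b => rfl }
  let θ' : IrrCharacter D := ⟨fun d => ((μ (jD d) : ℂˣ) : ℂ), isIrr_of_hom (μ.comp jD)⟩
  have hθ' : ∀ x n, (θ' : D → ℂ) (φD x n) = (θ' : D → ℂ) n := by
    intro x n
    have h1 : jD (φD x n) = jD n := by
      apply Subtype.ext
      show ((φ x (n : M) : M) : E) = ((n : M) : E)
      rw [hφ, hcen _ (Subgroup.mem_subgroupOf.mp n.2)]
    show ((μ (jD (φD x n)) : ℂˣ) : ℂ) = ((μ (jD n) : ℂˣ) : ℂ)
    rw [h1]
  have hcop' : (Fintype.card M).Coprime (Nat.card St) := by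
    rw [← Nat.card_eq_fintype_card, hcardM, hcardSt, hidxM]
    exact Nat.Coprime.mul_right hk₀Zs hk₀s
  obtain ⟨γ, hγinv, hγne⟩ := Helper5.gl_over D φ φD hφD hcop' θ' hθ'
  have hγ1 : (γ : M → ℂ) 1 ≠ 0 := irr_one_ne_zero γ.2
  have hDcen : ∀ d : D, (d : M) ∈ Subgroup.center M := by
    intro d
    rw [Subgroup.mem_center_iff]
    intro g
    apply Subtype.ext
    show (g : E) * ((d : M) : E) = ((d : M) : E) * (g : E)
    exact Subgroup.mem_center_iff.mp (hZ (Subgroup.mem_subgroupOf.mp d.2)) g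
  have hmulγ : ∀ (d : D) (y : M), (γ : M → ℂ) ((d : M) * y) * (γ : M → ℂ) 1 =
      (γ : M → ℂ) d * (γ : M → ℂ) y := fun d y => irr_central_mul γ d (hDcen d) y
  let ω₀ : D →* ℂ :=
    { toFun := fun d => (γ : M → ℂ) d / (γ : M → ℂ) 1
      map_one' := div_self hγ1
      map_mul' := fun a b => by
        have h := hmulγ a b
        show (γ : M → ℂ) ((a : M) * (b : M)) / (γ : M → ℂ) 1 =
          (γ : M → ℂ) a / (γ : M → ℂ) 1 * ((γ : M → ℂ) b / (γ : M → ℂ) 1)
        rw [div_mul_div_comm, ← h, mul_div_mul_right _ _ hγ1] }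
  have hω : IsIrrCharacter D (fun d => (γ : M → ℂ) d / (γ : M → ℂ) 1) :=
    isIrr_of_hom ω₀.toHomUnits
  have hinner : classInner (fun d : D => (γ : M → ℂ) d) (θ' : D → ℂ) =
      (γ : M → ℂ) 1 * classInner (fun d : D => (γ : M → ℂ) d / (γ : M → ℂ) 1)
        (θ' : D → ℂ) := by
    unfold classInner
    rw [mul_left_comm]
    congr 1
    rw [Finset.mul_sum]
    apply Finset.sum_congr rfl
    intro d _
    show (γ : M → ℂ) d * conj ((θ' : D → ℂ) d) =
      (γ : M → ℂ) 1 * ((γ : M → ℂ) d / (γ : M → ℂ) 1 * conj ((θ' : D → ℂ) d))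
    field_simp
  have hωθ : (fun d : D => (γ : M → ℂ) d / (γ : M → ℂ) 1) = (θ' : D → ℂ) := by
    by_contra hcon
    apply hγne
    rw [hinner, Helper35.classInner_irr' hω θ'.2, if_neg hcon, mul_zero]
  have hγD : ∀ d : D, (γ : M → ℂ) d = (γ : M → ℂ) 1 * ((μ (jD d) : ℂˣ) : ℂ) := by
    intro d
    have h := congrFun hωθ d
    have h' : (γ : M → ℂ) d / (γ : M → ℂ) 1 = ((μ (jD d) : ℂˣ) : ℂ) := h
    rw [div_eq_iff hγ1] at h'
    rw [h', mul_comm]
  refine ⟨M, hMn, (γ : M → ℂ), hMG, ?_, γ.2, ?_, ?_⟩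
  · intro g hg
    obtain ⟨z, hz, x, hx, rfl⟩ := hdec g hg
    exact ⟨z⁻¹, Z.inv_mem (hZsZ hz), by rw [inv_mul_cancel_left]; exact hx⟩
  · intro x y y' hy'
    obtain ⟨m, hm, t, ht, rfl⟩ := hdecE x
    have h1 : y' = (⟨m, hm⟩ : M) * (φ ⟨t, ht⟩ y) * (⟨m, hm⟩ : M)⁻¹ := by
      apply Subtype.ext
      rw [hy']
      show m * t * (y : E) * (m * t)⁻¹ = m * (t * (y : E) * t⁻¹) * m⁻¹
      group
    rw [h1, irr_classFunction γ.2, hγinv]
  · intro z y y' hzM hy'
    let d : D := ⟨⟨z, hzM⟩, Subgroup.mem_subgroupOf.mpr z.2⟩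
    have h1 : y' = (d : M) * y := Subtype.ext hy'
    have h2 := hmulγ d y
    rw [← h1, hγD d] at h2
    have h3 : jD d = z := Subtype.ext rfl
    rw [h3] at h2
    apply mul_right_cancel₀ hγ1
    rw [h2]
    ring

end Cfsg.Agent.Lib.Helper83
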