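import Mathlib
import Cfsg.Agent.Lib.Helper83.Cop3

/-!
# Coprime action lemmas, part 4: reduction to the central case

`coprime_over_solvable_quot` (Isaacs 13.31, `Γ/G` solvable): if `N ≤ G` are normal in `Γ`,
`(|Γ : G|, |G : N|) = 1` and `Γ/G` is solvable, every `Γ`-invariant `θ ∈ Irr(N)` lies under a
`Γ`-invariant `χ ∈ Irr(G)`.  The proof passes to the lifting group of `θ` (a central extension
of `Γ` in which `θ` extends), divides out the copy of `N`, and applies `central_case`.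
-/

set_option autoImplicit false

namespace Cfsg.Agent.Lib.Helper83

open scoped ComplexConjugate
open Cfsg

section LiftFacts

variable {G : Type*} [Group G] (N : Subgroup G) [hN : N.Normal] {d : ℕ}
  (σ : Representation ℂ N (Fin d → ℂ))

/-- the kernel of the projection of the lifting group is central -/
theorem liftKer_le_center [hσ : σ.IsIrreducible] :
    (liftFst N σ).ker ≤ Subgroup.center (liftGroup N σ) := by
  intro b hb
  have hb1 : b.1.1 = 1 := hb
  obtain ⟨c0, hc0, -⟩ := liftGroup_scalar N σ b hb1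
  rw [Subgroup.mem_center_iff]
  intro y
  apply Subtype.ext
  apply Prod.ext
  · show y.1.1 * b.1.1 = b.1.1 * y.1.1
    rw [hb1, one_mul, mul_one]
  · apply Units.ext
    show (y.1.2 : Module.End ℂ (Fin d → ℂ)) * (b.1.2 : Module.End ℂ (Fin d → ℂ)) =
      (b.1.2 : Module.End ℂ (Fin d → ℂ)) * (y.1.2 : Module.End ℂ (Fin d → ℂ))
    rw [hc0]
    apply LinearMap.ext
    intro v
    simp

theorem liftN_le_comap : liftN N σ ≤ N.comap (liftFst N σ) := by
  rintro _ ⟨n, rfl⟩
  exact n.2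

/-- an element of the lifting group over `N` is an element of the copy of `N` times an element
of the kernel -/
theorem exists_liftIncl_mul (x : liftGroup N σ) (hx : liftFst N σ x ∈ N) :
    ∃ b ∈ (liftFst N σ).ker, x = liftIncl N σ ⟨liftFst N σ x, hx⟩ * b := by
  refine ⟨(liftIncl N σ ⟨liftFst N σ x, hx⟩)⁻¹ * x, ?_, by group⟩
  rw [MonoidHom.mem_ker, map_mul, map_inv]
  have h1 : liftFst N σ (liftIncl N σ ⟨liftFst N σ x, hx⟩) = liftFst N σ x := rfl
  rw [h1, inv_mul_cancel]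

end LiftFacts

/-- **Isaacs 13.31, `Γ/G` solvable.** -/
theorem coprime_over_solvable_quot {Γ : Type*} [Group Γ] [Finite Γ] (G N : Subgroup Γ)
    [hG : G.Normal] [hN : N.Normal] [Fintype N] (hNG : N ≤ G)
    (hcop : (G.index).Coprime (N.relIndex G)) (hsolv : Group.IsSolvable (Γ ⧸ G))
    (θ : IrrCharacter N) (hinv : ∀ x : Γ, Helper20.conjFun N (θ : N → ℂ) x = θ) :
    ∃ χ : IrrCharacter G, classInner (fun n : N => (χ : G → ℂ) ⟨n, hNG n.2⟩) (θ : N → ℂ) ≠ 0 ∧
      ∀ x : Γ, Helper20.conjFun G (χ : G → ℂ) x = χ := by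
  classical
  obtain ⟨d, σ, hσ, hσθ⟩ := θ.2
  haveI := hσ
  have hd : 0 < d := by
    have hnt := Helper5.irr_nontrivial σ
    by_contra h0
    have hd0 : d = 0 := by omega
    subst hd0
    exact not_subsingleton (Fin 0 → ℂ) inferInstance
  have hinv' : ∀ (g : Γ) (n m : N), (m : Γ) = g * n * g⁻¹ →
      σ.character m = σ.character n := by
    intro g n m h
    rw [hσθ]
    have h1 := congrFun (hinv g) n
    rw [Helper20.conjFun_apply] at h1
    rw [← h1]
    exact congrArg (θ : N → ℂ) (Subtype.ext h)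
  have hsurj := liftFst_surjective N σ hd hinv'
  haveI : Finite (liftGroup N σ) := liftGroup_finite N σ hσ hd
  letI : Fintype (liftGroup N σ) := Fintype.ofFinite _
  set π : liftGroup N σ →* Γ := liftFst N σ with hπ
  set N₀ : Subgroup (liftGroup N σ) := liftN N σ with hN₀
  let mk : liftGroup N σ →* (liftGroup N σ ⧸ N₀) := QuotientGroup.mk' N₀
  have hmk : Function.Surjective mk := QuotientGroup.mk'_surjective N₀
  have hkermk : mk.ker = N₀ := QuotientGroup.ker_mk' N₀
  let Gt : Subgroup (liftGroup N σ) := G.comap π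
  let Nt : Subgroup (liftGroup N σ) := N.comap π
  have hN₀Nt : N₀ ≤ Nt := liftN_le_comap N σ
  have hNtGt : Nt ≤ Gt := Subgroup.comap_mono hNG
  let Gb : Subgroup (liftGroup N σ ⧸ N₀) := Gt.map mk
  let Zb : Subgroup (liftGroup N σ ⧸ N₀) := Nt.map mk
  haveI hGbn : Gb.Normal := Subgroup.Normal.map inferInstance mk hmk
  have hZbGb : Zb ≤ Gb := Subgroup.map_mono hNtGt
  have hmkincl : ∀ n : N, mk (liftIncl N σ n) = 1 :=
    fun n => (QuotientGroup.eq_one_iff _).mpr ⟨n, rfl⟩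
  have hZbcen : Zb ≤ Subgroup.center (liftGroup N σ ⧸ N₀) := by
    rintro _ ⟨x, hx, rfl⟩
    obtain ⟨b, hb, hxb⟩ := exists_liftIncl_mul N σ x hx
    have hbc := liftKer_le_center N σ hb
    rw [Subgroup.mem_center_iff]
    intro q
    obtain ⟨y, rfl⟩ := hmk q
    have h1 : mk x = mk b := by
      rw [hxb, map_mul, hmkincl, one_mul]
    rw [h1, ← map_mul, ← map_mul, Subgroup.mem_center_iff.mp hbc y]
  have hcomapGb : Gb.comap mk = Gt := by
    show (Gt.map mk).comap mk = Gt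
    rw [Subgroup.comap_map_eq, hkermk]
    exact sup_eq_left.mpr (hN₀Nt.trans hNtGt)
  have hcomapZb : Zb.comap mk = Nt := by
    show (Nt.map mk).comap mk = Nt
    rw [Subgroup.comap_map_eq, hkermk]
    exact sup_eq_left.mpr hN₀Nt
  have hidxGb : Gb.index = G.index := by
    show (Gt.map mk).index = G.index
    rw [Subgroup.index_map_eq _ hmk (by rw [hkermk]; exact hN₀Nt.trans hNtGt)]
    exact Subgroup.index_comap_of_surjective G hsurj
  have hrelZb : Zb.relIndex Gb = N.relIndex G := by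
    show Zb.relIndex (Gt.map mk) = N.relIndex G
    rw [← Subgroup.relIndex_comap, hcomapZb]
    show (N.comap π).relIndex (G.comap π) = _
    rw [Subgroup.relIndex_comap, Subgroup.map_comap_eq_self_of_surjective hsurj]
  have hsolvb : Group.IsSolvable ((liftGroup N σ ⧸ N₀) ⧸ Gb) := by
    haveI := hsolv
    have h1 : Group.IsSolvable (liftGroup N σ ⧸ Gt) := by
      apply Group.isSolvable_of_isSolvable_injective (f := QuotientGroup.map Gt G π le_rfl)
      rw [← MonoidHom.ker_eq_bot_iff, eq_bot_iff]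
      intro q hq
      obtain ⟨x, rfl⟩ := QuotientGroup.mk_surjective q
      rw [MonoidHom.mem_ker, QuotientGroup.map_mk, QuotientGroup.eq_one_iff] at hq
      exact (QuotientGroup.eq_one_iff x).mpr hq
    haveI := h1
    apply Group.isSolvable_of_surjective
      (f := QuotientGroup.map Gt Gb mk (Subgroup.le_comap_map mk Gt))
    intro q
    obtain ⟨e, rfl⟩ := QuotientGroup.mk_surjective q
    obtain ⟨x, rfl⟩ := hmk e
    exact ⟨(x : liftGroup N σ ⧸ Gt), rfl⟩
  -- the linear character of the central subgroup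
  let β₀ : Nt →* ℂˣ := baseHom N σ hd
  let r : Nt →* Zb := mk.subgroupMap Nt
  have hr : Function.Surjective r := mk.subgroupMap_surjective Nt
  have hrker : r.ker ≤ (β₀⁻¹).ker := by
    intro x hx
    rw [MonoidHom.mem_ker] at hx ⊢
    have h1 : mk (x : liftGroup N σ) = 1 := congrArg Subtype.val hx
    have h2 : (x : liftGroup N σ) ∈ N₀ := (QuotientGroup.eq_one_iff _).mp h1
    obtain ⟨n, hn⟩ := h2
    have h3 : x = ⟨liftIncl N σ n, hn ▸ x.2⟩ := Subtype.ext hn.symm
    rw [MonoidHom.inv_apply, inv_eq_one, h3]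
    exact baseHom_liftIncl N σ hd n _
  let μ : Zb →* ℂˣ := r.liftOfRightInverse (Function.surjInv hr)
    (Function.rightInverse_surjInv hr) ⟨β₀⁻¹, hrker⟩
  have hμ : ∀ x : Nt, μ (r x) = (β₀ x)⁻¹ :=
    fun x => MonoidHom.liftOfRightInverse_comp_apply _ _ _ _ x
  obtain ⟨M, hMn, γ, hMGb, hZM, hγirr, hγinv, hγcen⟩ := central_case Gb Zb hZbGb hZbcen
    (by rw [hidxGb, hrelZb]; exact hcop) hsolvb μ
  haveI := hMn
  let Mt : Subgroup (liftGroup N σ) := M.comap mk
  have hMtn : Mt.Normal := inferInstance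
  have hN₀Mt : N₀ ≤ Mt := by
    intro x hx
    show mk x ∈ M
    have h1 : mk x = 1 := (QuotientGroup.eq_one_iff x).mpr hx
    rw [h1]
    exact M.one_mem
  have hMtGt : Mt ≤ Gt := by
    rw [← hcomapGb]
    exact Subgroup.comap_mono hMGb
  letI : Fintype Mt := Fintype.ofFinite _
  let N₀' : Subgroup Mt := N₀.subgroupOf Mt
  haveI : N₀'.Normal := inferInstance
  letI : Fintype N₀' := Fintype.ofFinite _
  let ρ' : Representation ℂ Mt (Fin d → ℂ) := (liftRep N σ).comp Mt.subtype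
  have hρ'irr : ρ'.IsIrreducible := irreducible_of_equiv σ ρ' (LinearEquiv.refl ℂ _)
    (fun n => ⟨⟨liftIncl N σ n, hN₀Mt ⟨n, rfl⟩⟩, fun _ => rfl⟩) hσ
  let ρ'' : Representation ℂ N₀' (Fin d → ℂ) := ρ'.comp N₀'.subtype
  have hρ''irr : ρ''.IsIrreducible := irreducible_of_equiv σ ρ'' (LinearEquiv.refl ℂ _)
    (fun n => ⟨⟨⟨liftIncl N σ n, hN₀Mt ⟨n, rfl⟩⟩, Subgroup.mem_subgroupOf.mpr ⟨n, rfl⟩⟩,
      fun _ => rfl⟩) hσ
  set θt : Mt → ℂ := ρ'.character with hθt
  have hθtirr : IsIrrCharacter Mt θt := ⟨d, ρ', hρ'irr, rfl⟩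
  have hθtN : IsIrrCharacter N₀' (fun n : N₀' => θt n) := ⟨d, ρ'', hρ''irr, rfl⟩
  let q : Mt →* M := mk.subgroupComap M
  have hq : Function.Surjective q := mk.subgroupComap_surjective_of_surjective M hmk
  set ξ : Mt → ℂ := fun y => γ (q y) with hξ
  have hξirr : IsIrrCharacter Mt ξ := isIrrCharacter_comp_surj q hq hγirr
  have hξN : ∀ (g : Mt) (n : N₀'), ξ (n * g) = ξ g := by
    intro g n
    show γ (q ((n : Mt) * g)) = γ (q g)
    have h1 : q (n : Mt) = 1 :=
      Subtype.ext ((QuotientGroup.eq_one_iff _).mpr (Subgroup.mem_subgroupOf.mp n.2))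
    rw [map_mul, h1, one_mul]
  have hnorm : classInner (ξ * θt) (ξ * θt) = 1 := by
    rw [Cfsg.Agent.S0868.classInner_mul_ext N₀' hθtirr hθtN hξN hξN,
      Helper35.classInner_irr' hξirr hξirr, if_pos rfl]
  have := Helper4.irr_finite (G := Mt)
  letI : Fintype (IrrCharacter Mt) := Fintype.ofFinite _
  have hψirr : IsIrrCharacter Mt (ξ * θt) := Helper4.isIrrCharacter_of_norm_one _
    (Helper35.isCharacter_mul (Helper35.isChar_of_irr hξirr) (Helper35.isChar_of_irr hθtirr))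
    hnorm
  -- descent to `G`
  let f : Mt →* G := (π.comp Mt.subtype).codRestrict G (fun y => hMtGt y.2)
  have hf : Function.Surjective f := by
    rintro ⟨g, hg⟩
    obtain ⟨x, rfl⟩ := hsurj g
    have hxGt : x ∈ Gt := hg
    obtain ⟨zb, hzb, hzM⟩ := hZM (mk x) ⟨x, hxGt, rfl⟩
    obtain ⟨z', hz', rfl⟩ := hzb
    obtain ⟨b, hb, hz'b⟩ := exists_liftIncl_mul N σ z' hz'
    have hmkb : mk z' = mk b := by
      rw [hz'b, map_mul, hmkincl, one_mul]
    have hmem : b * x ∈ Mt := by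
      show mk (b * x) ∈ M
      rw [map_mul, ← hmkb]
      exact hzM
    refine ⟨⟨b * x, hmem⟩, Subtype.ext ?_⟩
    show π (b * x) = π x
    rw [map_mul, MonoidHom.mem_ker.mp hb, one_mul]
  have hθt1 : θt 1 = d := by
    rw [hθt, Representation.char_one, Module.finrank_fin_fun]
  have hker : ∀ k : Mt, f k = 1 → (ξ * θt) k = (ξ * θt) 1 := by
    intro k hk
    have hπk : π (k : liftGroup N σ) = 1 := congrArg Subtype.val hk
    have hkNt : (k : liftGroup N σ) ∈ Nt := by
      show π k ∈ N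
      rw [hπk]
      exact N.one_mem
    let kN : Nt := ⟨k, hkNt⟩
    have hspec := baseHom_spec N σ hd kN
    have hσ1 : σ ⟨liftFst N σ kN, kN.2⟩ = 1 := by
      have h1 : (⟨liftFst N σ kN, kN.2⟩ : N) = 1 := Subtype.ext hπk
      rw [h1, map_one]
    rw [hσ1] at hspec
    have hθk : θt k = ((β₀ kN : ℂˣ) : ℂ) * d := by
      show LinearMap.trace ℂ _ ((k : liftGroup N σ).1.2 : Module.End ℂ (Fin d → ℂ)) = _
      rw [hspec, map_smul, smul_eq_mul, LinearMap.trace_one, Module.finrank_fin_fun]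
    have hξk : ξ k = ((β₀ kN : ℂˣ) : ℂ)⁻¹ * γ 1 := by
      have h1 := hγcen (r kN) 1 (q k) k.2 (by rw [OneMemClass.coe_one, mul_one]; rfl)
      show γ (q k) = _
      rw [h1, hμ, Units.val_inv_eq_inv_val]
    have hξ1 : ξ 1 = γ 1 := by
      show γ (q 1) = γ 1
      rw [map_one]
    show ξ k * θt k = ξ 1 * θt 1
    rw [hξk, hθk, hξ1, hθt1]
    have hne : ((β₀ kN : ℂˣ) : ℂ) ≠ 0 := Units.ne_zero _
    field_simp
  obtain ⟨χ₀, hχ₀irr, hχ₀⟩ := irr_descend f hf hψirr hker
  have hγ1 : γ 1 ≠ 0 := irr_one_ne_zero hγirr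
  have hover : ∀ n : N, χ₀ ⟨n, hNG n.2⟩ = γ 1 * (θ : N → ℂ) n := by
    intro n
    let a : Mt := ⟨liftIncl N σ n, hN₀Mt ⟨n, rfl⟩⟩
    have h1 : f a = ⟨n, hNG n.2⟩ := Subtype.ext rfl
    rw [← h1, hχ₀]
    show ξ a * θt a = _
    have h2 : ξ a = γ 1 := by
      show γ (q a) = γ 1
      have h3 : q a = 1 := Subtype.ext (hmkincl n)
      rw [h3]
    have h3 : θt a = (θ : N → ℂ) n := by
      rw [← hσθ]
      rfl
    rw [h2, h3]
  refine ⟨⟨χ₀, hχ₀irr⟩, ?_, ?_⟩
  · have h1 : (fun n : N => χ₀ ⟨n, hNG n.2⟩) = fun n => γ 1 * (θ : N → ℂ) n := funext hover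
    show classInner (fun n : N => χ₀ ⟨n, hNG n.2⟩) (θ : N → ℂ) ≠ 0
    rw [h1]
    have h2 : classInner (fun n => γ 1 * (θ : N → ℂ) n) (θ : N → ℂ) =
        γ 1 * classInner (θ : N → ℂ) (θ : N → ℂ) := by
      unfold classInner
      rw [mul_left_comm]
      congr 1
      rw [Finset.mul_sum]
      apply Finset.sum_congr rfl
      intro n _
      ring
    rw [h2, Helper35.classInner_irr' θ.2 θ.2, if_pos rfl, mul_one]
    exact hγ1
  · intro x
    funext g
    rw [Helper20.conjFun_apply]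
    obtain ⟨xt, rfl⟩ := hsurj x
    obtain ⟨a, rfl⟩ := hf g
    let a' : Mt := ⟨xt * a * xt⁻¹, hMtn.conj_mem a a.2 xt⟩
    have h1 : (⟨π xt * (f a : Γ) * (π xt)⁻¹, hG.conj_mem _ (f a).2 _⟩ : G) = f a' := by
      apply Subtype.ext
      show π xt * π a * (π xt)⁻¹ = π (xt * a * xt⁻¹)
      rw [map_mul, map_mul, map_inv]
    show χ₀ ⟨π xt * (f a : Γ) * (π xt)⁻¹, _⟩ = χ₀ (f a)
    rw [h1, hχ₀, hχ₀]
    show ξ a' * θt a' = ξ a * θt a
    have h2 : ξ a' = ξ a := by
      show γ (q a') = γ (q a)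
      exact hγinv (mk xt) (q a) (q a') (by
        show mk (xt * a * xt⁻¹) = mk xt * mk a * (mk xt)⁻¹
        rw [map_mul, map_mul, map_inv])
    have h3 : θt a' = θt a := by
      show (liftRep N σ).character (xt * a * xt⁻¹) = (liftRep N σ).character a
      exact Representation.char_conj _ _ _
    rw [h2, h3]

end Cfsg.Agent.Lib.Helper83
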