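import Mathlib
import Cfsg.Agent.Lib.Helper83.Rg1
import Cfsg.Agent.Lib.Helper83.CycExt
import Cfsg.Agent.Lib.Helper83.LinearCount
import Cfsg.Agent.Lib.Helper20.CliffordRel

/-!
# Fully ramified characters under a Frobenius action with cyclic complement

* `frob_coset_sum`: if conjugation by `w` is fixed-point-free on `G/N`, the sum of a class
  function over the coset `Gw` is `[G:N]` times its sum over `Nw`;
* `cyc_arith`: a cyclic sequence of integers with autocorrelations `K+1, K, K` sums to `±1` mod `m`;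
* `cyc_mult`: a character of a group with a cyclic quotient of order `m` which is `e·θ` on the
  normal subgroup and has norm one on the other cosets has `e ≡ ±1` mod `m`.
-/

set_option autoImplicit false

namespace Cfsg.Agent.Lib.Helper83

open scoped ComplexConjugate
open Cfsg Cfsg.Agent.Lib

section FrobCyc

/-- conjugates of `w` by elements of `G` lying in the same `N`-coset come from the same coset -/
theorem frob_kappa_inj {Γ : Type*} [Group Γ] (G N : Subgroup Γ) [hN : N.Normal]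
    (w : Γ) (hw : ∀ g : Γ, g ∈ G → w * g * w⁻¹ * g⁻¹ ∈ N → g ∈ N)
    (h h' : Γ) (hh : h ∈ G) (hh' : h' ∈ G)
    (hmem : (h * w * h⁻¹ * w⁻¹)⁻¹ * (h' * w * h'⁻¹ * w⁻¹) ∈ N) : h⁻¹ * h' ∈ N := by
  apply hw _ (G.mul_mem (G.inv_mem hh) hh')
  have h1 := hN.conj_mem _ hmem (w * h⁻¹ * w⁻¹)
  have h2 := N.inv_mem h1
  have h3 : w * (h⁻¹ * h') * w⁻¹ * (h⁻¹ * h')⁻¹ =
      (w * h⁻¹ * w⁻¹ * ((h * w * h⁻¹ * w⁻¹)⁻¹ * (h' * w * h'⁻¹ * w⁻¹)) *
        (w * h⁻¹ * w⁻¹)⁻¹)⁻¹ := by
    group
  rw [h3]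
  exact h2

/-- if conjugation by `w` is fixed-point-free on `G/N`, the sum of a class function over the
coset `Gw` is `[G:N]` times its sum over `Nw` -/
theorem frob_coset_sum {Γ : Type*} [Group Γ] (G N : Subgroup Γ) [hG : G.Normal]
    [hN : N.Normal] [Fintype G] [Fintype N] (hNG : N ≤ G) (w : Γ)
    (hw : ∀ g : Γ, g ∈ G → w * g * w⁻¹ * g⁻¹ ∈ N → g ∈ N)
    (F : Γ → ℂ) (hF : ∀ a b : Γ, F (a * b * a⁻¹) = F b) :
    (Nat.card N : ℂ) * ∑ g : G, F ((g : Γ) * w) =
      (Nat.card G : ℂ) * ∑ n : N, F ((n : Γ) * w) := by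
  classical
  have hN₀ : (N.subgroupOf G).Normal := hN.subgroupOf G
  let _ : Fintype (N.subgroupOf G) := Fintype.ofFinite _
  let _ : Fintype (G ⧸ N.subgroupOf G) := Fintype.ofFinite _
  have hκG : ∀ h : G, (h : Γ) * w * (h : Γ)⁻¹ * w⁻¹ ∈ G := by
    intro h
    have h1 : w * (h : Γ)⁻¹ * w⁻¹ ∈ G := hG.conj_mem _ (G.inv_mem h.2) w
    have h2 : (h : Γ) * w * (h : Γ)⁻¹ * w⁻¹ = (h : Γ) * (w * (h : Γ)⁻¹ * w⁻¹) := by group
    rw [h2]
    exact G.mul_mem h.2 h1
  let κ : G → G := fun h => ⟨(h : Γ) * w * (h : Γ)⁻¹ * w⁻¹, hκG h⟩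
  let κ' : G ⧸ N.subgroupOf G → G ⧸ N.subgroupOf G := fun q => ((κ q.out : G) : G ⧸ N.subgroupOf G)
  have hinj : Function.Injective κ' := by
    intro q q' hqq
    have h1 : (κ q.out)⁻¹ * κ q'.out ∈ N.subgroupOf G :=
      (QuotientGroup.eq (s := N.subgroupOf G)).mp hqq
    have h2 : ((q.out : G) : Γ)⁻¹ * ((q'.out : G) : Γ) ∈ N :=
      frob_kappa_inj G N w hw _ _ q.out.2 q'.out.2 h1
    have h3 : ((q.out : G) : G ⧸ N.subgroupOf G) = ((q'.out : G) : G ⧸ N.subgroupOf G) :=
      (QuotientGroup.eq (s := N.subgroupOf G)).mpr h2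
    rwa [QuotientGroup.out_eq', QuotientGroup.out_eq'] at h3
  have hsurj : Function.Surjective κ' := Finite.injective_iff_surjective.mp hinj
  have hconj : ∀ a : Γ, ∑ n : N, F (a * (n : Γ) * a⁻¹ * w) = ∑ n : N, F ((n : Γ) * w) := by
    intro a
    exact Equiv.sum_comp (MulAut.conjNormal a : N ≃* N).toEquiv (fun n : N => F ((n : Γ) * w))
  have hcoset : ∀ q : G ⧸ N.subgroupOf G,
      ∑ n : N.subgroupOf G, F (((q.out * (n : G) : G) : Γ) * w) = ∑ n : N, F ((n : Γ) * w) := by
    intro q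
    obtain ⟨q', hq'⟩ := hsurj q
    have h1 : (κ q'.out)⁻¹ * q.out ∈ N.subgroupOf G := by
      apply (QuotientGroup.eq (s := N.subgroupOf G)).mp
      rw [QuotientGroup.out_eq']
      exact hq'
    have h2 : ∀ n : N.subgroupOf G, F (((q.out * (n : G) : G) : Γ) * w) =
        F (((κ q'.out : G) : Γ) *
          ((((⟨(κ q'.out)⁻¹ * q.out, h1⟩ * n : N.subgroupOf G) : G) : Γ)) * w) := by
      intro n
      apply congrArg F
      show ((q.out : G) : Γ) * ((n : G) : Γ) * w = ((κ q'.out : G) : Γ) *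
        ((((κ q'.out : G) : Γ))⁻¹ * ((q.out : G) : Γ) * ((n : G) : Γ)) * w
      group
    rw [Finset.sum_congr rfl (fun n _ => h2 n)]
    refine (Equiv.sum_comp (Equiv.mulLeft (⟨(κ q'.out)⁻¹ * q.out, h1⟩ : N.subgroupOf G))
      (fun n : N.subgroupOf G => F (((κ q'.out : G) : Γ) * ((n : G) : Γ) * w))).trans ?_
    rw [← hconj (w * ((q'.out : G) : Γ)⁻¹ * w⁻¹)]
    refine Eq.trans ?_ (Equiv.sum_comp (Subgroup.subgroupOfEquivOfLe hNG).toEquiv
      (fun n : N => F (w * ((q'.out : G) : Γ)⁻¹ * w⁻¹ * (n : Γ) *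
        (w * ((q'.out : G) : Γ)⁻¹ * w⁻¹)⁻¹ * w)))
    apply Finset.sum_congr rfl
    intro n _
    rw [← hF ((q'.out : G) : Γ)⁻¹]
    apply congrArg F
    show ((q'.out : G) : Γ)⁻¹ * (((q'.out : G) : Γ) * w * ((q'.out : G) : Γ)⁻¹ * w⁻¹ *
      ((n : G) : Γ) * w) * ((q'.out : G) : Γ)⁻¹⁻¹ =
      w * ((q'.out : G) : Γ)⁻¹ * w⁻¹ * ((n : G) : Γ) * (w * ((q'.out : G) : Γ)⁻¹ * w⁻¹)⁻¹ * w
    group
  have hsum : ∑ g : G, F ((g : Γ) * w) =
      (Nat.card (G ⧸ N.subgroupOf G) : ℂ) * ∑ n : N, F ((n : Γ) * w) := by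
    rw [← Equiv.sum_comp (outEquiv (N.subgroupOf G)) (fun g : G => F ((g : Γ) * w)),
      Fintype.sum_prod_type]
    have h3 : ∀ q : G ⧸ N.subgroupOf G, ∑ n : N.subgroupOf G,
        F (((outEquiv (N.subgroupOf G) (q, n) : G) : Γ) * w) = ∑ n : N, F ((n : Γ) * w) :=
      fun q => hcoset q
    rw [Finset.sum_congr rfl (fun q _ => h3 q), Finset.sum_const, Finset.card_univ,
      nsmul_eq_mul, Nat.card_eq_fintype_card]
  have hcard : Nat.card G = Nat.card (G ⧸ N.subgroupOf G) * Nat.card N := by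
    rw [Subgroup.card_eq_card_quotient_mul_card_subgroup (N.subgroupOf G),
      Nat.card_congr (Subgroup.subgroupOfEquivOfLe hNG).toEquiv]
  rw [hsum, hcard]
  push_cast
  ring

/-- a cyclic sequence of integers with autocorrelations `K+1, K, K` sums to `±1` mod `m` -/
theorem cyc_arith (m : ℕ) [NeZero m] (hm : 3 ≤ m) (n : ZMod m → ℤ) (K e : ℤ)
    (h0 : ∑ t, n t = e) (h1 : ∑ t, n t * n t = K + 1) (h2 : ∑ t, n t * n (t + 1) = K)
    (h3 : ∑ t, n t * n (t + 2) = K) : (m : ℤ) ∣ e - 1 ∨ (m : ℤ) ∣ e + 1 := by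
  classical
  have hm1 : Fact (1 < m) := ⟨by omega⟩
  have hshift : ∀ (c : ZMod m) (f : ZMod m → ℤ), ∑ t, f (t + c) = ∑ t, f t :=
    fun c f => Equiv.sum_comp (Equiv.addRight c) f
  have hshiftZ : ∀ (c : ZMod m) (f : ZMod m → ZMod m), ∑ t, f (t + c) = ∑ t, f t :=
    fun c f => Equiv.sum_comp (Equiv.addRight c) f
  set b : ZMod m → ℤ := fun t => n (t + 1) - n t with hb
  have h12 : ∀ t : ZMod m, t + 1 + 1 = t + 2 := fun t => by ring
  have hb2 : ∑ t, b t ^ 2 = 2 := by
    have e1 : ∀ t : ZMod m, b t ^ 2 = n (t + 1) * n (t + 1) - 2 * (n t * n (t + 1)) + n t * n t := by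
      intro t; simp only [hb]; ring
    rw [Finset.sum_congr rfl (fun t _ => e1 t), Finset.sum_add_distrib, Finset.sum_sub_distrib,
      ← Finset.mul_sum, hshift 1 (fun t => n t * n t), h1, h2]
    ring
  have hb0 : ∑ t, b t = 0 := by
    simp only [hb]
    rw [Finset.sum_sub_distrib, hshift 1 n, sub_self]
  have hbb : ∑ t, b t * b (t + 1) = -1 := by
    have e1 : ∀ t : ZMod m, b t * b (t + 1) = n (t + 1) * n (t + 1 + 1) - n (t + 1) * n (t + 1)
        - n t * n (t + 2) + n t * n (t + 1) := by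
      intro t; simp only [hb, h12]; ring
    rw [Finset.sum_congr rfl (fun t _ => e1 t), Finset.sum_add_distrib, Finset.sum_sub_distrib,
      Finset.sum_sub_distrib, hshift 1 (fun t => n t * n (t + 1)),
      hshift 1 (fun t => n t * n t), h1, h2, h3]
    ring
  have hT : ∑ t : ZMod m, t * ((b t : ℤ) : ZMod m) = -((e : ℤ) : ZMod m) := by
    have e1 : ∀ t : ZMod m, t * ((b t : ℤ) : ZMod m) =
        (t + 1 - 1) * ((n (t + 1) : ℤ) : ZMod m) - t * ((n t : ℤ) : ZMod m) := by
      intro t; simp only [hb]; push_cast; ring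
    rw [Finset.sum_congr rfl (fun t _ => e1 t), Finset.sum_sub_distrib,
      hshiftZ 1 (fun t => (t - 1) * ((n t : ℤ) : ZMod m)), ← Finset.sum_sub_distrib, ← h0]
    push_cast
    rw [← Finset.sum_neg_distrib]
    apply Finset.sum_congr rfl
    intro t _
    ring
  -- the structure of `b`
  obtain ⟨t₁, ht₁⟩ : ∃ t₁, b t₁ ≠ 0 := by
    by_contra hcon
    push Not at hcon
    simp only [hcon] at hb2
    norm_num at hb2
  have hsplit1 : b t₁ ^ 2 + ∑ t ∈ Finset.univ.erase t₁, b t ^ 2 = 2 := by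
    have h4 := Finset.add_sum_erase Finset.univ (fun t => b t ^ 2) (Finset.mem_univ t₁)
    rw [hb2] at h4
    exact h4
  have hnn1 : 0 ≤ ∑ t ∈ Finset.univ.erase t₁, b t ^ 2 := Finset.sum_nonneg (fun t _ => sq_nonneg _)
  have hb1sq : b t₁ ^ 2 = 1 := by
    have h5 : -1 ≤ b t₁ ∧ b t₁ ≤ 1 := by constructor <;> nlinarith
    have h6 : b t₁ = 1 ∨ b t₁ = -1 := by omega
    rcases h6 with h6 | h6 <;> rw [h6] <;> norm_num
  have hrest1 : ∑ t ∈ Finset.univ.erase t₁, b t ^ 2 = 1 := by linarith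
  obtain ⟨t₂, ht₂mem, ht₂⟩ : ∃ t₂ ∈ Finset.univ.erase t₁, b t₂ ≠ 0 := by
    by_contra hcon
    push Not at hcon
    rw [Finset.sum_eq_zero (fun t ht => by rw [hcon t ht]; norm_num)] at hrest1
    norm_num at hrest1
  have hne : t₂ ≠ t₁ := (Finset.mem_erase.mp ht₂mem).1
  have hsplit2 : b t₂ ^ 2 + ∑ t ∈ (Finset.univ.erase t₁).erase t₂, b t ^ 2 = 1 := by
    have h4 := Finset.add_sum_erase (Finset.univ.erase t₁) (fun t => b t ^ 2) ht₂mem
    rw [hrest1] at h4
    exact h4
  have hnn2 : 0 ≤ ∑ t ∈ (Finset.univ.erase t₁).erase t₂, b t ^ 2 :=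
    Finset.sum_nonneg (fun t _ => sq_nonneg _)
  have hb2sq : b t₂ ^ 2 = 1 := by
    have h5 : -1 ≤ b t₂ ∧ b t₂ ≤ 1 := by constructor <;> nlinarith
    have h6 : b t₂ = 1 ∨ b t₂ = -1 := by omega
    rcases h6 with h6 | h6 <;> rw [h6] <;> norm_num
  have hrest2 : ∑ t ∈ (Finset.univ.erase t₁).erase t₂, b t ^ 2 = 0 := by linarith
  have hz : ∀ t, t ≠ t₁ → t ≠ t₂ → b t = 0 := by
    intro t h1' h2'
    have h5 := (Finset.sum_eq_zero_iff_of_nonneg (fun t _ => sq_nonneg (b t))).mp hrest2 t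
      (Finset.mem_erase.mpr ⟨h2', Finset.mem_erase.mpr ⟨h1', Finset.mem_univ t⟩⟩)
    exact pow_eq_zero_iff (two_ne_zero) |>.mp h5
  have hsum2 : ∀ f : ZMod m → ℤ, (∀ t, b t = 0 → f t = 0) → ∑ t, f t = f t₁ + f t₂ := by
    intro f hf
    apply Finset.sum_eq_add t₁ t₂ hne.symm
    · intro c _ hc
      exact hf c (hz c hc.1 hc.2)
    · intro h; exact absurd (Finset.mem_univ _) h
    · intro h; exact absurd (Finset.mem_univ _) h
  have hsum2Z : ∀ f : ZMod m → ZMod m, (∀ t, b t = 0 → f t = 0) → ∑ t, f t = f t₁ + f t₂ := by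
    intro f hf
    apply Finset.sum_eq_add t₁ t₂ hne.symm
    · intro c _ hc
      exact hf c (hz c hc.1 hc.2)
    · intro h; exact absurd (Finset.mem_univ _) h
    · intro h; exact absurd (Finset.mem_univ _) h
  have hb12 : b t₁ + b t₂ = 0 := by
    rw [← hsum2 b (fun t ht => ht)]; exact hb0
  have hbb' : b t₁ * b (t₁ + 1) + b t₂ * b (t₂ + 1) = -1 := by
    rw [← hsum2 (fun t => b t * b (t + 1)) (fun t ht => by rw [ht, zero_mul])]; exact hbb
  have hT' : t₁ * ((b t₁ : ℤ) : ZMod m) + t₂ * ((b t₂ : ℤ) : ZMod m) = -((e : ℤ) : ZMod m) := by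
    rw [← hsum2Z (fun t => t * ((b t : ℤ) : ZMod m)) (fun t ht => by rw [ht]; simp)]; exact hT
  have h1ne : (1 : ZMod m) ≠ 0 := one_ne_zero
  have hb2eq : b t₂ = -b t₁ := by linarith
  have hcast : ((b t₂ : ℤ) : ZMod m) = -((b t₁ : ℤ) : ZMod m) := by rw [hb2eq]; push_cast; ring
  have hfin : ((e : ℤ) : ZMod m) = 1 ∨ ((e : ℤ) : ZMod m) = -1 := by
    by_cases hA : t₁ + 1 = t₂
    · -- e = b t₁
      have h5 : ((e : ℤ) : ZMod m) = ((b t₁ : ℤ) : ZMod m) := by
        have h6 : -((e : ℤ) : ZMod m) = -((b t₁ : ℤ) : ZMod m) := by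
          rw [← hT', hcast, ← hA]; ring
        exact neg_injective h6
      rw [h5]
      have h6 : b t₁ = 1 ∨ b t₁ = -1 := by
        have h7 : (b t₁ - 1) * (b t₁ + 1) = 0 := by nlinarith
        rcases mul_eq_zero.mp h7 with h8 | h8
        · left; linarith
        · right; linarith
      rcases h6 with h6 | h6
      · left; rw [h6]; simp
      · right; rw [h6]; simp
    · by_cases hB : t₂ + 1 = t₁
      · have h5 : ((e : ℤ) : ZMod m) = -((b t₁ : ℤ) : ZMod m) := by
          have h6 : -((e : ℤ) : ZMod m) = ((b t₁ : ℤ) : ZMod m) := by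
            rw [← hT', hcast, ← hB]; ring
          rw [← h6, neg_neg]
        rw [h5]
        have h6 : b t₁ = 1 ∨ b t₁ = -1 := by
          have h7 : (b t₁ - 1) * (b t₁ + 1) = 0 := by nlinarith
          rcases mul_eq_zero.mp h7 with h8 | h8
          · left; linarith
          · right; linarith
        rcases h6 with h6 | h6
        · right; rw [h6]; simp
        · left; rw [h6]; simp
      · exfalso
        have h5 : b (t₁ + 1) = 0 := by
          apply hz
          · intro h; apply h1ne; simp at h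
          · exact hA
        have h6 : b (t₂ + 1) = 0 := by
          apply hz
          · exact hB
          · intro h; apply h1ne; simp at h
        rw [h5, h6] at hbb'
        norm_num at hbb'
  rcases hfin with h | h
  · left
    rw [← ZMod.intCast_zmod_eq_zero_iff_dvd]
    push_cast
    rw [h, sub_self]
  · right
    rw [← ZMod.intCast_zmod_eq_zero_iff_dvd]
    push_cast
    rw [h, neg_add_cancel]

end FrobCyc

section CycMult

variable {U : Type*} [Group U] (m : ℕ) [NeZero m] (ν : U →* Multiplicative (ZMod m))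

/-- the linear characters of `U` attached to a homomorphism onto a cyclic group -/
noncomputable def cycHom (t : ZMod m) : U →* ℂˣ :=
  MonoidHom.toHomUnits
    { toFun := fun u => ZMod.stdAddChar (t * Multiplicative.toAdd (ν u))
      map_one' := by simp
      map_mul' := fun u u' => by
        rw [map_mul ν, toAdd_mul, mul_add, AddChar.map_add_eq_mul] }

/-- the linear characters of `U` attached to a homomorphism onto a cyclic group -/
noncomputable def cycChar (t : ZMod m) : U → ℂ := fun u => ((cycHom m ν t u : ℂˣ) : ℂ)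

theorem cycChar_apply (t : ZMod m) (u : U) :
    cycChar m ν t u = ZMod.stdAddChar (t * Multiplicative.toAdd (ν u)) := rfl

theorem cycChar_irr (t : ZMod m) : IsIrrCharacter U (cycChar m ν t) := isIrr_of_hom (cycHom m ν t)

theorem cycChar_one (t : ZMod m) : cycChar m ν t 1 = 1 := by
  rw [cycChar_apply]; simp

theorem cycChar_mul (t : ZMod m) (u u' : U) :
    cycChar m ν t (u * u') = cycChar m ν t u * cycChar m ν t u' := by
  show ZMod.stdAddChar (t * Multiplicative.toAdd (ν (u * u'))) =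
    ZMod.stdAddChar (t * Multiplicative.toAdd (ν u)) *
      ZMod.stdAddChar (t * Multiplicative.toAdd (ν u'))
  rw [map_mul ν, toAdd_mul, mul_add, AddChar.map_add_eq_mul]

theorem cycChar_ker (t : ZMod m) (n : U) (hn : n ∈ ν.ker) (u : U) :
    cycChar m ν t (n * u) = cycChar m ν t u := by
  rw [cycChar_mul, cycChar_apply m ν t n, MonoidHom.mem_ker.mp hn]
  simp

theorem cycChar_of_ker (t : ZMod m) (n : U) (hn : n ∈ ν.ker) : cycChar m ν t n = 1 := by
  rw [cycChar_apply m ν t n, MonoidHom.mem_ker.mp hn]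
  simp

theorem cycChar_add (t s : ZMod m) (u : U) :
    cycChar m ν (t + s) u = cycChar m ν t u * cycChar m ν s u := by
  simp only [cycChar_apply, add_mul, AddChar.map_add_eq_mul]

theorem cycChar_zero (u : U) : cycChar m ν 0 u = 1 := by
  rw [cycChar_apply]; simp

theorem cycChar_inj (hν : Function.Surjective ν) {t t' : ZMod m}
    (h : cycChar m ν t = cycChar m ν t') : t = t' := by
  obtain ⟨u, hu⟩ := hν (Multiplicative.ofAdd 1)
  have h1 := congrFun h u
  rw [cycChar_apply, cycChar_apply, hu] at h1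
  simp only [toAdd_ofAdd, mul_one] at h1
  exact ZMod.injective_stdAddChar h1

theorem cycChar_conj (t : ZMod m) (u : U) : cycChar m ν t u * conj (cycChar m ν t u) = 1 := by
  rw [cycChar_apply, ← AddChar.map_neg_eq_conj, ← AddChar.map_add_eq_mul, add_neg_cancel,
    AddChar.map_zero_eq_one]

variable [Fintype U]

set_option maxHeartbeats 1000000 in
/-- a character of a group with a cyclic quotient of order `m` which is `e·θ` on the normal
subgroup and has norm one on the other cosets has `e ≡ ±1` mod `m` -/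
theorem cyc_mult (hν : Function.Surjective ν)
    (N₁ : Subgroup U) [hN₁ : N₁.Normal] [Fintype N₁] (hker : ν.ker = N₁)
    (θ' : U → ℂ) (hθ' : IsIrrCharacter U θ') (hθ'N : IsIrrCharacter N₁ (fun n : N₁ => θ' n))
    (ψ : U → ℂ) (hψ : IsCharacter U ψ) (e : ℕ)
    (h1 : ∀ n : N₁, ψ n = e * θ' n)
    (h2 : ∀ u : U, u ∉ N₁ →
      ∑ n : N₁, ψ ((n : U) * u) * conj (ψ ((n : U) * u)) = (Nat.card N₁ : ℂ)) :
    (m : ℤ) ∣ (e : ℤ) - 1 ∨ (m : ℤ) ∣ (e : ℤ) + 1 := by
  classical
  subst hker
  have := Helper4.irr_finite (G := U)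
  let _ : Fintype (IrrCharacter U) := Fintype.ofFinite _
  have hμN : ∀ (t : ZMod m) (g : U) (n : ν.ker), cycChar m ν t ((n : U) * g) = cycChar m ν t g :=
    fun t g n => cycChar_ker m ν t n n.2 g
  have hξirr : ∀ t : ZMod m, IsIrrCharacter U (cycChar m ν t * θ') := fun t =>
    Helper20.irr_linear_mul_irr (cycChar_irr m ν t) (cycChar_one m ν t) hθ'
  have hξinner : ∀ t t' : ZMod m,
      classInner (cycChar m ν t * θ') (cycChar m ν t' * θ') = if t = t' then 1 else 0 := by
    intro t t'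
    rw [S0868.classInner_mul_ext ν.ker hθ' hθ'N (hμN t) (hμN t'),
      Helper35.classInner_irr' (cycChar_irr m ν t) (cycChar_irr m ν t')]
    by_cases h : t = t'
    · rw [if_pos h, if_pos (by rw [h])]
    · rw [if_neg h, if_neg (fun h' => h (cycChar_inj m ν hν h'))]
  have hnat : ∀ t : ZMod m, ∃ k : ℕ, classInner ψ (cycChar m ν t * θ') = k := fun t =>
    Helper35.classInner_char_nat hψ (Helper35.isChar_of_irr (hξirr t))
  choose nn hnn using hnat
  -- the linear characters of the quotient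
  have hcommQ : IsMulCommutative (U ⧸ ν.ker) :=
    ⟨⟨fun a b => QuotientGroup.kerLift_injective ν (by rw [map_mul, map_mul, mul_comm])⟩⟩
  have hcardQ : Nat.card (U ⧸ ν.ker) = m := by
    rw [Nat.card_congr (QuotientGroup.quotientKerEquivOfSurjective ν hν).toEquiv]
    exact Nat.card_zmod m
  have hcardU : (Nat.card U : ℂ) = (m : ℂ) * (Nat.card ν.ker : ℂ) := by
    rw [Subgroup.card_eq_card_quotient_mul_card_subgroup ν.ker, hcardQ]
    push_cast
    ring
  have hlin : ∀ β : IrrCharacter (U ⧸ ν.ker), ∃ t : ZMod m,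
      ∀ u : U, (β : U ⧸ ν.ker → ℂ) (u : U ⧸ ν.ker) = cycChar m ν t u := by
    have hle : ∀ t : ZMod m, ν.ker ≤ (cycHom m ν t).ker := by
      intro t n hn
      rw [MonoidHom.mem_ker]
      apply Units.ext
      exact cycChar_of_ker m ν t n hn
    let μbar : ZMod m → IrrCharacter (U ⧸ ν.ker) := fun t =>
      ⟨fun q => ((QuotientGroup.lift ν.ker (cycHom m ν t) (hle t) q : ℂˣ) : ℂ),
        isIrr_of_hom (QuotientGroup.lift ν.ker (cycHom m ν t) (hle t))⟩
    have hinjbar : Function.Injective μbar := by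
      intro t t' h
      apply cycChar_inj m ν hν
      funext u
      exact congrArg (fun β : IrrCharacter (U ⧸ ν.ker) => (β : _ → ℂ) (u : U ⧸ ν.ker)) h
    have hfinQ := Helper4.irr_finite (G := U ⧸ ν.ker)
    have hbij : Function.Bijective μbar := hinjbar.bijective_of_nat_card_le (by
      rw [card_irr_comm, hcardQ, Nat.card_zmod])
    intro β
    obtain ⟨t, ht⟩ := hbij.2 β
    exact ⟨t, fun u => by rw [← ht]; rfl⟩
  -- the expansion of `ψ`
  have hcfψ : IsClassFunction U ψ := Helper35.isClassFunction_of_isCharacter hψ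
  have hcfξ : ∀ t : ZMod m, IsClassFunction U (cycChar m ν t * θ') := fun t =>
    Helper35.isClassFunction_of_isCharacter (Helper35.isChar_of_irr (hξirr t))
  have hθ1 : θ' 1 ≠ 0 := irr_one_ne_zero hθ'
  have hNN : classInner (fun n : ν.ker => θ' n) (fun n : ν.ker => θ' n) = 1 := by
    rw [Helper35.classInner_irr' hθ'N hθ'N, if_pos rfl]
  have hexp : ψ = ∑ t : ZMod m, (nn t : ℂ) • (cycChar m ν t * θ') := by
    have hD : ψ - ∑ t : ZMod m, (nn t : ℂ) • (cycChar m ν t * θ') = 0 := by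
      apply class_fun_eq_zero_of_orth
      · intro g x
        simp only [Pi.sub_apply, Finset.sum_apply, Pi.smul_apply]
        rw [hcfψ g x]
        congr 1
        apply Finset.sum_congr rfl
        intro t _
        rw [hcfξ t g x]
      · intro χ'
        rw [classInner_sub_left, classInner_sum_left]
        simp only [classInner_smul_left]
        by_cases hex : ∃ t : ZMod m, (χ' : U → ℂ) = cycChar m ν t * θ'
        · obtain ⟨t₀, ht₀⟩ := hex
          rw [ht₀, hnn t₀]
          simp only [hξinner, mul_ite, mul_one, mul_zero, Finset.sum_ite_eq', Finset.mem_univ,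
            if_true, sub_self]
        · push Not at hex
          have h3 : ∀ t : ZMod m, classInner (cycChar m ν t * θ') (χ' : U → ℂ) = 0 := fun t => by
            rw [Helper35.classInner_irr' (hξirr t) χ'.2, if_neg (fun h => hex t h.symm)]
          simp only [h3, mul_zero, Finset.sum_const_zero, sub_zero]
          by_contra hne
          have hχN : IsCharacter ν.ker (fun n : ν.ker => (χ' : U → ℂ) n) :=
            Helper20.isCharacter_comp ν.ker.subtype (Helper35.isChar_of_irr χ'.2)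
          obtain ⟨φ, hφ, hφc⟩ := Helper20.exists_constituent_of_char hχN (irr_one_ne_zero χ'.2)
          have h4 := const_trans ν.ker.subtype hψ χ'.2 hne (Helper35.isChar_of_irr hφ) hφc
          have h5 : (fun n : ν.ker => ψ (ν.ker.subtype n)) = (e : ℂ) • (fun n : ν.ker => θ' n) := by
            funext n
            exact h1 n
          rw [h5, classInner_smul_left, Helper35.classInner_irr' hθ'N hφ] at h4
          have h6 : (fun n : ν.ker => θ' n) = φ := by
            by_contra h7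
            rw [if_neg h7, mul_zero] at h4
            exact h4 rfl
          rw [← h6] at hφc
          obtain ⟨β, hβ⟩ := gallagher_exists ν.ker hθ' hθ'N χ'.2 hφc
          obtain ⟨t, ht⟩ := hlin β
          apply hex t
          rw [hβ]
          funext g
          rw [ht g]
          rfl
    exact sub_eq_zero.mp hD
  -- the degree
  have hdeg : (e : ℂ) = ∑ t : ZMod m, (nn t : ℂ) := by
    have h3 := congrFun hexp 1
    have h4 : ψ 1 = e * θ' 1 := h1 1
    rw [h4] at h3
    simp only [Finset.sum_apply, Pi.smul_apply, Pi.mul_apply, cycChar_one, one_mul,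
      smul_eq_mul] at h3
    rw [← Finset.sum_mul] at h3
    exact mul_right_cancel₀ hθ1 h3
  -- the autocorrelations, first form
  have hauto1 : ∀ s : ZMod m, classInner ψ (cycChar m ν s * ψ) =
      ∑ t : ZMod m, (nn t : ℂ) * (nn (t - s) : ℂ) := by
    intro s
    have h3 : ∀ t : ZMod m, classInner (cycChar m ν t * θ') (cycChar m ν s * ψ) =
        (nn (t - s) : ℂ) := by
      intro t
      have h4 : classInner (cycChar m ν t * θ') (cycChar m ν s * ψ) =
          classInner (cycChar m ν (t - s) * θ') ψ := by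
        unfold classInner
        congr 1
        apply Finset.sum_congr rfl
        intro u _
        have h5 : cycChar m ν t u = cycChar m ν (t - s) u * cycChar m ν s u := by
          rw [← cycChar_add, sub_add_cancel]
        simp only [Pi.mul_apply, map_mul]
        rw [h5]
        have h6 := cycChar_conj m ν s u
        linear_combination (cycChar m ν (t - s) u * θ' u * conj (ψ u)) * h6
      rw [h4, Helper4.classInner_conj_symm, hnn]
      simp
    nth_rewrite 1 [hexp]
    rw [classInner_sum_left]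
    simp only [classInner_smul_left, h3]
  -- the autocorrelations, second form
  have hcardN : (Nat.card ν.ker : ℂ) ≠ 0 := by
    exact_mod_cast (Nat.card_pos (α := ν.ker)).ne'
  have hm0 : (m : ℂ) ≠ 0 := by exact_mod_cast (NeZero.ne m)
  have hsumN : ∑ n : ν.ker, ψ n * conj (ψ n) = (e : ℂ) ^ 2 * (Nat.card ν.ker : ℂ) := by
    have h3 : ∀ n : ν.ker, ψ n * conj (ψ n) = (e : ℂ) ^ 2 * (θ' n * conj (θ' n)) := by
      intro n
      rw [h1 n, map_mul, Complex.conj_natCast]
      ring
    rw [Finset.sum_congr rfl (fun n _ => h3 n), ← Finset.mul_sum]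
    congr 1
    have h4 := hNN
    unfold classInner at h4
    rw [inv_mul_eq_one₀ hcardN] at h4
    exact h4.symm
  have hauto2 : ∀ s : ZMod m, classInner ψ (cycChar m ν s * ψ) =
      (if s = 0 then 1 else 0) + ((e : ℂ) ^ 2 - 1) / m := by
    intro s
    have h3 : ∀ g : U, ∑ n : ν.ker, ψ ((n : U) * g) * conj ((cycChar m ν s * ψ) ((n : U) * g)) =
        conj (cycChar m ν s g) * (Nat.card ν.ker : ℂ) *
          (1 + ((e : ℂ) ^ 2 - 1) * (if g ∈ ν.ker then 1 else 0)) := by
      intro g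
      have h4 : ∀ n : ν.ker, ψ ((n : U) * g) * conj ((cycChar m ν s * ψ) ((n : U) * g)) =
          conj (cycChar m ν s g) * (ψ ((n : U) * g) * conj (ψ ((n : U) * g))) := by
        intro n
        simp only [Pi.mul_apply, map_mul, hμN s g n]
        ring
      rw [Finset.sum_congr rfl (fun n _ => h4 n), ← Finset.mul_sum, mul_assoc]
      congr 1
      by_cases hg : g ∈ ν.ker
      · rw [if_pos hg, mul_one]
        have h5 := Equiv.sum_comp (Equiv.mulRight (⟨g, hg⟩ : ν.ker))
          (fun n : ν.ker => ψ n * conj (ψ n))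
        refine h5.trans ?_
        rw [hsumN]
        ring
      · rw [if_neg hg, mul_zero, add_zero, mul_one]
        exact h2 g hg
    have h7 : ∀ g : U, conj (cycChar m ν s g) * (Nat.card ν.ker : ℂ) *
          (1 + ((e : ℂ) ^ 2 - 1) * (if g ∈ ν.ker then 1 else 0)) =
        (Nat.card ν.ker : ℂ) * (conj (cycChar m ν s g) +
          ((e : ℂ) ^ 2 - 1) * (if g ∈ ν.ker then conj (cycChar m ν s g) else 0)) := by
      intro g
      split_ifs <;> ring
    have h8 : ∑ g : U, (if g ∈ ν.ker then conj (cycChar m ν s g) else 0) =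
        (Nat.card ν.ker : ℂ) := by
      rw [Helper20.sum_eq_sum_subgroup ν.ker
        (fun g : U => if g ∈ ν.ker then conj (cycChar m ν s g) else 0)
        (fun g hg => if_neg hg)]
      have h9 : ∀ n : ν.ker, (if (n : U) ∈ ν.ker then conj (cycChar m ν s n) else 0) = (1 : ℂ) := by
        intro n
        rw [if_pos n.2, cycChar_of_ker m ν s n n.2, map_one]
      rw [Finset.sum_congr rfl (fun n _ => h9 n), Finset.sum_const, Finset.card_univ,
        nsmul_eq_mul, mul_one, Nat.card_eq_fintype_card]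
    have h10 : ∑ g : U, conj (cycChar m ν s g) =
        (Nat.card U : ℂ) * (if s = 0 then 1 else 0) := by
      have h11 : classInner (cycChar m ν 0) (cycChar m ν s) = if s = 0 then 1 else 0 := by
        rw [Helper35.classInner_irr' (cycChar_irr m ν 0) (cycChar_irr m ν s)]
        by_cases h : s = 0
        · rw [if_pos h, if_pos (by rw [h])]
        · rw [if_neg h, if_neg (fun h' => h (cycChar_inj m ν hν h').symm)]
      unfold classInner at h11
      simp only [cycChar_zero, one_mul] at h11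
      rw [← h11, ← mul_assoc, mul_inv_cancel₀ (by rw [hcardU]; exact mul_ne_zero hm0 hcardN),
        one_mul]
    unfold classInner
    rw [S0868.sum_eq_avg ν.ker (fun g => ψ g * conj ((cycChar m ν s * ψ) g)), Finset.sum_comm,
      Finset.sum_congr rfl (fun g _ => h3 g), Finset.sum_congr rfl (fun g _ => h7 g),
      ← Finset.mul_sum, Finset.sum_add_distrib, ← Finset.mul_sum, h8, h10, hcardU]
    field_simp
  have hauto : ∀ s : ZMod m, ∑ t : ZMod m, (nn t : ℂ) * (nn (t - s) : ℂ) =
      (if s = 0 then 1 else 0) + ((e : ℂ) ^ 2 - 1) / m := fun s => by rw [← hauto1, hauto2]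
  rcases Nat.lt_or_ge m 2 with hm2 | hm2
  · have hm1 : (m : ℤ) = 1 := by
      have := Nat.pos_of_ne_zero (NeZero.ne m)
      omega
    left
    rw [hm1]
    exact one_dvd _
  have hfact : Fact (1 < m) := ⟨hm2⟩
  have h10 : (1 : ZMod m) ≠ 0 := one_ne_zero
  have hK1 : ((∑ t : ZMod m, (nn t : ℤ) * (nn (t - 1) : ℤ) : ℤ) : ℂ) =
      ((e : ℂ) ^ 2 - 1) / m := by
    have h3 := hauto 1
    rw [if_neg h10, zero_add] at h3
    rw [← h3]
    push_cast
    rfl
  have hKe : (∑ t : ZMod m, (nn t : ℤ) * (nn (t - 1) : ℤ)) * (m : ℤ) = (e : ℤ) ^ 2 - 1 := by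
    have h3 : ((∑ t : ZMod m, (nn t : ℤ) * (nn (t - 1) : ℤ) : ℤ) : ℂ) * (m : ℂ) =
        (e : ℂ) ^ 2 - 1 := by
      rw [hK1]
      field_simp
    exact_mod_cast h3
  rcases Nat.lt_or_ge m 3 with hm3 | hm3
  · have hm2' : (m : ℤ) = 2 := by omega
    left
    rw [hm2'] at hKe ⊢
    rcases Int.even_or_odd (e : ℤ) with ⟨r, hr⟩ | ⟨r, hr⟩
    · exfalso
      have h4 : (∑ t : ZMod m, (nn t : ℤ) * (nn (t - 1) : ℤ)) * 2 = 4 * (r * r) - 1 := by
        rw [hKe, hr]; ring
      omega
    · exact ⟨r, by rw [hr]; ring⟩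
  · have h20 : (2 : ZMod m) ≠ 0 := by
      intro h
      have h5 : ((2 : ℕ) : ZMod m) = 0 := by exact_mod_cast h
      rw [ZMod.natCast_eq_zero_iff] at h5
      have := Nat.le_of_dvd (by norm_num) h5
      omega
    apply cyc_arith m hm3 (fun t => (nn t : ℤ)) (∑ t : ZMod m, (nn t : ℤ) * (nn (t - 1) : ℤ))
      (e : ℤ)
    · exact_mod_cast hdeg.symm
    · have h3 := hauto 0
      rw [if_pos rfl] at h3
      simp only [sub_zero] at h3
      have h6 : ((∑ t : ZMod m, (nn t : ℤ) * (nn t : ℤ) : ℤ) : ℂ) =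
          ((∑ t : ZMod m, (nn t : ℤ) * (nn (t - 1) : ℤ) + 1 : ℤ) : ℂ) := by
        rw [Int.cast_add, hK1]
        push_cast
        rw [h3]
        ring
      exact_mod_cast h6
    · rw [← Equiv.sum_comp (Equiv.addRight (1 : ZMod m))
        (fun t => (nn t : ℤ) * (nn (t - 1) : ℤ))]
      apply Finset.sum_congr rfl
      intro t _
      simp [mul_comm]
    · have h3 := hauto 2
      rw [if_neg h20, zero_add, ← hK1] at h3
      have h6 : ∑ t : ZMod m, (nn t : ℤ) * (nn (t - 2) : ℤ) =
          ∑ t : ZMod m, (nn t : ℤ) * (nn (t - 1) : ℤ) := by exact_mod_cast h3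
      rw [← h6, ← Equiv.sum_comp (Equiv.addRight (2 : ZMod m))
        (fun t => (nn t : ℤ) * (nn (t - 2) : ℤ))]
      apply Finset.sum_congr rfl
      intro t _
      simp [mul_comm]

end CycMult

end Cfsg.Agent.Lib.Helper83
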