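import Mathlib
import Cfsg.Prelude.Def_Blocks
import Cfsg.Agent.Lib.Helper80.Galois
import Cfsg.Agent.Lib.Helper83.IrrBasic

/-!
# Fields of values of characters, part 1

* `gp k φ`: the twist `g ↦ φ (g ^ k)` of a function by a power map;
* `char_mem_cyclotomic`: character values lie in a cyclotomic field;
* `char_twist_pow`: a ring endomorphism of `ℂ` raising a primitive root to the `k`-th power
  acts on character values as the power map;
* `emb_eq_pow`: an embedding of the field of values into `ℂ` acts as a power map;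
* `galOrb`, `mem_galOrb`: the Galois orbit of a function;
* `finrank_eq_card_galOrb`: the degree of the field of values is the size of the orbit;
* `finrank_dvd_totient`: it divides `φ(|G|)`.
-/

set_option autoImplicit false
set_option linter.unusedSectionVars false
set_option linter.style.haveILetI false
set_option linter.unusedVariables false

namespace Cfsg.Agent.Lib.Helper83

open scoped ComplexConjugate
open Cfsg Cfsg.Agent.Lib
open IntermediateField

/-- the twist of a function by the `k`-th power map -/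
def gp {G : Type*} [Group G] (k : ℕ) (φ : G → ℂ) : G → ℂ := fun g => φ (g ^ k)

theorem gp_apply {G : Type*} [Group G] (k : ℕ) (φ : G → ℂ) (g : G) : gp k φ g = φ (g ^ k) := rfl

/-- character values lie in the cyclotomic field -/
theorem char_mem_cyclotomic {G : Type*} [Group G] [Fintype G] {φ : G → ℂ} (hφ : IsCharacter G φ)
    (ζ : ℂ) (hζ : IsPrimitiveRoot ζ (Nat.card G)) (g : G) : φ g ∈ ℚ⟮ζ⟯ := by
  obtain ⟨m, ρ, rfl⟩ := hφ
  have hn : 0 < Nat.card G := Nat.card_pos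
  obtain ⟨mult, hm⟩ := Helper80.character_pow_eq ρ g (Nat.card G) hn pow_card_eq_one' ζ hζ
  have h1 := hm 1
  rw [pow_one] at h1
  rw [h1]
  apply sum_mem
  intro j _
  apply mul_mem
  · exact IntermediateField.natCast_mem _ _
  · exact pow_mem (pow_mem (mem_adjoin_simple_self ℚ ζ) j) 1

/-- a ring endomorphism of `ℂ` raising a primitive root to the `k`-th power acts on character
values as the power map -/
theorem char_twist_pow {G : Type*} [Group G] [Fintype G] {φ : G → ℂ} (hφ : IsCharacter G φ)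
    (ζ : ℂ) (hζ : IsPrimitiveRoot ζ (Nat.card G)) (k : ℕ) (τ : ℂ →+* ℂ) (hτ : τ ζ = ζ ^ k)
    (g : G) : τ (φ g) = φ (g ^ k) := by
  obtain ⟨m, ρ, rfl⟩ := hφ
  have hn : 0 < Nat.card G := Nat.card_pos
  obtain ⟨mult, hm⟩ := Helper80.character_pow_eq ρ g (Nat.card G) hn pow_card_eq_one' ζ hζ
  have h1 := hm 1
  have hk' := hm k
  rw [pow_one] at h1
  rw [h1, hk', map_sum]
  refine Finset.sum_congr rfl fun j _ => ?_
  rw [map_mul, map_natCast, pow_one, map_pow, hτ]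
  ring

/-- an embedding of the field of values into `ℂ` acts as a power map -/
theorem emb_eq_pow {G : Type*} [Group G] [Fintype G] {φ : G → ℂ} (hφ : IsCharacter G φ)
    (τ : adjoin ℚ (Set.range φ) →ₐ[ℚ] ℂ) :
    ∃ k : ℕ, k.Coprime (Nat.card G) ∧
      ∀ g : G, τ ⟨φ g, subset_adjoin ℚ _ (Set.mem_range_self g)⟩ = φ (g ^ k) := by
  have hn : 0 < Nat.card G := Nat.card_pos
  obtain ⟨ζ, hζ⟩ : ∃ ζ : ℂ, IsPrimitiveRoot ζ (Nat.card G) :=
    ⟨_, Complex.isPrimitiveRoot_exp _ hn.ne'⟩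
  have : NeZero (Nat.card G) := ⟨hn.ne'⟩
  have hint : IsIntegral ℚ ζ := (hζ.isIntegral hn).tower_top
  have hle : adjoin ℚ (Set.range φ) ≤ ℚ⟮ζ⟯ := by
    rw [adjoin_le_iff]
    rintro _ ⟨g, rfl⟩
    exact char_mem_cyclotomic hφ ζ hζ g
  have hK : ∀ s ∈ ({ζ} : Set ℂ),
      IsIntegral ℚ s ∧ ((minpoly ℚ s).map (algebraMap ℚ ℂ)).Splits := by
    intro s hs
    rw [Set.mem_singleton_iff] at hs
    subst hs
    exact ⟨hint, IsAlgClosed.splits _⟩
  obtain ⟨τ₂, hτ₂⟩ := exists_algHom_adjoin_of_splits hK τ hle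
  have hgen : ((AdjoinSimple.gen ℚ ζ : ℚ⟮ζ⟯) : ℂ) = ζ := AdjoinSimple.coe_gen ℚ ζ
  have hgenprim : IsPrimitiveRoot (AdjoinSimple.gen ℚ ζ) (Nat.card G) := by
    have h1 := hζ
    rw [← hgen] at h1
    exact IsPrimitiveRoot.of_map_of_injective (f := algebraMap ℚ⟮ζ⟯ ℂ) h1
      (algebraMap ℚ⟮ζ⟯ ℂ).injective
  have hξ : IsPrimitiveRoot (τ₂ (AdjoinSimple.gen ℚ ζ)) (Nat.card G) :=
    hgenprim.map_of_injective τ₂.toRingHom.injective
  obtain ⟨k, hkn, hkξ⟩ := hζ.eq_pow_of_pow_eq_one hξ.pow_eq_one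
  have hkcop : k.Coprime (Nat.card G) := (hζ.pow_iff_coprime hn k).mp (hkξ ▸ hξ)
  refine ⟨k, hkcop, fun g => ?_⟩
  obtain ⟨m, ρ, hρ⟩ := hφ
  obtain ⟨mult, hm⟩ := Helper80.character_pow_eq ρ g (Nat.card G) hn pow_card_eq_one' ζ hζ
  have h1 := hm 1
  rw [pow_one] at h1
  let x : ℚ⟮ζ⟯ := ∑ j ∈ Finset.range (Nat.card G), (mult j : ℚ⟮ζ⟯) * (AdjoinSimple.gen ℚ ζ) ^ j
  have hx : (x : ℂ) = φ g := by
    rw [← hρ, h1]
    show ((∑ j ∈ Finset.range (Nat.card G), (mult j : ℚ⟮ζ⟯) * (AdjoinSimple.gen ℚ ζ) ^ j :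
      ℚ⟮ζ⟯) : ℂ) = _
    push_cast
    apply Finset.sum_congr rfl
    intro j _
    rw [hgen, pow_one]
  have hincl : inclusion hle ⟨φ g, subset_adjoin ℚ _ (Set.mem_range_self g)⟩ = x :=
    Subtype.ext hx.symm
  have h2 : τ ⟨φ g, subset_adjoin ℚ _ (Set.mem_range_self g)⟩ = τ₂ x := by
    have h4 := DFunLike.congr_fun hτ₂ ⟨φ g, subset_adjoin ℚ _ (Set.mem_range_self g)⟩
    exact h4.symm.trans (congrArg τ₂ hincl)
  rw [h2]
  have h3 : τ₂ x = ∑ j ∈ Finset.range (Nat.card G),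
      (mult j : ℂ) * (τ₂ (AdjoinSimple.gen ℚ ζ)) ^ j := by
    simp only [x, map_sum, map_mul, map_natCast, map_pow]
  rw [h3, ← hρ, hm k]
  apply Finset.sum_congr rfl
  intro j _
  rw [← hkξ]
  ring

open Classical in
/-- the Galois orbit of a function under the power maps -/
noncomputable def galOrb {G : Type*} [Group G] [Fintype G] (φ : G → ℂ) : Finset (G → ℂ) :=
  ((Finset.range (Nat.card G)).filter (fun k => k.Coprime (Nat.card G))).image (fun k => gp k φ)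

open Classical in
theorem mem_galOrb {G : Type*} [Group G] [Fintype G] (φ θ : G → ℂ) :
    θ ∈ galOrb φ ↔ ∃ k : ℕ, k.Coprime (Nat.card G) ∧ θ = gp k φ := by
  unfold galOrb
  rw [Finset.mem_image]
  constructor
  · rintro ⟨k, hk, rfl⟩
    exact ⟨k, (Finset.mem_filter.mp hk).2, rfl⟩
  · rintro ⟨k, hk, rfl⟩
    have hn : 0 < Nat.card G := Nat.card_pos
    refine ⟨k % Nat.card G, Finset.mem_filter.mpr
      ⟨Finset.mem_range.mpr (Nat.mod_lt k hn), ?_⟩, ?_⟩
    · unfold Nat.Coprime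
      rw [← Nat.gcd_rec, Nat.gcd_comm]
      exact hk
    · funext g
      rw [gp_apply, gp_apply, pow_mod_natCard]

open Classical in
/-- the degree of the field of values is the size of the Galois orbit -/
theorem finrank_eq_card_galOrb {G : Type*} [Group G] [Fintype G] {φ : G → ℂ}
    (hφ : IsCharacter G φ) :
    Module.finrank ℚ (adjoin ℚ (Set.range φ)) = (galOrb φ).card := by
  have hn : 0 < Nat.card G := Nat.card_pos
  obtain ⟨ζ, hζ⟩ : ∃ ζ : ℂ, IsPrimitiveRoot ζ (Nat.card G) :=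
    ⟨_, Complex.isPrimitiveRoot_exp _ hn.ne'⟩
  have : NeZero (Nat.card G) := ⟨hn.ne'⟩
  have hint : IsIntegral ℚ ζ := (hζ.isIntegral hn).tower_top
  have hfd1 : FiniteDimensional ℚ ℚ⟮ζ⟯ := adjoin.finiteDimensional hint
  have hle : adjoin ℚ (Set.range φ) ≤ ℚ⟮ζ⟯ := by
    rw [adjoin_le_iff]
    rintro _ ⟨g, rfl⟩
    exact char_mem_cyclotomic hφ ζ hζ g
  have hfd : FiniteDimensional ℚ (adjoin ℚ (Set.range φ)) :=
    Module.Finite.of_injective (inclusion hle).toLinearMap (inclusion hle).injective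
  rw [← AlgHom.card ℚ (adjoin ℚ (Set.range φ)) ℂ]
  let Φ : (adjoin ℚ (Set.range φ) →ₐ[ℚ] ℂ) → (G → ℂ) :=
    fun τ g => τ ⟨φ g, subset_adjoin ℚ _ (Set.mem_range_self g)⟩
  have hΦ : Function.Injective Φ := by
    intro τ₁ τ₂ h
    apply adjoin_algHom_ext
    rintro _ ⟨g, rfl⟩
    exact congrFun h g
  rw [← Finset.card_univ, ← Finset.card_image_of_injective Finset.univ hΦ]
  congr 1
  ext θ
  rw [mem_galOrb, Finset.mem_image]
  constructor
  · rintro ⟨τ, -, rfl⟩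
    obtain ⟨k, hk, hτ⟩ := emb_eq_pow hφ τ
    exact ⟨k, hk, funext hτ⟩
  · rintro ⟨k, hk, rfl⟩
    obtain ⟨σ, hσ⟩ := Helper80.exists_ringEquiv_pow (Nat.card G) k hn hk ζ hζ
    refine ⟨((σ : ℂ →+* ℂ).toRatAlgHom).comp (adjoin ℚ (Set.range φ)).val,
      Finset.mem_univ _, ?_⟩
    funext g
    show (σ : ℂ →+* ℂ) (φ g) = φ (g ^ k)
    exact char_twist_pow hφ ζ hζ k (σ : ℂ →+* ℂ) hσ g

/-- the degree of the field of values divides `φ(|G|)` -/
theorem finrank_dvd_totient {G : Type*} [Group G] [Fintype G] {φ : G → ℂ}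
    (hφ : IsCharacter G φ) :
    Module.finrank ℚ (adjoin ℚ (Set.range φ)) ∣ Nat.totient (Nat.card G) := by
  have hn : 0 < Nat.card G := Nat.card_pos
  obtain ⟨ζ, hζ⟩ : ∃ ζ : ℂ, IsPrimitiveRoot ζ (Nat.card G) :=
    ⟨_, Complex.isPrimitiveRoot_exp _ hn.ne'⟩
  have : NeZero (Nat.card G) := ⟨hn.ne'⟩
  have hint : IsIntegral ℚ ζ := (hζ.isIntegral hn).tower_top
  have hfd1 : FiniteDimensional ℚ ℚ⟮ζ⟯ := adjoin.finiteDimensional hint
  have hle : adjoin ℚ (Set.range φ) ≤ ℚ⟮ζ⟯ := by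
    rw [adjoin_le_iff]
    rintro _ ⟨g, rfl⟩
    exact char_mem_cyclotomic hφ ζ hζ g
  have h1 := finrank_dvd_of_le_right hle
  have h2 : Module.finrank ℚ ℚ⟮ζ⟯ = Nat.totient (Nat.card G) := by
    rw [adjoin.finrank hint, ← Polynomial.cyclotomic_eq_minpoly_rat hζ hn,
      Polynomial.natDegree_cyclotomic]
  rwa [h2] at h1

end Cfsg.Agent.Lib.Helper83
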