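import Mathlib
import Cfsg.Prelude.Def_Blocks
import Cfsg.Agent.Lib.Helper83.Rg1
import Cfsg.Agent.Lib.Helper83.CycExt
import Cfsg.Agent.Lib.Helper83.LinearCount
import Cfsg.Agent.Lib.Helper83.Linear
import Cfsg.Agent.Lib.Helper83.Codeg
import Cfsg.Agent.Lib.Helper83.Complete
import Cfsg.Agent.Lib.Helper83.Rg7
import Cfsg.Agent.Lib.Helper4.CharEquiv
import Cfsg.Agent.Lib.Helper5.GlMain
import Cfsg.Agent.Lib.Helper20.CliffordRel
import Cfsg.Agent.Lib.Helper20.Canon

/-!
# Ito's theorem on `p`-solvable linear groups of small degree, part 1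

* `comm_of_res_irr`: an element centralising a subgroup on which an irreducible character
  restricts irreducibly is central modulo the kernel;
* `char_decomp_deg`: decomposition of a character with multiplicities and degree;
* `res_irr_of_cyclic_small`: restriction to a normal subgroup with cyclic quotient of
  `p`-power order of an irreducible character of degree less than `p` is irreducible;
* `ito_core`: the local case `H = Q ⟨x⟩` via the Glauberman correspondence.
-/

set_option autoImplicit false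
set_option linter.unusedSectionVars false
set_option linter.style.haveILetI false
set_option linter.unusedVariables false

namespace Cfsg.Agent.Lib.Helper83

open scoped ComplexConjugate
open Cfsg Cfsg.Agent.Lib

universe u

/-- if the restriction of an irreducible character to a subgroup `C` centralised by `x` is
irreducible then `x` is central modulo the kernel -/
theorem comm_of_res_irr {H : Type*} [Group H] [Finite H] {ψ : H → ℂ} (hψ : IsIrrCharacter H ψ)
    (C : Subgroup H) (hC : IsIrrCharacter C (fun c : C => ψ c)) (x : H)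
    (hx : ∀ c ∈ C, x * c = c * x) (g : H) : ψ (x * g * x⁻¹ * g⁻¹) = ψ 1 := by
  classical
  let _ : Fintype H := Fintype.ofFinite _
  let _ : Fintype C := Fintype.ofFinite _
  obtain ⟨n, ρ, hρ, rfl⟩ := hψ
  obtain ⟨m, τ, hτ, hτc⟩ := hC
  let σ : Representation ℂ C (Fin n → ℂ) := MonoidHom.comp ρ C.subtype
  have h1 : τ.character = σ.character := hτc
  obtain ⟨e⟩ := Helper4.equiv_of_char_eq τ σ h1
  have hσ : σ.IsIrreducible := Helper4.isIrreducible_of_equiv e
  obtain ⟨c, hc⟩ := schur_scalar σ hσ (ρ x) (fun k => by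
    show ρ x * ρ (k : H) = ρ (k : H) * ρ x
    rw [← map_mul, ← map_mul, hx k k.2])
  have h2 : ρ (x * g * x⁻¹ * g⁻¹) = ρ 1 := by
    have h3 : ρ x * ρ g = ρ g * ρ x := by
      rw [hc]
      ext v
      simp
    calc ρ (x * g * x⁻¹ * g⁻¹) = ρ x * ρ g * ρ x⁻¹ * ρ g⁻¹ := by simp only [map_mul]
      _ = ρ g * ρ x * ρ x⁻¹ * ρ g⁻¹ := by rw [h3]
      _ = ρ (g * x * x⁻¹ * g⁻¹) := by simp only [map_mul]
      _ = ρ 1 := by rw [mul_inv_cancel_right, mul_inv_cancel]
  simp only [Representation.character, h2]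

/-- decomposition of a character with multiplicities and degree -/
theorem char_decomp_deg {A : Type*} [Group A] [Fintype A] [Fintype (IrrCharacter A)] {ζ : A → ℂ}
    (hζ : IsCharacter A ζ) :
    ∃ m : IrrCharacter A → ℕ, (ζ = ∑ β : IrrCharacter A, (m β : ℂ) • (β : A → ℂ)) ∧
      (∀ β : IrrCharacter A, classInner ζ (β : A → ℂ) = m β) ∧
      charDegree ζ = ∑ β : IrrCharacter A, m β * charDegree (β : A → ℂ) := by
  classical
  obtain ⟨m, hm⟩ := Helper4.exists_decomp_of_isCharacter ζ hζ
  refine ⟨m, hm, fun β => ?_, ?_⟩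
  · conv_lhs => rw [hm]
    exact Helper4.classInner_sum_irr (fun β => (m β : ℂ)) β
  · have h1 : ζ 1 = ((∑ β : IrrCharacter A, m β * charDegree (β : A → ℂ) : ℕ) : ℂ) := by
      conv_lhs => rw [hm]
      rw [Finset.sum_apply]
      push_cast
      apply Finset.sum_congr rfl
      intro β _
      rw [Pi.smul_apply, smul_eq_mul, (irr_degree β.2).2]
    have h2 : charDegree ζ = ⌊(ζ 1).re⌋₊ := rfl
    rw [h2, h1, Complex.natCast_re, Nat.floor_natCast]

/-- restriction to a normal subgroup with cyclic quotient of `p`-power order of an irreducible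
character of degree less than `p` is irreducible -/
theorem res_irr_of_cyclic_small {H : Type*} [Group H] [Finite H] (p : ℕ) [hp : Fact p.Prime]
    (Q : Subgroup H) [hQ : Q.Normal] (hidx : ∃ k, Q.index = p ^ k) [hc : IsCyclic (H ⧸ Q)]
    {ψ : H → ℂ} (hψ : IsIrrCharacter H ψ) (hd : charDegree ψ < p) :
    IsIrrCharacter Q (fun q : Q => ψ q) := by
  classical
  let _ : Fintype H := Fintype.ofFinite _
  let _ : Fintype Q := Fintype.ofFinite _
  obtain ⟨hdpos, hd1⟩ := irr_degree hψ
  have hψc : IsCharacter H ψ := Helper35.isChar_of_irr hψ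
  have hres : IsCharacter Q (fun q : Q => ψ q) := Helper20.isCharacter_comp Q.subtype hψc
  have h1 : (fun q : Q => ψ q) 1 ≠ 0 := by
    show ψ ((1 : Q) : H) ≠ 0
    rw [Subgroup.coe_one]
    exact irr_one_ne_zero hψ
  obtain ⟨θ, hθ, hcon⟩ := Helper20.exists_constituent_of_char hres h1
  have hdeg := Helper20.clifford_degree Q hθ hψ hcon (inertia Q θ) (fun g => mem_inertia Q θ g)
  obtain ⟨a, ha⟩ := Helper35.classInner_char_nat hres (Helper35.isChar_of_irr hθ)
  obtain ⟨hθpos, hθ1⟩ := irr_degree hθ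
  rw [ha, hd1, hθ1] at hdeg
  have hdeg' : charDegree ψ = a * (inertia Q θ).index * charDegree θ := by exact_mod_cast hdeg
  have ha0 : a ≠ 0 := by
    intro h0
    apply hcon
    rw [ha, h0]
    simp
  have hTle : (inertia Q θ).index ≤ charDegree ψ := by
    rw [hdeg']
    calc (inertia Q θ).index = 1 * (inertia Q θ).index * 1 := by ring
      _ ≤ a * (inertia Q θ).index * charDegree θ := by gcongr <;> omega
  have hTdvd : (inertia Q θ).index ∣ Q.index := Subgroup.index_dvd_of_le (le_inertia Q hθ)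
  obtain ⟨k, hk⟩ := hidx
  rw [hk] at hTdvd
  obtain ⟨j, hj, hj'⟩ := (Nat.dvd_prime_pow hp.out).mp hTdvd
  have hT1 : (inertia Q θ).index = 1 := by
    rcases Nat.eq_zero_or_pos j with h0 | hpos
    · rw [hj', h0, pow_zero]
    · exfalso
      have : p ≤ p ^ j := Nat.le_self_pow (by omega) p
      omega
  have hTtop : inertia Q θ = ⊤ := Subgroup.index_eq_one.mp hT1
  have hinv : ∀ (g : H) (n : Q), θ ⟨g * n * g⁻¹, hQ.conj_mem (n : H) n.2 g⟩ = θ n := by
    intro g n
    have hg : g ∈ inertia Q θ := by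
      rw [hTtop]
      exact Subgroup.mem_top g
    rw [mem_inertia] at hg
    have := congrFun hg n
    rwa [Helper20.conjFun_apply] at this
  obtain ⟨η, hη, hηθ⟩ := cyclic_extension Q θ hθ hinv
  have hηeq : (fun n : Q => η n) = θ := funext hηθ
  have hηN : IsIrrCharacter Q (fun n : Q => η n) := by
    rw [hηeq]
    exact hθ
  have hc' : classInner (fun n : Q => ψ n) (fun n : Q => η n) ≠ 0 := by
    rw [hηeq]
    exact hcon
  obtain ⟨β, hβ⟩ := gallagher_exists Q hη hηN hψ hc'
  have hcomm : IsMulCommutative (H ⧸ Q) := IsCyclic.isMulCommutative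
  have hβ1 : (β : H ⧸ Q → ℂ) 1 = 1 := irr_comm_degree β.2
  have hfin : (fun q : Q => ψ q) = θ := by
    funext q
    rw [hβ]
    show (β : H ⧸ Q → ℂ) ((q : H) : H ⧸ Q) * η q = θ q
    have h2 : ((q : H) : H ⧸ Q) = 1 := (QuotientGroup.eq_one_iff _).mpr q.2
    rw [h2, hβ1, one_mul, hηθ]
  rw [hfin]
  exact hθ

/-- the local case of Ito's theorem: `H = Q ⟨x⟩` with `Q` a normal `q`-subgroup and `x` a
`p`-element, and `ψ` an irreducible character of degree less than `p` whose kernel does not
contain the commutators with `x` -/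
theorem ito_core {H : Type u} [Group H] [Finite H] (p q : ℕ) [hp : Fact p.Prime]
    [hq : Fact q.Prime] (hpq : p ≠ q) (Q : Subgroup H) [hQn : Q.Normal] (hQ : IsPGroup q Q)
    (x : H) (hx : ∃ k, orderOf x = p ^ k) (hgen : Q ⊔ Subgroup.zpowers x = ⊤)
    {ψ : H → ℂ} (hψ : IsIrrCharacter H ψ) (hd : charDegree ψ < p) (a : H)
    (hne : ψ (x * a * x⁻¹ * a⁻¹) ≠ ψ 1) :
    charDegree ψ + 1 = p ∧ ∃ k, charDegree ψ = 2 ^ k := by
  classical
  let _ : Fintype H := Fintype.ofFinite _
  let _ : Fintype Q := Fintype.ofFinite _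
  obtain ⟨hdpos, hd1⟩ := irr_degree hψ
  have hψc : IsCharacter H ψ := Helper35.isChar_of_irr hψ
  have hp2 : 2 ≤ p := hp.out.two_le
  have hzp : IsPGroup p (Subgroup.zpowers x) := by
    obtain ⟨k, hk⟩ := hx
    apply IsPGroup.of_card (n := k)
    rw [Nat.card_zpowers, hk]
  have htop : Subgroup.zpowers ((x : H) : H ⧸ Q) = ⊤ := by
    have h1 : (Q ⊔ Subgroup.zpowers x).map (QuotientGroup.mk' Q) = ⊤ := by
      rw [hgen, ← MonoidHom.range_eq_map]
      exact MonoidHom.range_eq_top.mpr (QuotientGroup.mk'_surjective Q)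
    rw [Subgroup.map_sup, QuotientGroup.map_mk'_self, bot_sup_eq, MonoidHom.map_zpowers] at h1
    exact h1
  have hcyc : IsCyclic (H ⧸ Q) := isCyclic_iff_exists_zpowers_eq_top.mpr ⟨_, htop⟩
  have hidx : ∃ k, Q.index = p ^ k := by
    obtain ⟨k, hk⟩ := hx
    have h1 : orderOf ((x : H) : H ⧸ Q) ∣ p ^ k := by
      apply orderOf_dvd_of_pow_eq_one
      rw [← QuotientGroup.mk_pow, ← hk, pow_orderOf_eq_one]
      rfl
    obtain ⟨j, -, hj⟩ := (Nat.dvd_prime_pow hp.out).mp h1
    refine ⟨j, ?_⟩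
    have h2 := Nat.card_zpowers ((x : H) : H ⧸ Q)
    rw [htop, Subgroup.card_top] at h2
    rw [Subgroup.index_eq_card, h2, hj]
  have hθ : IsIrrCharacter Q (fun n : Q => ψ n) := res_irr_of_cyclic_small p Q hidx hψ hd
  -- the Glauberman correspondence
  have hnorm : ∀ s ∈ Subgroup.zpowers x, ∀ k ∈ Q, s * k * s⁻¹ ∈ Q :=
    fun s _ k hk => hQn.conj_mem k hk s
  let φ : Subgroup.zpowers x →* MulAut Q := conjAct (Subgroup.zpowers x) Q hnorm
  let C : Subgroup H := Q ⊓ Subgroup.centralizer {x}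
  let _ : Fintype C := Fintype.ofFinite _
  let j : C →* Q := Subgroup.inclusion inf_le_left
  have hj : Function.Injective j := Subgroup.inclusion_injective inf_le_left
  have hC : ∀ g : Q, g ∈ j.range ↔ ∀ s, φ s g = g := by
    intro g
    constructor
    · rintro ⟨c, rfl⟩ s
      apply Subtype.ext
      rw [conjAct_apply]
      show (s : H) * (c : H) * (s : H)⁻¹ = (c : H)
      have hc : (c : H) ∈ Subgroup.centralizer {x} := c.2.2
      obtain ⟨i, hi⟩ := Subgroup.mem_zpowers_iff.mp s.2
      have hcomm : Commute x (c : H) := Subgroup.mem_centralizer_iff.mp hc x rfl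
      have h1 := hcomm.zpow_left i
      rw [hi] at h1
      rw [h1.eq, mul_inv_cancel_right]
    · intro h
      have h1 := h ⟨x, Subgroup.mem_zpowers x⟩
      have h2 : x * (g : H) * x⁻¹ = (g : H) := by
        have h3 := congrArg (fun k : Q => (k : H)) h1
        exact h3
      refine ⟨⟨(g : H), ⟨g.2, ?_⟩⟩, Subtype.ext rfl⟩
      show (g : H) ∈ Subgroup.centralizer {x}
      rw [Subgroup.mem_centralizer_iff]
      intro y hy
      rw [Set.mem_singleton_iff] at hy
      rw [hy]
      calc x * (g : H) = x * (g : H) * x⁻¹ * x := by group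
        _ = (g : H) * x := by rw [h2]
  have hcop : (Fintype.card Q).Coprime (Nat.card (Subgroup.zpowers x)) := by
    obtain ⟨n1, hn1⟩ := IsPGroup.iff_card.mp hQ
    obtain ⟨n2, hn2⟩ := IsPGroup.iff_card.mp hzp
    rw [← Nat.card_eq_fintype_card, hn1, hn2]
    exact Nat.Coprime.pow _ _ ((Nat.coprime_primes hq.out hp.out).mpr hpq.symm)
  have gl := Helper5.gl_pgroup p φ j hzp hcop hj hC
  have hinv : ∀ (s : Subgroup.zpowers x) (g : Q),
      ((⟨fun n : Q => ψ n, hθ⟩ : IrrCharacter Q) : Q → ℂ) (φ s g) =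
        ((⟨fun n : Q => ψ n, hθ⟩ : IrrCharacter Q) : Q → ℂ) g := by
    intro s g
    show ψ ((φ s g : Q) : H) = ψ g
    rw [conjAct_apply]
    exact irr_classFunction hψ g s
  obtain ⟨β₀, ⟨m₀, hm₀, hmod⟩, hrest⟩ := gl.ex ⟨fun n : Q => ψ n, hθ⟩ hinv
  have hζ : IsCharacter C (fun c : C => ψ c) := Helper20.isCharacter_comp C.subtype hψc
  have := Helper4.irr_finite (G := C)
  let _ : Fintype (IrrCharacter C) := Fintype.ofFinite _
  obtain ⟨m, hmdec, hminner, hmdeg⟩ := char_decomp_deg hζ
  have hdegζ : charDegree (fun c : C => ψ c) = charDegree ψ := rfl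
  have hzero : ∀ β : IrrCharacter C, β ≠ β₀ → m β = 0 := by
    intro β hβ
    obtain ⟨m', hm', hpm'⟩ := hrest β hβ
    have h1 : (m β : ℂ) = m' := by
      rw [← hminner β]
      exact hm'
    have h2 : m β = m' := by exact_mod_cast h1
    have h3 : m β * charDegree (β : C → ℂ) ≤ charDegree ψ := by
      rw [← hdegζ, hmdeg]
      exact Finset.single_le_sum (f := fun β => m β * charDegree (β : C → ℂ))
        (fun _ _ => Nat.zero_le _) (Finset.mem_univ β)
    have h4 : 0 < charDegree (β : C → ℂ) := (irr_degree β.2).1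
    have h5 : m β < p := by nlinarith
    rw [h2] at h5 ⊢
    exact Nat.eq_zero_of_dvd_of_lt hpm' h5
  have hm0 : m β₀ = m₀ := by
    have h1 : (m β₀ : ℂ) = m₀ := by
      rw [← hminner β₀]
      exact hm₀
    exact_mod_cast h1
  have hdeg0 : charDegree ψ = m β₀ * charDegree (β₀ : C → ℂ) := by
    rw [← hdegζ, hmdeg]
    exact Finset.sum_eq_single β₀ (fun β _ hβ => by rw [hzero β hβ, zero_mul])
      (fun h => absurd (Finset.mem_univ _) h)
  have hβ₀pos : 0 < charDegree (β₀ : C → ℂ) := (irr_degree β₀.2).1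
  have hm0lt : m β₀ < p := by nlinarith
  have hcase : m β₀ + 1 = p := by
    rcases hmod with h | h
    · exfalso
      have h1 : m β₀ = 1 := by
        rw [hm0]
        have h2 : (m₀ : ℤ) % p = 1 % p := h
        rw [Int.emod_eq_of_lt (by positivity) (by rw [← hm0]; exact_mod_cast hm0lt),
          Int.emod_eq_of_lt (by norm_num) (by exact_mod_cast hp2)] at h2
        exact_mod_cast h2
      have hζeq : (fun c : C => ψ c) = (β₀ : C → ℂ) := by
        rw [hmdec]
        rw [Finset.sum_eq_single β₀ (fun β _ hβ => by rw [hzero β hβ]; simp)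
          (fun h => absurd (Finset.mem_univ _) h), h1]
        simp
      apply hne
      refine comm_of_res_irr hψ C (by rw [hζeq]; exact β₀.2) x ?_ a
      intro c hc
      exact Subgroup.mem_centralizer_iff.mp hc.2 x rfl
    · have h2 : (p : ℤ) ∣ (m₀ : ℤ) + 1 := by
        have h3 := h.symm.dvd
        simpa using h3
      have h3 : p ∣ m₀ + 1 := by exact_mod_cast h2
      rw [hm0]
      have h4 := Nat.le_of_dvd (by omega) h3
      omega
  have hβ1 : charDegree (β₀ : C → ℂ) = 1 := by
    by_contra hcon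
    have h1 : 2 ≤ charDegree (β₀ : C → ℂ) := by omega
    nlinarith
  have hdp : charDegree ψ + 1 = p := by
    rw [hdeg0, hβ1, mul_one]
    exact hcase
  refine ⟨hdp, ?_⟩
  have hdvd : charDegree (fun n : Q => ψ n) ∣ Nat.card Q := irr_degree_dvd_card' hθ
  have hdegθ : charDegree (fun n : Q => ψ n) = charDegree ψ := rfl
  rw [hdegθ] at hdvd
  obtain ⟨nq, hnq⟩ := IsPGroup.iff_card.mp hQ
  rw [hnq] at hdvd
  obtain ⟨k, -, hk⟩ := (Nat.dvd_prime_pow hq.out).mp hdvd
  have hp2' : p ≠ 2 := by
    intro h2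
    have h3 : charDegree ψ = 1 := by omega
    have hd1' : ψ 1 = 1 := by
      rw [hd1, h3]
      simp
    apply hne
    rw [hd1']
    apply irr_linear_commutator hψ hd1'
    rw [commutator_def, ← commutatorElement_def]
    exact Subgroup.commutator_mem_commutator (Subgroup.mem_top x) (Subgroup.mem_top a)
  have hodd : Odd p := hp.out.odd_of_ne_two hp2'
  have heven : Even (charDegree ψ) := by
    obtain ⟨t, ht⟩ := hodd
    exact ⟨t, by omega⟩
  have hq2 : q = 2 := by
    rw [hk] at heven
    have h2 : 2 ∣ q ^ k := even_iff_two_dvd.mp heven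
    have h3 : 2 ∣ q := Nat.Prime.dvd_of_dvd_pow Nat.prime_two h2
    exact ((Nat.prime_dvd_prime_iff_eq Nat.prime_two hq.out).mp h3).symm
  exact ⟨k, by rw [hk, hq2]⟩

end Cfsg.Agent.Lib.Helper83
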