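import Mathlib
import Cfsg.Prelude.Def_Blocks
import Cfsg.Agent.Lib.Helper83.Fv1
import Cfsg.Agent.Lib.Helper83.Ito1
import Cfsg.Agent.Lib.Helper83.Twist
import Cfsg.Agent.Lib.Helper83.Quot
import Cfsg.Agent.Lib.Helper32.Coprime
import Cfsg.Agent.Lib.Helper4.CharDual
import Cfsg.Agent.Lib.Helper35.Ind

/-!
# Fields of values of characters, part 2: characters of `p`-groups

* `gp_irr`, `classInner_gp`, `gp_eq_one_iff`, `indFun_gp`: power-map twists;
* `totient_le_finrank_faithful_linear`: the field of values of a faithful linear character;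
* `char_eq_of_constituent_deg`: a character with an irreducible constituent of the same degree;
* `exists_linear_stab`, `exists_index_p_vanish`: a nonlinear irreducible character of a
  `p`-group vanishes off a normal subgroup of index `p`;
* `norm_res_of_vanish`, `index_p_structure`: such a character is induced;
* `card_constituents_le`: the number of constituents is bounded by the norm;
* `card_le_index_pow`: the order of `M` against the index of a normal subgroup with trivial
  `P`-core.
-/

set_option autoImplicit false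
set_option linter.unusedSectionVars false
set_option linter.style.haveILetI false
set_option linter.unusedVariables false

namespace Cfsg.Agent.Lib.Helper83

open scoped ComplexConjugate
open Cfsg Cfsg.Agent.Lib
open IntermediateField

theorem gp_irr {G : Type*} [Group G] [Fintype G] {φ : G → ℂ} (hφ : IsIrrCharacter G φ) (k : ℕ)
    (hk : k.Coprime (Nat.card G)) : IsIrrCharacter G (gp k φ) :=
  Helper80.isIrrCharacter_pow_coprime k hk ⟨φ, hφ⟩

theorem classInner_gp {G : Type*} [Group G] [Fintype G] (φ ψ : G → ℂ) (k : ℕ)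
    (hk : k.Coprime (Nat.card G)) : classInner (gp k φ) (gp k ψ) = classInner φ ψ := by
  unfold classInner
  congr 1
  exact Equiv.sum_comp (powCoprime hk.symm) (fun g => φ g * conj (ψ g))

theorem gp_eq_one_iff {G : Type*} [Group G] [Fintype G] {φ : G → ℂ} (hφ : IsIrrCharacter G φ)
    (k : ℕ) (hk : k.Coprime (Nat.card G)) (g : G) : gp k φ g = gp k φ 1 ↔ φ g = φ 1 := by
  rw [gp_apply, gp_apply, one_pow]
  have h1 := mem_irrKer ⟨φ, hφ⟩ (g ^ k)
  have h2 := mem_irrKer ⟨φ, hφ⟩ g
  constructor
  · intro h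
    have hcop : k.Coprime (orderOf g) :=
      Nat.Coprime.coprime_dvd_right (orderOf_dvd_natCard g) hk
    obtain ⟨m, hm⟩ := exists_pow_eq_self_of_coprime hcop
    apply h2.mp
    rw [← hm]
    exact pow_mem (h1.mpr h) m
  · intro h
    exact h1.mp (pow_mem (h2.mpr h) k)

theorem indFun_gp {P : Type*} [Group P] [Fintype P] (M : Subgroup P) (θ : M → ℂ) (k : ℕ)
    (hk : k.Coprime (Nat.card P)) : indFun M (gp k θ) = gp k (indFun M θ) := by
  funext g
  rw [gp_apply]
  unfold indFun
  congr 1
  apply Finset.sum_congr rfl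
  intro x _
  have hpow : x⁻¹ * g ^ k * x = (x⁻¹ * g * x) ^ k := by
    have h1 := conj_pow (a := x⁻¹) (b := g) (i := k)
    rw [inv_inv] at h1
    exact h1.symm
  rw [hpow]
  by_cases hy : x⁻¹ * g * x ∈ M
  · rw [Helper35.ext_mem M _ _ hy, Helper35.ext_mem M _ _ (pow_mem hy k)]
    rfl
  · have hy' : (x⁻¹ * g * x) ^ k ∉ M := by
      intro h
      apply hy
      have hcop : k.Coprime (orderOf (x⁻¹ * g * x)) :=
        Nat.Coprime.coprime_dvd_right (orderOf_dvd_natCard _) hk
      obtain ⟨m, hm⟩ := exists_pow_eq_self_of_coprime hcop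
      rw [← hm]
      exact pow_mem h m
    rw [Helper35.ext_not_mem M _ _ hy, Helper35.ext_not_mem M _ _ hy']

open Classical in
/-- the field of values of a faithful linear character has degree at least `φ(|P|)` -/
theorem totient_le_finrank_faithful_linear {P : Type*} [Group P] [Fintype P] {χ : P → ℂ}
    (hχ : IsIrrCharacter P χ) (h1 : χ 1 = 1) (hfaith : ∀ g : P, χ g = χ 1 → g = 1) :
    Nat.totient (Nat.card P) ≤ Module.finrank ℚ (adjoin ℚ (Set.range χ)) := by
  rw [finrank_eq_card_galOrb (Helper35.isChar_of_irr hχ)]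
  have hinj : Function.Injective (linHom hχ h1) := by
    intro a b hab
    have hab' : χ a = χ b := hab
    have h2 : χ (a * b⁻¹) = χ 1 := by
      rw [irr_linear_mul hχ h1, hab', ← irr_linear_mul hχ h1, mul_inv_cancel]
    exact mul_inv_eq_one.mp (hfaith _ h2)
  have hcyc : IsCyclic P := isCyclic_of_injective_ringHom (linHom hχ h1) hinj
  obtain ⟨g₀, hg₀⟩ := hcyc.exists_generator
  have hord : orderOf g₀ = Nat.card P := orderOf_eq_card_of_forall_mem_zpowers hg₀
  unfold galOrb
  rw [Finset.card_image_of_injOn]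
  · rw [Nat.totient_eq_card_coprime]
    apply le_of_eq
    congr 1
    ext k
    simp only [Finset.mem_filter, Finset.mem_range, Nat.coprime_comm]
  · intro k hk l hl hkl
    have hk' := Finset.mem_range.mp (Finset.mem_filter.mp hk).1
    have hl' := Finset.mem_range.mp (Finset.mem_filter.mp hl).1
    have h2 : χ (g₀ ^ k) = χ (g₀ ^ l) := congrFun hkl g₀
    have h3 : g₀ ^ k = g₀ ^ l := by
      have h4 : χ (g₀ ^ k * (g₀ ^ l)⁻¹) = χ 1 := by
        rw [irr_linear_mul hχ h1, h2, ← irr_linear_mul hχ h1, mul_inv_cancel]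
      exact mul_inv_eq_one.mp (hfaith _ h4)
    exact pow_injOn_Iio_orderOf (by rw [hord]; exact hk') (by rw [hord]; exact hl') h3

/-- a character having an irreducible constituent of its own degree is that constituent -/
theorem char_eq_of_constituent_deg {G : Type*} [Group G] [Fintype G] {ζ χ : G → ℂ}
    (hζ : IsCharacter G ζ) (hχ : IsIrrCharacter G χ) (hc : classInner ζ χ ≠ 0)
    (hdeg : charDegree ζ = charDegree χ) : ζ = χ := by
  classical
  have := Helper4.irr_finite (G := G)
  let _ : Fintype (IrrCharacter G) := Fintype.ofFinite _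
  obtain ⟨m, hmdec, hminner, hmdeg⟩ := char_decomp_deg hζ
  let ψ : IrrCharacter G := ⟨χ, hχ⟩
  have hψχ : charDegree (ψ : G → ℂ) = charDegree χ := rfl
  have hmψ : m ψ ≠ 0 := by
    intro h0
    apply hc
    have h1 := hminner ψ
    rw [h0] at h1
    simpa using h1
  have hψpos : 0 < charDegree χ := (irr_degree hχ).1
  have hsum : ∑ β : IrrCharacter G, m β * charDegree (β : G → ℂ) = charDegree χ := by
    rw [← hmdeg, hdeg]
  rw [← Finset.add_sum_erase Finset.univ _ (Finset.mem_univ ψ)] at hsum
  have hm1 : m ψ = 1 := by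
    by_contra hcon
    have h2 : 2 ≤ m ψ := by omega
    nlinarith [Nat.zero_le (∑ β ∈ Finset.univ.erase ψ, m β * charDegree (β : G → ℂ))]
  have hm0 : ∀ β : IrrCharacter G, β ≠ ψ → m β = 0 := by
    intro β hβ
    rw [hm1, one_mul] at hsum
    have h0 : ∑ β ∈ Finset.univ.erase ψ, m β * charDegree (β : G → ℂ) = 0 := by omega
    have h2 := (Finset.sum_eq_zero_iff.mp h0) β (Finset.mem_erase.mpr ⟨hβ, Finset.mem_univ β⟩)
    have hβpos : 0 < charDegree (β : G → ℂ) := (irr_degree β.2).1
    rcases Nat.mul_eq_zero.mp h2 with h | h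
    · exact h
    · omega
  rw [hmdec, Finset.sum_eq_single ψ (fun β _ hβ => by rw [hm0 β hβ]; simp)
    (fun h => absurd (Finset.mem_univ _) h), hm1]
  simp
  rfl

/-- a nonlinear irreducible character of a `p`-group is fixed by multiplication with some
nontrivial linear character -/
theorem exists_linear_stab {P : Type*} [Group P] [Fintype P] (p : ℕ) [hp : Fact p.Prime]
    (hP : IsPGroup p P) (χ : IrrCharacter P) (hf : charDegree (χ : P → ℂ) ≠ 1) :
    ∃ l : IrrCharacter P, (l : P → ℂ) 1 = 1 ∧ l ≠ trivIrr P ∧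
      ∀ g, (l : P → ℂ) g * (χ : P → ℂ) g = (χ : P → ℂ) g := by
  classical
  have := Helper4.irr_finite (G := P)
  let _ : Fintype (IrrCharacter P) := Fintype.ofFinite _
  obtain ⟨hfpos, hf1⟩ := irr_degree χ.2
  have hχc : IsCharacter P (χ : P → ℂ) := Helper35.isChar_of_irr χ.2
  have hprod : IsCharacter P ((χ : P → ℂ) * fun g => conj ((χ : P → ℂ) g)) :=
    Helper35.isCharacter_mul hχc (Helper4.isCharacter_conj _ hχc)
  obtain ⟨m, hmdec, hminner, hmdeg⟩ := char_decomp_deg hprod
  have hdegprod : charDegree ((χ : P → ℂ) * fun g => conj ((χ : P → ℂ) g)) =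
      charDegree (χ : P → ℂ) ^ 2 := by
    have h1 : ((χ : P → ℂ) * fun g => conj ((χ : P → ℂ) g)) 1 =
        ((charDegree (χ : P → ℂ) ^ 2 : ℕ) : ℂ) := by
      rw [Pi.mul_apply, hf1, Complex.conj_natCast]
      push_cast
      ring
    show ⌊(((χ : P → ℂ) * fun g => conj ((χ : P → ℂ) g)) 1).re⌋₊ = charDegree (χ : P → ℂ) ^ 2
    rw [h1, Complex.natCast_re, Nat.floor_natCast]
  obtain ⟨a, ha⟩ := IsPGroup.iff_card.mp hP
  have hpdvd : ∀ β : IrrCharacter P, charDegree (β : P → ℂ) ≠ 1 →
      p ∣ charDegree (β : P → ℂ) := by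
    intro β hβ
    have h1 : charDegree (β : P → ℂ) ∣ p ^ a := by
      rw [← ha]
      exact irr_degree_dvd_card' β.2
    obtain ⟨j, -, hj⟩ := (Nat.dvd_prime_pow hp.out).mp h1
    rw [hj]
    rcases Nat.eq_zero_or_pos j with h0 | hpos
    · exfalso
      apply hβ
      rw [hj, h0, pow_zero]
    · exact dvd_pow_self p (by omega)
  have hmtriv : m (trivIrr P) = 1 := by
    have h1 := hminner (trivIrr P)
    have h2 : classInner ((χ : P → ℂ) * fun g => conj ((χ : P → ℂ) g))
        ((trivIrr P : IrrCharacter P) : P → ℂ) = classInner (χ : P → ℂ) (χ : P → ℂ) := by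
      unfold classInner
      congr 1
      apply Finset.sum_congr rfl
      intro g _
      rw [Pi.mul_apply, trivIrr_apply, map_one, mul_one]
    rw [h2, irr_orthonormal χ χ, if_pos rfl] at h1
    exact_mod_cast h1.symm
  by_contra hcon
  push Not at hcon
  have hzero : ∀ β : IrrCharacter P, β ≠ trivIrr P →
      p ∣ m β * charDegree (β : P → ℂ) := by
    intro β hβ
    by_cases hβ1 : charDegree (β : P → ℂ) = 1
    · have hβ1' : (β : P → ℂ) 1 = 1 := by
        rw [(irr_degree β.2).2, hβ1]
        simp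
      obtain ⟨g, hg⟩ := hcon β hβ1' hβ
      have hm0 : m β = 0 := by
        by_contra hne
        apply hg
        have h1 : classInner (χ : P → ℂ) (fun g => (β : P → ℂ) g * (χ : P → ℂ) g) ≠ 0 := by
          have h2 : classInner (χ : P → ℂ) (fun g => (β : P → ℂ) g * (χ : P → ℂ) g) =
              classInner ((χ : P → ℂ) * fun g => conj ((χ : P → ℂ) g)) (β : P → ℂ) := by
            unfold classInner
            congr 1
            apply Finset.sum_congr rfl
            intro g _
            rw [Pi.mul_apply, map_mul]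
            ring
          rw [h2, hminner β]
          exact_mod_cast hne
        have h3 := Helper35.classInner_irr' χ.2 (irr_twist β χ hβ1')
        rw [h3] at h1
        have h4 : (χ : P → ℂ) = fun g => (β : P → ℂ) g * (χ : P → ℂ) g := by
          by_contra h5
          rw [if_neg h5] at h1
          exact h1 rfl
        exact (congrFun h4 g).symm
      rw [hm0, zero_mul]
      exact dvd_zero p
    · exact Dvd.dvd.mul_left (hpdvd β hβ1) _
  have hsum : charDegree (χ : P → ℂ) ^ 2 = ∑ β : IrrCharacter P, m β * charDegree (β : P → ℂ) := by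
    rw [← hdegprod, hmdeg]
  rw [← Finset.add_sum_erase Finset.univ _ (Finset.mem_univ (trivIrr P)), hmtriv] at hsum
  have h1 : p ∣ ∑ β ∈ Finset.univ.erase (trivIrr P), m β * charDegree (β : P → ℂ) :=
    Finset.dvd_sum (fun β hβ => hzero β (Finset.ne_of_mem_erase hβ))
  have h2 : p ∣ charDegree (χ : P → ℂ) ^ 2 := dvd_pow (hpdvd χ hf) (by norm_num)
  have h3 : charDegree ((trivIrr P : IrrCharacter P) : P → ℂ) = 1 := by
    show ⌊(((trivIrr P : IrrCharacter P) : P → ℂ) 1).re⌋₊ = 1
    rw [trivIrr_apply]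
    simp
  rw [h3, mul_one] at hsum
  have h4 : p ∣ 1 := by
    rw [hsum] at h2
    exact (Nat.dvd_add_left h1).mp h2
  exact hp.out.one_lt.ne' (Nat.dvd_one.mp h4)

/-- a nonlinear irreducible character of a `p`-group vanishes off a normal subgroup of
index `p` -/
theorem exists_index_p_vanish {P : Type*} [Group P] [Fintype P] (p : ℕ) [hp : Fact p.Prime]
    (hP : IsPGroup p P) (χ : IrrCharacter P) (hf : charDegree (χ : P → ℂ) ≠ 1) :
    ∃ M : Subgroup P, M.Normal ∧ M.index = p ∧ ∀ g, g ∉ M → (χ : P → ℂ) g = 0 := by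
  classical
  obtain ⟨l, hl1, hlne, hl⟩ := exists_linear_stab p hP χ hf
  let Λ : P →* ℂˣ := (linHom l.2 hl1).toHomUnits
  have hΛ : ∀ g, ((Λ g : ℂˣ) : ℂ) = (l : P → ℂ) g := fun g => rfl
  have hker : Λ.ker ≠ ⊤ := by
    intro htop
    apply hlne
    apply Subtype.ext
    funext g
    have hg : g ∈ Λ.ker := by
      rw [htop]
      exact Subgroup.mem_top g
    rw [MonoidHom.mem_ker] at hg
    rw [trivIrr_apply, ← hΛ, hg]
    rfl
  have hnt : Nontrivial (P ⧸ Λ.ker) := by
    rw [← Finite.one_lt_card_iff_nontrivial, ← Subgroup.index_eq_card]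
    exact Subgroup.one_lt_index_of_ne_top hker
  haveI : Group.IsNilpotent P := hP.isNilpotent
  obtain ⟨B, r, hBn, hr, hidx⟩ := Helper32.exists_normal_prime_index (P ⧸ Λ.ker)
  refine ⟨B.comap (QuotientGroup.mk' Λ.ker), hBn.comap _, ?_, ?_⟩
  · have h1 : (B.comap (QuotientGroup.mk' Λ.ker)).index = r := by
      rw [Subgroup.index_comap_of_surjective B (QuotientGroup.mk'_surjective _), hidx]
    rw [h1]
    obtain ⟨a, ha⟩ := IsPGroup.iff_card.mp hP
    have h2 : r ∣ p ^ a := by
      rw [← ha, ← h1]
      exact Subgroup.index_dvd_card _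
    exact (Nat.prime_dvd_prime_iff_eq hr hp.out).mp (hr.dvd_of_dvd_pow h2)
  · intro g hg
    have hg' : g ∉ Λ.ker := by
      intro h
      apply hg
      rw [Subgroup.mem_comap]
      have h2 : (QuotientGroup.mk' Λ.ker) g = 1 := (QuotientGroup.eq_one_iff g).mpr h
      rw [h2]
      exact B.one_mem
    have h1 : (l : P → ℂ) g ≠ 1 := by
      intro h
      apply hg'
      rw [MonoidHom.mem_ker]
      apply Units.ext
      rw [hΛ, h]
      rfl
    have h2 := hl g
    have h3 : ((l : P → ℂ) g - 1) * (χ : P → ℂ) g = 0 := by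
      rw [sub_mul, h2, one_mul, sub_self]
    rcases mul_eq_zero.mp h3 with h | h
    · exact absurd (sub_eq_zero.mp h) h1
    · exact h

/-- the norm of the restriction of a character vanishing off a subgroup -/
theorem norm_res_of_vanish {P : Type*} [Group P] [Fintype P] (χ : IrrCharacter P)
    (M : Subgroup P) [Fintype M] (hvan : ∀ g, g ∉ M → (χ : P → ℂ) g = 0) :
    classInner (fun h : M => (χ : P → ℂ) h) (fun h : M => (χ : P → ℂ) h) = (M.index : ℂ) := by
  classical
  have hsum : ∑ g : P, (χ : P → ℂ) g * conj ((χ : P → ℂ) g) =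
      ∑ h : M, (χ : P → ℂ) h * conj ((χ : P → ℂ) h) := by
    rw [← Finset.sum_subtype (Finset.univ.filter (· ∈ M)) (by simp)
      (fun g => (χ : P → ℂ) g * conj ((χ : P → ℂ) g))]
    symm
    apply Finset.sum_subset (Finset.filter_subset _ _)
    intro g _ hg
    have hgM : g ∉ M := by simpa using hg
    rw [hvan g hgM, zero_mul]
  have h1 := irr_orthonormal χ χ
  rw [if_pos rfl] at h1
  have hP : (Nat.card P : ℂ) ≠ 0 := by exact_mod_cast Nat.card_pos.ne'
  have hM : (Nat.card M : ℂ) ≠ 0 := by exact_mod_cast Nat.card_pos.ne'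
  have h2 : ∑ g : P, (χ : P → ℂ) g * conj ((χ : P → ℂ) g) = (Nat.card P : ℂ) := by
    unfold classInner at h1
    field_simp at h1
    exact h1
  unfold classInner
  rw [← hsum, h2, ← Subgroup.card_mul_index M]
  push_cast
  rw [← mul_assoc, inv_mul_cancel₀ hM, one_mul]

end Cfsg.Agent.Lib.Helper83
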