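import Mathlib
import Cfsg.Prelude.Def_Blocks
import Cfsg.Agent.Lib.Helper83.Fv2
import Cfsg.Agent.Lib.Helper83.Rg1
import Cfsg.Agent.Lib.Helper83.Central
import Cfsg.Agent.Lib.Helper20.Clifford
import Cfsg.Agent.Lib.Helper20.CliffordRel

/-!
# Fields of values of characters, part 3: induced characters of `p`-groups

* `indFun_vanish`: a function induced from a normal subgroup vanishes off it;
* `index_p_structure`: an irreducible character vanishing off a normal subgroup of prime
  index is induced from it;
* `card_constituents_le`: the number of irreducible constituents is bounded by the norm;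
* `card_le_index_pow`: the order of `M` against the index of a normal subgroup of `M` whose
  `P`-core is trivial;
* `ind_adjoin_le`: the field of values of an induced character;
* `galOrb_card_le`: Galois orbits of `ψ` and of its induced character;
* `ind_eq_one_of_conj`: the kernel of an induced character.
-/

set_option autoImplicit false
set_option linter.unusedSectionVars false
set_option linter.style.haveILetI false
set_option linter.unusedVariables false

namespace Cfsg.Agent.Lib.Helper83

open scoped ComplexConjugate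
open Cfsg Cfsg.Agent.Lib
open IntermediateField

/-- a function induced from a normal subgroup vanishes off it -/
theorem indFun_vanish {P : Type*} [Group P] [Fintype P] (M : Subgroup P) [hM : M.Normal]
    (θ : M → ℂ) (g : P) (hg : g ∉ M) : indFun M θ g = 0 := by
  unfold indFun
  rw [Finset.sum_eq_zero, mul_zero]
  intro x _
  apply Helper35.ext_not_mem
  intro h
  apply hg
  have h2 := hM.conj_mem _ h x
  have h3 : x * (x⁻¹ * g * x) * x⁻¹ = g := by group
  rwa [h3] at h2

/-- an irreducible character vanishing off a normal subgroup of prime index is induced from an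
irreducible character of that subgroup -/
theorem index_p_structure {P : Type*} [Group P] [Fintype P] (p : ℕ) [hp : Fact p.Prime]
    (χ : IrrCharacter P) (M : Subgroup P) [hM : M.Normal] [Fintype M] (hidx : M.index = p)
    (hvan : ∀ g, g ∉ M → (χ : P → ℂ) g = 0) :
    ∃ ψ : M → ℂ, IsIrrCharacter M ψ ∧ (χ : P → ℂ) = indFun M ψ ∧
      p * charDegree ψ = charDegree (χ : P → ℂ) := by
  classical
  have hχc : IsCharacter P (χ : P → ℂ) := Helper35.isChar_of_irr χ.2
  have hcf : IsClassFunction P (χ : P → ℂ) := Helper35.isClassFunction_of_isCharacter hχc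
  have hres : IsCharacter M (fun h : M => (χ : P → ℂ) h) := Helper35.isCharacter_res M hχc
  have h1 : (fun h : M => (χ : P → ℂ) h) 1 ≠ 0 := irr_one_ne_zero χ.2
  obtain ⟨θ, hθ, hcon⟩ := Helper20.exists_constituent_of_char hres h1
  have hT : ∀ g : P, g ∈ inertia M θ ↔ Helper20.conjFun M θ g = θ :=
    fun g => mem_inertia M θ g
  obtain ⟨k, hk⟩ := Helper35.classInner_char_nat hres (Helper35.isChar_of_irr hθ)
  have hnorm := norm_res_of_vanish χ M hvan
  have hform : (fun h : M => (χ : P → ℂ) h) =
      ((k : ℂ) / (Nat.card (inertia M θ) : ℂ)) • ∑ x : P, Helper20.conjFun M θ x := by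
    funext h
    rw [Helper20.clifford_res M hθ χ.2 hcon (inertia M θ) hT h, hk]
    simp only [Pi.smul_apply, Finset.sum_apply, smul_eq_mul]
  have hinner : ∀ x : P,
      classInner (Helper20.conjFun M θ x) (fun h : M => (χ : P → ℂ) h) = (k : ℂ) := by
    intro x
    rw [Helper4.classInner_conj_symm, Helper20.classInner_res_conjFun M hcf θ x, hk,
      Complex.conj_natCast]
  have hTne : (Nat.card (inertia M θ) : ℂ) ≠ 0 := by
    exact_mod_cast (Nat.card_pos (α := inertia M θ)).ne'
  have hkT : (p : ℂ) = (k : ℂ) * (k : ℂ) * ((inertia M θ).index : ℂ) := by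
    have h2 : classInner (fun h : M => (χ : P → ℂ) h) (fun h : M => (χ : P → ℂ) h) =
        (k : ℂ) / (Nat.card (inertia M θ) : ℂ) * ((Nat.card P : ℂ) * (k : ℂ)) := by
      nth_rewrite 1 [hform]
      rw [classInner_smul_left, classInner_sum_left]
      simp only [hinner, Finset.sum_const, Finset.card_univ, nsmul_eq_mul,
        Nat.card_eq_fintype_card]
    rw [hnorm, hidx] at h2
    rw [h2, ← Subgroup.card_mul_index (inertia M θ)]
    push_cast
    field_simp
  have hkT' : p = k * k * (inertia M θ).index := by exact_mod_cast hkT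
  have hk1 : k = 1 := by
    have h2 : k ∣ p := ⟨k * (inertia M θ).index, by rw [hkT']; ring⟩
    rcases (Nat.dvd_prime hp.out).mp h2 with h | h
    · exact h
    · exfalso
      have hp2 := hp.out.two_le
      have hpos : 0 < (inertia M θ).index := by
        rcases Nat.eq_zero_or_pos (inertia M θ).index with h0 | h0
        · rw [h0] at hkT'
          omega
        · exact h0
      rw [h] at hkT'
      nlinarith
  have hTidx : (inertia M θ).index = p := by
    rw [hk1] at hkT'
    omega
  have hdeg := Helper20.clifford_degree M hθ χ.2 hcon (inertia M θ) hT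
  rw [hk, hk1, hTidx] at hdeg
  obtain ⟨hχpos, hχ1⟩ := irr_degree χ.2
  obtain ⟨hθpos, hθ1⟩ := irr_degree hθ
  have hdeg' : charDegree (χ : P → ℂ) = p * charDegree θ := by
    rw [hχ1, hθ1] at hdeg
    have h3 : ((charDegree (χ : P → ℂ) : ℕ) : ℂ) = ((p * charDegree θ : ℕ) : ℂ) := by
      rw [hdeg]
      push_cast
      ring
    exact_mod_cast h3
  refine ⟨θ, hθ, ?_, hdeg'.symm⟩
  have hind : IsCharacter P (indFun M θ) :=
    Helper35.isCharacter_indFun M (Helper35.isChar_of_irr hθ)
  have hc : classInner (indFun M θ) (χ : P → ℂ) ≠ 0 := by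
    rw [Helper35.frobenius_reciprocity M θ _ hcf, Helper4.classInner_conj_symm]
    show conj (classInner (fun h : M => (χ : P → ℂ) h) θ) ≠ 0
    rw [hk, Complex.conj_natCast, hk1]
    norm_num
  have hd : charDegree (indFun M θ) = charDegree (χ : P → ℂ) := by
    show ⌊(indFun M θ 1).re⌋₊ = _
    rw [Helper35.indFun_one_eq, hidx, hθ1, hdeg']
    have h3 : ((p : ℂ) * (charDegree θ : ℂ)) = ((p * charDegree θ : ℕ) : ℂ) := by
      push_cast
      ring
    rw [h3, Complex.natCast_re, Nat.floor_natCast]
  exact (char_eq_of_constituent_deg hind χ.2 hc hd).symm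

/-- the number of irreducible constituents of a character is at most its norm -/
theorem card_constituents_le {M : Type*} [Group M] [Fintype M] {ζ : M → ℂ}
    (hζ : IsCharacter M ζ) (n : ℕ) (hn : classInner ζ ζ = (n : ℂ)) (S : Finset (M → ℂ))
    (hS : ∀ θ ∈ S, IsIrrCharacter M θ ∧ classInner ζ θ ≠ 0) : S.card ≤ n := by
  classical
  have := Helper4.irr_finite (G := M)
  let _ : Fintype (IrrCharacter M) := Fintype.ofFinite _
  obtain ⟨m, hmdec, hminner, hmdeg⟩ := char_decomp_deg hζ
  have hsum : (n : ℂ) = ∑ β : IrrCharacter M, (m β : ℂ) * conj (m β : ℂ) := by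
    rw [← hn]
    have h1 := Helper4.classInner_sum_sum_irr (fun β : IrrCharacter M => (m β : ℂ))
      (fun β : IrrCharacter M => (m β : ℂ))
    rw [← hmdec] at h1
    exact h1
  have hsum' : n = ∑ β : IrrCharacter M, m β * m β := by
    have h1 : (n : ℂ) = ((∑ β : IrrCharacter M, m β * m β : ℕ) : ℂ) := by
      rw [hsum]
      push_cast
      apply Finset.sum_congr rfl
      intro β _
      rw [Complex.conj_natCast]
    exact_mod_cast h1
  let F : {θ // θ ∈ S} → IrrCharacter M := fun θ => ⟨θ.1, (hS θ.1 θ.2).1⟩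
  have hF : Function.Injective F := by
    intro a b hab
    have hab' : ((F a : IrrCharacter M) : M → ℂ) = ((F b : IrrCharacter M) : M → ℂ) :=
      congrArg (fun β : IrrCharacter M => (β : M → ℂ)) hab
    exact Subtype.ext hab'
  have h1 : S.card = (S.attach.image F).card := by
    rw [Finset.card_image_of_injective _ hF, Finset.card_attach]
  have h2 : ∀ β ∈ S.attach.image F, 1 ≤ m β * m β := by
    intro β hβ
    obtain ⟨θ, -, rfl⟩ := Finset.mem_image.mp hβ
    have h3 := (hS θ.1 θ.2).2
    have h4 := hminner (F θ)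
    have h5 : m (F θ) ≠ 0 := by
      intro h0
      apply h3
      rw [h0, Nat.cast_zero] at h4
      exact h4
    have h6 : 1 ≤ m (F θ) := Nat.one_le_iff_ne_zero.mpr h5
    nlinarith
  calc S.card = (S.attach.image F).card := h1
    _ = ∑ β ∈ S.attach.image F, 1 := by simp
    _ ≤ ∑ β ∈ S.attach.image F, m β * m β := Finset.sum_le_sum h2
    _ ≤ ∑ β : IrrCharacter M, m β * m β :=
        Finset.sum_le_sum_of_subset (Finset.subset_univ _)
    _ = n := hsum'.symm

/-- if a normal subgroup `N₀` of `M` has trivial `P`-core, where `M` is normal in `P`, then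
`|M| ≤ [M : N₀] ^ [P : M]` -/
theorem card_le_index_pow {P : Type*} [Group P] [Finite P] (M : Subgroup P) [hM : M.Normal]
    (N₀ : Subgroup M) [hN : N₀.Normal]
    (hcore : ∀ m : M, (∀ x : P, (MulAut.conjNormal x : M ≃* M) m ∈ N₀) → m = 1) :
    Nat.card M ≤ N₀.index ^ M.index := by
  classical
  let K : P ⧸ M → Subgroup M :=
    fun q => N₀.comap (MulAut.conjNormal q.out : M ≃* M).toMonoidHom
  have hK : ∀ q, (K q).index = N₀.index := fun q =>
    Subgroup.index_comap_of_surjective N₀ (MulAut.conjNormal q.out : M ≃* M).surjective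
  have hbot : (⨅ q, K q) = ⊥ := by
    rw [eq_bot_iff]
    intro m hm
    rw [Subgroup.mem_bot]
    apply hcore
    intro x
    rw [Subgroup.mem_iInf] at hm
    have h1 : (MulAut.conjNormal (x : P ⧸ M).out : M ≃* M) m ∈ N₀ := hm (x : P ⧸ M)
    have h2 : ((x : P ⧸ M).out)⁻¹ * x ∈ M :=
      QuotientGroup.eq.mp (QuotientGroup.out_eq' (x : P ⧸ M))
    have h2' : x * ((x : P ⧸ M).out)⁻¹ ∈ M := by
      have h3 := hM.conj_mem _ h2 (x : P ⧸ M).out
      have h4 : (x : P ⧸ M).out * (((x : P ⧸ M).out)⁻¹ * x) * ((x : P ⧸ M).out)⁻¹ =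
          x * ((x : P ⧸ M).out)⁻¹ := by group
      rwa [h4] at h3
    have h3 : (MulAut.conjNormal x : M ≃* M) m =
        (⟨x * ((x : P ⧸ M).out)⁻¹, h2'⟩ : M) *
          (MulAut.conjNormal (x : P ⧸ M).out : M ≃* M) m *
          (⟨x * ((x : P ⧸ M).out)⁻¹, h2'⟩ : M)⁻¹ := by
      apply Subtype.ext
      simp only [MulAut.conjNormal_apply, Subgroup.coe_mul, Subgroup.coe_inv]
      group
    rw [h3]
    exact hN.conj_mem _ h1 _
  have hfin : Fintype (P ⧸ M) := Fintype.ofFinite _
  calc Nat.card M = (⊥ : Subgroup M).index := (Subgroup.index_bot).symm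
    _ = (⨅ q, K q).index := by rw [hbot]
    _ ≤ ∏ q, (K q).index := Subgroup.index_iInf_le K
    _ = N₀.index ^ M.index := by
        simp only [hK, Finset.prod_const, Finset.card_univ]
        rw [Subgroup.index_eq_card M, Nat.card_eq_fintype_card]

/-- the field of values of an induced function lies in the field of values of the function -/
theorem ind_adjoin_le {P : Type*} [Group P] [Fintype P] (M : Subgroup P) (ψ : M → ℂ) :
    adjoin ℚ (Set.range (indFun M ψ)) ≤ adjoin ℚ (Set.range ψ) := by
  rw [adjoin_le_iff]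
  rintro _ ⟨g, rfl⟩
  unfold indFun
  apply mul_mem
  · exact inv_mem (IntermediateField.natCast_mem _ _)
  · apply sum_mem
    intro x _
    by_cases h : x⁻¹ * g * x ∈ M
    · rw [Helper35.ext_mem M ψ _ h]
      exact subset_adjoin ℚ _ (Set.mem_range_self _)
    · rw [Helper35.ext_not_mem M ψ _ h]
      exact zero_mem _

/-- at most `[P : M]` irreducible characters of `M` induce a given irreducible character of `P`
that vanishes off `M` -/
theorem fiber_card_le {P : Type*} [Group P] [Fintype P] (M : Subgroup P)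
    [Fintype M] (c : IrrCharacter P)
    (hvan : ∀ g, g ∉ M → (c : P → ℂ) g = 0) (S : Finset (M → ℂ))
    (hS : ∀ θ ∈ S, IsIrrCharacter M θ ∧ indFun M θ = (c : P → ℂ)) : S.card ≤ M.index := by
  classical
  have hcc : IsCharacter P (c : P → ℂ) := Helper35.isChar_of_irr c.2
  have hcf : IsClassFunction P (c : P → ℂ) := Helper35.isClassFunction_of_isCharacter hcc
  apply card_constituents_le (Helper35.isCharacter_res M hcc) M.index
    (norm_res_of_vanish c M hvan) S
  intro θ hθ
  obtain ⟨hθirr, hθind⟩ := hS θ hθ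
  refine ⟨hθirr, ?_⟩
  have h1 := Helper35.frobenius_reciprocity' M θ (c : P → ℂ) hcf
  rw [hθind] at h1
  have h2 := irr_orthonormal c c
  rw [if_pos rfl] at h2
  rw [h2] at h1
  intro h0
  rw [h0] at h1
  exact one_ne_zero h1

/-- Galois orbits of an irreducible character of a normal subgroup and of its (irreducible)
induced character -/
theorem galOrb_card_le {P : Type*} [Group P] [Fintype P] (M : Subgroup P) [hM : M.Normal]
    [Fintype M] {ψ : M → ℂ} (hψ : IsIrrCharacter M ψ) (hχ : IsIrrCharacter P (indFun M ψ))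
    (hcop : ∀ k : ℕ, k.Coprime (Nat.card M) → k.Coprime (Nat.card P)) :
    (galOrb ψ).card ≤ M.index * (galOrb (indFun M ψ)).card ∧
    ((galOrb ψ).card = M.index * (galOrb (indFun M ψ)).card →
      ∀ θ : M → ℂ, IsIrrCharacter M θ → classInner (fun h : M => indFun M ψ h) θ ≠ 0 →
        θ ∈ galOrb ψ) := by
  classical
  have hmap : ∀ θ ∈ galOrb ψ, indFun M θ ∈ galOrb (indFun M ψ) := by
    intro θ hθ
    obtain ⟨k, hk, rfl⟩ := (mem_galOrb ψ θ).mp hθ
    exact (mem_galOrb _ _).mpr ⟨k, hcop k hk, indFun_gp M ψ k (hcop k hk)⟩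
  have hirr : ∀ θ ∈ galOrb ψ, IsIrrCharacter M θ := by
    intro θ hθ
    obtain ⟨k, hk, rfl⟩ := (mem_galOrb ψ θ).mp hθ
    exact gp_irr hψ k hk
  have hcirr : ∀ c ∈ galOrb (indFun M ψ), IsIrrCharacter P c := by
    intro c hc
    obtain ⟨k, hk, rfl⟩ := (mem_galOrb _ c).mp hc
    exact gp_irr hχ k hk
  have hfib : ∀ c ∈ galOrb (indFun M ψ),
      ((galOrb ψ).filter (fun θ => indFun M θ = c)).card ≤ M.index := by
    intro c hc
    by_cases hne : ((galOrb ψ).filter (fun θ => indFun M θ = c)).Nonempty
    · obtain ⟨θ₀, hθ₀⟩ := hne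
      have hθ₀' := (Finset.mem_filter.mp hθ₀).2
      apply fiber_card_le M ⟨c, hcirr c hc⟩
      · intro g hg
        show c g = 0
        rw [← hθ₀']
        exact indFun_vanish M θ₀ g hg
      · intro θ hθ
        exact ⟨hirr θ (Finset.mem_filter.mp hθ).1, (Finset.mem_filter.mp hθ).2⟩
    · rw [Finset.not_nonempty_iff_eq_empty] at hne
      rw [hne, Finset.card_empty]
      exact Nat.zero_le _
  have hsum := Finset.card_eq_sum_card_fiberwise (f := indFun M) (s := galOrb ψ)
    (t := galOrb (indFun M ψ)) hmap
  have hconst : ∑ c ∈ galOrb (indFun M ψ), M.index =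
      M.index * (galOrb (indFun M ψ)).card := by
    rw [Finset.sum_const, smul_eq_mul, mul_comm]
  constructor
  · rw [hsum, ← hconst]
    exact Finset.sum_le_sum hfib
  · intro heq θ hθ hc
    have hχmem : indFun M ψ ∈ galOrb (indFun M ψ) :=
      (mem_galOrb _ _).mpr ⟨1, Nat.coprime_one_left _, by funext g; rw [gp_apply, pow_one]⟩
    have hfull : ((galOrb ψ).filter (fun θ => indFun M θ = indFun M ψ)).card = M.index := by
      by_contra hne
      have hlt : ((galOrb ψ).filter (fun θ => indFun M θ = indFun M ψ)).card < M.index :=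
        lt_of_le_of_ne (hfib _ hχmem) hne
      have h1 : (galOrb ψ).card < M.index * (galOrb (indFun M ψ)).card := by
        rw [hsum, ← hconst]
        exact Finset.sum_lt_sum hfib ⟨_, hχmem, hlt⟩
      omega
    by_contra hθmem
    have hins : (insert θ ((galOrb ψ).filter (fun θ => indFun M θ = indFun M ψ))).card =
        M.index + 1 := by
      rw [Finset.card_insert_of_notMem, hfull]
      intro h
      exact hθmem (Finset.mem_filter.mp h).1
    have hall : ∀ θ' ∈ insert θ ((galOrb ψ).filter (fun θ => indFun M θ = indFun M ψ)),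
        IsIrrCharacter M θ' ∧ classInner (fun h : M => indFun M ψ h) θ' ≠ 0 := by
      intro θ' hθ'
      rcases Finset.mem_insert.mp hθ' with rfl | h
      · exact ⟨hθ, hc⟩
      · obtain ⟨h1, h2⟩ := Finset.mem_filter.mp h
        refine ⟨hirr θ' h1, ?_⟩
        have hcf : IsClassFunction P (indFun M ψ) := Helper35.isClassFunction_indFun M ψ
        have h3 := Helper35.frobenius_reciprocity' M θ' (indFun M ψ) hcf
        rw [h2] at h3
        have h4 := irr_orthonormal (⟨indFun M ψ, hχ⟩ : IrrCharacter P) ⟨indFun M ψ, hχ⟩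
        rw [if_pos rfl] at h4
        intro h0
        have h5 : classInner (Helper35.res M (indFun M ψ)) θ' = 0 := h0
        rw [h5] at h3
        exact one_ne_zero (h4.symm.trans h3)
    have hle := card_constituents_le (Helper35.isCharacter_res M (Helper35.isChar_of_irr hχ))
      M.index (norm_res_of_vanish ⟨indFun M ψ, hχ⟩ M (fun g hg => indFun_vanish M ψ g hg))
      (insert θ ((galOrb ψ).filter (fun θ => indFun M θ = indFun M ψ))) hall
    omega

/-- an element of the normal subgroup `M` all of whose `P`-conjugates lie in the kernel of `ψ`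
lies in the kernel of the induced function -/
theorem ind_eq_one_of_conj {P : Type*} [Group P] [Fintype P] (M : Subgroup P) [hM : M.Normal]
    (ψ : M → ℂ) (m : M) (h : ∀ x : P, Helper20.conjFun M ψ x m = ψ 1) :
    indFun M ψ (m : P) = indFun M ψ ((1 : M) : P) := by
  have h3 : ∀ x : P, Helper20.conjFun M ψ x 1 = ψ 1 := by
    intro x
    rw [Helper20.conjFun_apply]
    congr 1
    apply Subtype.ext
    simp
  rw [Helper20.indFun_normal_apply M ψ m, Helper20.indFun_normal_apply M ψ 1]
  congr 1
  apply Finset.sum_congr rfl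
  intro x _
  rw [h x, h3 x]

end Cfsg.Agent.Lib.Helper83
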