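import Mathlib
import Cfsg.Prelude.Def_Blocks
import Cfsg.Agent.Lib.Helper83.Fv3

/-!
# Fields of values of characters, part 4: faithful characters of `p`-groups

`fv_main`: if `χ` is a faithful irreducible character of degree `f` of a group of order `p ^ a`
and `[ℚ(χ) : ℚ] = (p - 1) p ^ t`, then `(p - 1) a ≤ (f - 1) + (p - 1) (t + 1) f`.
-/

set_option autoImplicit false
set_option linter.unusedSectionVars false
set_option linter.style.haveILetI false
set_option linter.unusedVariables false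

namespace Cfsg.Agent.Lib.Helper83

open scoped ComplexConjugate
open Cfsg Cfsg.Agent.Lib
open IntermediateField

theorem fv_arith1 (p a f₁ t : ℕ) (hp : 2 ≤ p) (hf : 1 ≤ f₁) (ha : 1 ≤ a)
    (h : (p - 1) * (a - 1) ≤ (f₁ - 1) + (p - 1) * (t + 1 + 1) * f₁) :
    (p - 1) * a ≤ (p * f₁ - 1) + (p - 1) * (t + 1) * (p * f₁) := by
  obtain ⟨q, rfl⟩ : ∃ q, p = q + 2 := ⟨p - 2, by omega⟩
  obtain ⟨e, rfl⟩ : ∃ e, f₁ = e + 1 := ⟨f₁ - 1, by omega⟩
  obtain ⟨b, rfl⟩ : ∃ b, a = b + 1 := ⟨a - 1, by omega⟩
  have h1 : q + 2 - 1 = q + 1 := by omega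
  have h2 : (q + 2) * (e + 1) - 1 = (q + 2) * e + q + 1 := by
    have : (q + 2) * (e + 1) = (q + 2) * e + q + 1 + 1 := by ring
    omega
  rw [h1, h2]
  rw [h1] at h
  simp only [Nat.add_sub_cancel] at h
  have h5 : t + 1 + 1 ≤ (t + 1) * (q + 2) := by nlinarith
  have h4 : (q + 1) * (t + 1 + 1) * (e + 1) ≤ (q + 1) * (t + 1) * ((q + 2) * (e + 1)) := by
    calc (q + 1) * (t + 1 + 1) * (e + 1) ≤ (q + 1) * ((t + 1) * (q + 2)) * (e + 1) :=
          Nat.mul_le_mul_right _ (Nat.mul_le_mul_left _ h5)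
      _ = (q + 1) * (t + 1) * ((q + 2) * (e + 1)) := by ring
  calc (q + 1) * (b + 1) = (q + 1) * b + (q + 1) := by ring
    _ ≤ (e + (q + 1) * (t + 1 + 1) * (e + 1)) + (q + 1) := Nat.add_le_add_right h _
    _ ≤ (e + (q + 1) * (t + 1) * ((q + 2) * (e + 1))) + (q + 1) :=
        Nat.add_le_add_right (Nat.add_le_add_left h4 _) _
    _ ≤ (q + 2) * e + q + 1 + (q + 1) * (t + 1) * ((q + 2) * (e + 1)) := by
        have h7 : e ≤ (q + 2) * e := Nat.le_mul_of_pos_left e (by omega)
        omega

theorem fv_arith2 (p a a' f₁ t : ℕ) (hp : 2 ≤ p) (hf : 1 ≤ f₁) (ha : a - 1 ≤ p * a')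
    (h : (p - 1) * a' ≤ (f₁ - 1) + (p - 1) * (t + 1) * f₁) :
    (p - 1) * a ≤ (p * f₁ - 1) + (p - 1) * (t + 1) * (p * f₁) := by
  obtain ⟨q, rfl⟩ : ∃ q, p = q + 2 := ⟨p - 2, by omega⟩
  obtain ⟨e, rfl⟩ : ∃ e, f₁ = e + 1 := ⟨f₁ - 1, by omega⟩
  have h1 : q + 2 - 1 = q + 1 := by omega
  have h2 : (q + 2) * (e + 1) - 1 = (q + 2) * e + q + 1 := by
    have : (q + 2) * (e + 1) = (q + 2) * e + q + 1 + 1 := by ring
    omega
  rw [h1, h2]
  rw [h1] at h
  simp only [Nat.add_sub_cancel] at h
  have ha' : a ≤ (q + 2) * a' + 1 := by omega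
  calc (q + 1) * a ≤ (q + 1) * ((q + 2) * a' + 1) := Nat.mul_le_mul_left _ ha'
    _ = (q + 2) * ((q + 1) * a') + (q + 1) := by ring
    _ ≤ (q + 2) * (e + (q + 1) * (t + 1) * (e + 1)) + (q + 1) :=
        Nat.add_le_add_right (Nat.mul_le_mul_left _ h) _
    _ = (q + 2) * e + q + 1 + (q + 1) * (t + 1) * ((q + 2) * (e + 1)) := by ring

universe u

set_option maxHeartbeats 1000000 in
/-- the main inequality -/
theorem fv_main (p : ℕ) [hp : Fact p.Prime] : ∀ (a : ℕ) (P : Type u) [Group P] [Fintype P],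
    0 < a → Nat.card P = p ^ a → ∀ (χ : P → ℂ), IsIrrCharacter P χ →
    (∀ g : P, χ g = χ 1 → g = 1) → ∀ (t : ℕ),
    Module.finrank ℚ (adjoin ℚ (Set.range χ)) = (p - 1) * p ^ t →
    (p - 1) * a ≤ (charDegree χ - 1) + (p - 1) * (t + 1) * charDegree χ := by
  intro a
  induction a using Nat.strong_induction_on with
  | _ a ih =>
  intro P _ _ ha hcard χ hχ hfaith t hfield
  classical
  have hp2 := hp.out.two_le
  have hPg : IsPGroup p P := IsPGroup.of_card hcard
  have hχc := Helper35.isChar_of_irr hχ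
  obtain ⟨hfpos, hf1⟩ := irr_degree hχ
  by_cases hf : charDegree χ = 1
  · have hχ1 : χ 1 = 1 := by
      rw [hf1, hf]
      simp
    have h1 := totient_le_finrank_faithful_linear hχ hχ1 hfaith
    have h2 := finrank_dvd_totient hχc
    rw [hcard, Nat.totient_prime_pow hp.out ha, hfield] at h1 h2
    have hpos : 0 < p ^ (a - 1) * (p - 1) := Nat.mul_pos (pow_pos (by omega) _) (by omega)
    have h3 : (p - 1) * p ^ t = p ^ (a - 1) * (p - 1) :=
      le_antisymm (Nat.le_of_dvd hpos h2) h1
    have h4 : p ^ t = p ^ (a - 1) := by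
      rw [mul_comm] at h3
      exact Nat.eq_of_mul_eq_mul_right (by omega : 0 < p - 1) h3
    have h5 : t = a - 1 := Nat.pow_right_injective hp2 h4
    rw [hf, h5, show a - 1 + 1 = a by omega]
    simp
  · obtain ⟨M, hMn, hMidx, hvan⟩ := exists_index_p_vanish p hPg ⟨χ, hχ⟩ hf
    obtain ⟨ψ, hψ, hind, hdeg⟩ := index_p_structure p ⟨χ, hχ⟩ M hMidx hvan
    have hind' : χ = indFun M ψ := hind
    have hdeg' : p * charDegree ψ = charDegree χ := hdeg
    obtain ⟨hψpos, hψ1⟩ := irr_degree hψ
    have hψc := Helper35.isChar_of_irr hψ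
    have ha2 : 2 ≤ a := by
      by_contra hlt
      have ha1 : a = 1 := by omega
      have h1 := degree_sq_mul_card_le (⟨χ, hχ⟩ : IrrCharacter P) ⊥ bot_le
      rw [Subgroup.card_bot, mul_one, hcard, ha1, pow_one] at h1
      have h2 : p ≤ charDegree χ := by
        rw [← hdeg']
        exact Nat.le_mul_of_pos_right p hψpos
      have h3 : charDegree χ ^ 2 ≤ p := h1
      nlinarith
    have hMcard : Nat.card M = p ^ (a - 1) := by
      have h1 := Subgroup.card_mul_index M
      rw [hMidx, hcard] at h1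
      have h2 : p ^ a = p ^ (a - 1) * p := by
        rw [← pow_succ]
        congr 1
        omega
      rw [h2] at h1
      exact Nat.eq_of_mul_eq_mul_right (by omega : 0 < p) h1
    have hcop : ∀ k : ℕ, k.Coprime (Nat.card M) → k.Coprime (Nat.card P) := by
      intro k hk
      rw [hMcard] at hk
      rw [hcard]
      apply Nat.Coprime.pow_right
      exact Nat.Coprime.coprime_dvd_right (dvd_pow_self p (by omega)) hk
    have hχ' : IsIrrCharacter P (indFun M ψ) := hind' ▸ hχ
    obtain ⟨hle, heq⟩ := galOrb_card_le M hψ hχ' hcop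
    have hd : (galOrb (indFun M ψ)).card = (p - 1) * p ^ t := by
      rw [← finrank_eq_card_galOrb (Helper35.isChar_of_irr hχ'), ← hind']
      exact hfield
    have hd'1 : Module.finrank ℚ (adjoin ℚ (Set.range ψ)) = (galOrb ψ).card :=
      finrank_eq_card_galOrb hψc
    have hdvd : (p - 1) * p ^ t ∣ (galOrb ψ).card := by
      rw [← hd'1, ← hfield]
      apply finrank_dvd_of_le_right
      rw [hind']
      exact ind_adjoin_le M ψ
    have hd'2 : (galOrb ψ).card ∣ p ^ (a - 2) * (p - 1) := by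
      have h1 := finrank_dvd_totient hψc
      rw [hMcard, Nat.totient_prime_pow hp.out (by omega), hd'1] at h1
      have h2 : a - 1 - 1 = a - 2 := by omega
      rwa [h2] at h1
    obtain ⟨r, hr⟩ := hdvd
    have hdpos : 0 < (p - 1) * p ^ t := Nat.mul_pos (by omega) (pow_pos (by omega) _)
    have hrle : r ≤ p := by
      rw [hr, hd, hMidx] at hle
      rw [mul_comm p] at hle
      exact Nat.le_of_mul_le_mul_left hle hdpos
    have hrdvd : r ∣ p ^ (a - 2) := by
      rw [hr] at hd'2
      have h1 : (p - 1) * (p ^ t * r) ∣ (p - 1) * p ^ (a - 2) := by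
        rw [← mul_assoc, mul_comm (p - 1) (p ^ (a - 2))]
        exact hd'2
      have h2 := Nat.dvd_of_mul_dvd_mul_left (by omega : 0 < p - 1) h1
      exact dvd_of_mul_left_dvd h2
    obtain ⟨j, -, hj⟩ := (Nat.dvd_prime_pow hp.out).mp hrdvd
    have hj1 : j ≤ 1 := by
      by_contra hcon
      have h2 : 2 ≤ j := by omega
      have h3 : p ^ 2 ≤ p ^ j := Nat.pow_le_pow_right (by omega) h2
      rw [← hj] at h3
      nlinarith
    have hcf : IsClassFunction P (indFun M ψ) := Helper35.isClassFunction_indFun M ψ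
    rcases Nat.le_one_iff_eq_zero_or_eq_one.mp hj1 with hj0 | hj1'
    · -- same field: pass to `M ⧸ ker ψ`
      rw [hj0, pow_zero] at hj
      have hfieldψ : Module.finrank ℚ (adjoin ℚ (Set.range ψ)) = (p - 1) * p ^ t := by
        rw [hd'1, hr, hj, mul_one]
      let ψi : IrrCharacter M := ⟨ψ, hψ⟩
      let N₀ : Subgroup M := irrKer ψi
      have hN₀ : N₀.Normal := irrKer_normal ψi
      obtain ⟨ψb, hψb, hψbv⟩ := irr_deflate N₀ hψ (fun x hx => (mem_irrKer ψi x).mp hx)
      have hrange : Set.range ψb = Set.range ψ := by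
        ext z
        constructor
        · rintro ⟨q, rfl⟩
          obtain ⟨g, rfl⟩ := QuotientGroup.mk_surjective q
          exact ⟨g, (hψbv g).symm⟩
        · rintro ⟨g, rfl⟩
          exact ⟨(g : M ⧸ N₀), hψbv g⟩
      have hψb1 : ψb 1 = ψ 1 := hψbv 1
      have hψbfaith : ∀ q : M ⧸ N₀, ψb q = ψb 1 → q = 1 := by
        intro q hq
        obtain ⟨g, rfl⟩ := QuotientGroup.mk_surjective q
        rw [hψbv g, hψb1] at hq
        exact (QuotientGroup.eq_one_iff g).mpr ((mem_irrKer ψi g).mpr hq)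
      have hdegb : charDegree ψb = charDegree ψ := by
        show ⌊(ψb 1).re⌋₊ = ⌊(ψ 1).re⌋₊
        rw [hψb1]
      have hcore : ∀ m : M, (∀ x : P, (MulAut.conjNormal x : M ≃* M) m ∈ N₀) → m = 1 := by
        intro m hm
        have h1 : ∀ x : P, Helper20.conjFun M ψ x m = ψ 1 := by
          intro x
          have h2 := congrFun (Helper20.conjFun_eq_comp M ψ x) m
          rw [h2]
          exact (mem_irrKer ψi _).mp (hm x)
        have h2 := ind_eq_one_of_conj M ψ m h1
        rw [← hind', Subgroup.coe_one] at h2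
        exact Subtype.ext (hfaith (m : P) h2)
      have hle2 := card_le_index_pow M N₀ hcore
      rw [hMidx, hMcard] at hle2
      have hidxdvd : N₀.index ∣ p ^ (a - 1) := by
        rw [← hMcard]
        exact Subgroup.index_dvd_card N₀
      obtain ⟨a', ha'le, ha'⟩ := (Nat.dvd_prime_pow hp.out).mp hidxdvd
      rw [ha', ← pow_mul] at hle2
      have hle3 : a - 1 ≤ a' * p := (Nat.pow_le_pow_iff_right (by omega : 1 < p)).mp hle2
      have ha'pos : 0 < a' := by
        rcases Nat.eq_zero_or_pos a' with h0 | h0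
        · rw [h0, zero_mul] at hle3
          omega
        · exact h0
      have hcardq : Nat.card (M ⧸ N₀) = p ^ a' := by
        rw [← Subgroup.index_eq_card, ha']
      have hfieldb : Module.finrank ℚ (adjoin ℚ (Set.range ψb)) = (p - 1) * p ^ t := by
        rw [hrange]
        exact hfieldψ
      have hih := ih a' (by omega) (M ⧸ N₀) ha'pos hcardq ψb hψb hψbfaith t hfieldb
      rw [hdegb] at hih
      rw [← hdeg']
      exact fv_arith2 p a a' (charDegree ψ) t hp2 hψpos (by rw [mul_comm]; exact hle3) hih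
    · -- the field grows: `ψ` is faithful
      rw [hj1', pow_one] at hj
      have hcard' : (galOrb ψ).card = M.index * (galOrb (indFun M ψ)).card := by
        rw [hr, hd, hMidx, hj]
        ring
      have hmem := heq hcard'
      have hcon : classInner (fun h : M => indFun M ψ h) ψ ≠ 0 := by
        have h3 := Helper35.frobenius_reciprocity' M ψ (indFun M ψ) hcf
        have h4 := irr_orthonormal (⟨indFun M ψ, hχ'⟩ : IrrCharacter P) ⟨indFun M ψ, hχ'⟩
        rw [if_pos rfl] at h4
        intro h0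
        have h5 : classInner (Helper35.res M (indFun M ψ)) ψ = 0 := h0
        rw [h5] at h3
        exact one_ne_zero (h4.symm.trans h3)
      have hψfaith : ∀ g : M, ψ g = ψ 1 → g = 1 := by
        intro g hg
        have h1 : ∀ x : P, Helper20.conjFun M ψ x g = ψ 1 := by
          intro x
          have h2 : Helper20.conjFun M ψ x ∈ galOrb ψ := by
            apply hmem _ (Helper20.conjFun_irr M hψ x)
            rw [Helper20.classInner_res_conjFun M hcf ψ x]
            exact hcon
          obtain ⟨k, hk, hkeq⟩ := (mem_galOrb ψ _).mp h2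
          rw [hkeq]
          have h3 := (gp_eq_one_iff hψ k hk g).mpr hg
          rw [h3, gp_apply, one_pow]
        have h2 := ind_eq_one_of_conj M ψ g h1
        rw [← hind', Subgroup.coe_one] at h2
        exact Subtype.ext (hfaith (g : P) h2)
      have hfieldψ : Module.finrank ℚ (adjoin ℚ (Set.range ψ)) = (p - 1) * p ^ (t + 1) := by
        rw [hd'1, hr, hj, pow_succ]
        ring
      have hih := ih (a - 1) (by omega) M (by omega) hMcard ψ hψ hψfaith (t + 1) hfieldψ
      rw [← hdeg']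
      exact fv_arith1 p a (charDegree ψ) t hp2 hψpos (by omega) hih

end Cfsg.Agent.Lib.Helper83
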