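import Mathlib
import Cfsg.Agent.Lib.Helper83.LinearCount
import Cfsg.Agent.Lib.Helper83.Ortho
import Cfsg.Agent.Lib.Helper4.CharClosure

/-!
A character of a finite abelian group whose values off the identity lie in `{0, 1, -1}` and do
not all vanish is `m·ρ + ε·μ` with `ρ` the regular character, `ε = ±1` and `μ` a linear character
with `μ² = 1` (`abelian_pm_char`).
-/

set_option autoImplicit false

namespace Cfsg.Agent.Lib.Helper83

open Cfsg
open scoped ComplexConjugate

theorem abelian_pm_arith (N Q D k : ℤ) (hi : N * Q = D ^ 2 + k) (hii : D ≤ Q)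
    (hiii : D ^ 2 ≤ (N - 1) * Q) (hk1 : 1 ≤ k) (hk2 : k ≤ N - 1) (hD : 1 ≤ D) :
    Q = D ∧ (D = 1 ∨ D = N - 1) := by
  have hN0 : (0 : ℤ) ≤ N := by linarith
  have h' : (N - 1) * (N * Q) = (N - 1) * (D ^ 2 + k) := by rw [hi]
  have h1 : D ^ 2 ≤ (N - 1) * k := by
    nlinarith [mul_le_mul_of_nonneg_left hiii hN0, h']
  have h2 : D ≤ N - 1 := by
    by_contra hcon
    push Not at hcon
    have h3 : (N - 1) * k ≤ (N - 1) * (N - 1) :=
      mul_le_mul_of_nonneg_left hk2 (by linarith)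
    nlinarith
  have h4 : N * D - D ^ 2 ≤ k := by
    nlinarith [mul_le_mul_of_nonneg_left hii hN0]
  have h5 : 0 ≤ (D - 1) * (N - 1 - D) := mul_nonneg (by linarith) (by linarith)
  have e : (D - 1) * (N - 1 - D) = D * N - D ^ 2 - N + 1 := by ring
  have h6 : (D - 1) * (N - 1 - D) = 0 := by
    apply le_antisymm _ h5
    rw [e]
    linarith
  have h7 : N * Q = N * D := by
    rw [e] at h6
    nlinarith
  have hNpos : N ≠ 0 := by
    intro h0
    rw [h0] at hk2
    linarith
  refine ⟨mul_left_cancel₀ hNpos h7, ?_⟩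
  rcases mul_eq_zero.mp h6 with h | h
  · left
    linarith
  · right
    linarith

/-- A character of a finite abelian group with values in `{0, ±1}` off the identity, not all
zero there, is `m·ρ + ε·μ`. -/
theorem abelian_pm_char {S : Type*} [Group S] [Fintype S] [IsMulCommutative S] (ψ : S → ℂ)
    (hψ : IsCharacter S ψ)
    (hval : ∀ y : S, y ≠ 1 → ψ y = 0 ∨ ψ y = 1 ∨ ψ y = -1) (hne : ∃ y : S, y ≠ 1 ∧ ψ y ≠ 0) :
    ∃ (ε : ℤ) (m : ℕ) (μ : S → ℂ), (ε = 1 ∨ ε = -1) ∧ IsIrrCharacter S μ ∧ μ 1 = 1 ∧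
      (∀ x, μ x * μ x = 1) ∧ (∀ y, y ≠ 1 → ψ y = (ε : ℂ) * μ y) ∧
      ψ 1 = (m : ℂ) * (Nat.card S : ℂ) + (ε : ℂ) := by
  classical
  have := Helper4.irr_finite (G := S)
  let _ : Fintype (IrrCharacter S) := Fintype.ofFinite _
  obtain ⟨m, hm⟩ := Helper4.exists_decomp_of_isCharacter ψ hψ
  have hlin : ∀ l : IrrCharacter S, (l : S → ℂ) 1 = 1 := fun l => irr_comm_degree l.2
  have hcard : Fintype.card (IrrCharacter S) = Nat.card S := by
    rw [← Nat.card_eq_fintype_card]
    exact card_irr_comm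
  have hn0 : (Nat.card S : ℂ) ≠ 0 := by exact_mod_cast Nat.card_pos.ne'
  have hρ : ∀ y : S, y ≠ 1 → ∑ l : IrrCharacter S, (l : S → ℂ) y = 0 := by
    intro y hy
    have h1 := column_orthogonality_not_conj (g := y) (h := (1 : S)) (by
      rw [isConj_one_right]
      exact hy)
    simpa [hlin] using h1
  have hψy : ∀ y : S, ψ y = ∑ l : IrrCharacter S, (m l : ℂ) * (l : S → ℂ) y := by
    intro y
    have h1 := congrFun hm y
    simpa [Finset.sum_apply] using h1
  obtain ⟨l₀, -, hl₀⟩ := Finset.exists_min_image Finset.univ m ⟨trivIrr S, Finset.mem_univ _⟩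
  obtain ⟨M, hM⟩ : ∃ M, M = m l₀ := ⟨_, rfl⟩
  obtain ⟨a, hadef⟩ : ∃ a : IrrCharacter S → ℕ, a = fun l => m l - M := ⟨_, rfl⟩
  have ha : ∀ l, m l = a l + M := by
    intro l
    have h1 := hl₀ l (Finset.mem_univ _)
    rw [hadef, hM]
    simp only
    omega
  have ha0 : a l₀ = 0 := by
    rw [hadef, hM]
    simp
  have hψa : ∀ y : S, y ≠ 1 → ψ y = ∑ l : IrrCharacter S, (a l : ℂ) * (l : S → ℂ) y := by
    intro y hy
    rw [hψy y]
    have h1 : ∀ l : IrrCharacter S, (m l : ℂ) * (l : S → ℂ) y =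
        (a l : ℂ) * (l : S → ℂ) y + (M : ℂ) * (l : S → ℂ) y := by
      intro l
      rw [ha l]
      push_cast
      ring
    rw [Finset.sum_congr rfl (fun l _ => h1 l), Finset.sum_add_distrib, ← Finset.mul_sum,
      hρ y hy, mul_zero, add_zero]
  obtain ⟨D, hD⟩ : ∃ D : ℕ, D = ∑ l : IrrCharacter S, a l := ⟨_, rfl⟩
  obtain ⟨Q, hQ⟩ : ∃ Q : ℕ, Q = ∑ l : IrrCharacter S, a l ^ 2 := ⟨_, rfl⟩
  have hψ1 : ψ 1 = (D : ℂ) + (M : ℂ) * (Nat.card S : ℂ) := by
    rw [hψy 1]
    simp only [hlin, mul_one]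
    have h1 : ∀ l : IrrCharacter S, (m l : ℂ) = (a l : ℂ) + (M : ℂ) := by
      intro l
      rw [ha l]
      push_cast
      ring
    rw [Finset.sum_congr rfl (fun l _ => h1 l), Finset.sum_add_distrib, Finset.sum_const,
      Finset.card_univ, hcard, nsmul_eq_mul, hD]
    push_cast
    ring
  -- the reduced character
  obtain ⟨ψ', hψ'⟩ : ∃ ψ' : S → ℂ, ψ' = ∑ l : IrrCharacter S, (a l : ℂ) • (l : S → ℂ) :=
    ⟨_, rfl⟩
  have hψ'y : ∀ y, y ≠ 1 → ψ' y = ψ y := by
    intro y hy
    rw [hψa y hy, hψ']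
    simp [Finset.sum_apply]
  have hψ'1 : ψ' 1 = (D : ℂ) := by
    rw [hψ', hD]
    simp [Finset.sum_apply, hlin]
  have hnorm : classInner ψ' ψ' = (Q : ℂ) := by
    rw [hψ', Helper4.classInner_sum_sum_irr, hQ]
    push_cast
    apply Finset.sum_congr rfl
    intro l _
    rw [map_natCast]
    ring
  obtain ⟨k, hk⟩ : ∃ k : ℕ, k = ((Finset.univ.erase (1 : S)).filter (fun y => ψ y ≠ 0)).card :=
    ⟨_, rfl⟩
  have hnorm2 : (Nat.card S : ℂ) * classInner ψ' ψ' = (D : ℂ) ^ 2 + (k : ℂ) := by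
    unfold classInner
    rw [← mul_assoc, mul_inv_cancel₀ hn0, one_mul,
      ← Finset.add_sum_erase Finset.univ _ (Finset.mem_univ (1 : S)), hψ'1, map_natCast]
    congr 1
    · ring
    · have h1 : ∀ y ∈ Finset.univ.erase (1 : S), ψ' y * conj (ψ' y) =
          if ψ y ≠ 0 then (1 : ℂ) else 0 := by
        intro y hy
        have hy1 : y ≠ 1 := Finset.ne_of_mem_erase hy
        rw [hψ'y y hy1]
        rcases hval y hy1 with h | h | h <;> simp [h]
      rw [Finset.sum_congr rfl h1, Finset.sum_ite, Finset.sum_const_zero, add_zero,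
        Finset.sum_const, nsmul_eq_mul, mul_one, hk]
  have hi : Nat.card S * Q = D ^ 2 + k := by
    rw [hnorm] at hnorm2
    exact_mod_cast hnorm2
  have hii : D ≤ Q := by
    rw [hD, hQ]
    apply Finset.sum_le_sum
    intro l _
    exact Nat.le_self_pow (by norm_num) _
  have hcardT : (Finset.univ.erase l₀).card = Nat.card S - 1 := by
    rw [Finset.card_erase_of_mem (Finset.mem_univ _), Finset.card_univ, hcard]
  have hDT : ∑ l ∈ Finset.univ.erase l₀, a l = D := by
    rw [hD]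
    exact Finset.sum_erase _ ha0
  have hQT : ∑ l ∈ Finset.univ.erase l₀, a l ^ 2 = Q := by
    rw [hQ]
    apply Finset.sum_erase
    rw [ha0]
    rfl
  have hiii : D ^ 2 ≤ (Nat.card S - 1) * Q := by
    have h1 := sq_sum_le_card_mul_sum_sq (s := Finset.univ.erase l₀) (f := a)
    rw [hDT, hQT, hcardT] at h1
    exact h1
  have hk1 : 1 ≤ k := by
    obtain ⟨y₀, hy₀, hy₀'⟩ := hne
    rw [hk]
    apply Finset.card_pos.mpr
    exact ⟨y₀, Finset.mem_filter.mpr ⟨Finset.mem_erase.mpr ⟨hy₀, Finset.mem_univ _⟩, hy₀'⟩⟩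
  have hk2 : k ≤ Nat.card S - 1 := by
    rw [hk]
    refine (Finset.card_filter_le _ _).trans ?_
    rw [Finset.card_erase_of_mem (Finset.mem_univ _), Finset.card_univ, Nat.card_eq_fintype_card]
  have hn2 : 2 ≤ Nat.card S := by omega
  have hD1 : 1 ≤ D := by
    by_contra hcon
    have hD0 : D = 0 := by omega
    have h1 : ∀ l, a l = 0 := by
      intro l
      rw [hD] at hD0
      exact (Finset.sum_eq_zero_iff.mp hD0) l (Finset.mem_univ _)
    have hQ0 : Q = 0 := by
      rw [hQ]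
      apply Finset.sum_eq_zero
      intro l _
      rw [h1 l]
      rfl
    rw [hD0, hQ0] at hi
    simp at hi
    omega
  obtain ⟨hQD, hDcase⟩ := abelian_pm_arith (Nat.card S : ℤ) Q D k (by exact_mod_cast hi)
    (by exact_mod_cast hii)
    (by
      have h1 : ((Nat.card S - 1 : ℕ) : ℤ) = (Nat.card S : ℤ) - 1 := by
        rw [Nat.cast_sub (by omega)]
        simp
      rw [← h1]
      exact_mod_cast hiii)
    (by exact_mod_cast hk1)
    (by
      have h1 : ((Nat.card S - 1 : ℕ) : ℤ) = (Nat.card S : ℤ) - 1 := by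
        rw [Nat.cast_sub (by omega)]
        simp
      rw [← h1]
      exact_mod_cast hk2)
    (by exact_mod_cast hD1)
  have hQD' : Q = D := by exact_mod_cast hQD
  -- all multiplicities are 0 or 1
  have ha01 : ∀ l, a l = 0 ∨ a l = 1 := by
    intro l
    have h1 : ∑ l : IrrCharacter S, a l = ∑ l : IrrCharacter S, a l ^ 2 := by
      rw [← hD, ← hQ, hQD']
    have h2 := (Finset.sum_eq_sum_iff_of_le (s := Finset.univ) (f := a) (g := fun l => a l ^ 2)
      (fun l _ => Nat.le_self_pow (by norm_num) _)).mp h1 l (Finset.mem_univ _)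
    rcases Nat.lt_or_ge (a l) 2 with h3 | h3
    · omega
    · exfalso
      nlinarith
  -- nonvanishing of linear characters
  have hμne : ∀ (l : IrrCharacter S) (x : S), (l : S → ℂ) x ≠ 0 := by
    intro l x h0
    have h1 := irr_linear_norm l.2 (hlin l) x
    rw [h0, norm_zero] at h1
    exact zero_ne_one h1
  have hfinal : ∀ (ε : ℤ) (μ : IrrCharacter S), (ε = 1 ∨ ε = -1) →
      (∀ y, y ≠ 1 → ψ y = (ε : ℂ) * (μ : S → ℂ) y) → ∀ x, (μ : S → ℂ) x * (μ : S → ℂ) x = 1 := by
    intro ε μ hε h1 x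
    by_cases hx : x = 1
    · rw [hx, hlin, mul_one]
    · have h2 := h1 x hx
      have hε2 : (ε : ℂ) * (ε : ℂ) = 1 := by
        rcases hε with rfl | rfl <;> simp
      have hεne : (ε : ℂ) ≠ 0 := by
        rcases hε with rfl | rfl <;> simp
      have h3 : ψ x * ψ x = 1 := by
        rcases hval x hx with h | h | h
        · exfalso
          rw [h] at h2
          exact mul_ne_zero hεne (hμne μ x) h2.symm
        · rw [h, mul_one]
        · rw [h]
          ring
      rw [h2] at h3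
      calc (μ : S → ℂ) x * (μ : S → ℂ) x
          = ((ε : ℂ) * (ε : ℂ)) * ((μ : S → ℂ) x * (μ : S → ℂ) x) := by rw [hε2, one_mul]
        _ = (ε : ℂ) * (μ : S → ℂ) x * ((ε : ℂ) * (μ : S → ℂ) x) := by ring
        _ = 1 := h3
  rcases hDcase with hD1' | hDn
  · -- D = 1 : ψ' is a linear character
    have hD1'' : D = 1 := by exact_mod_cast hD1'
    have hex : ∃ l₁, a l₁ ≠ 0 := by
      by_contra hcon
      push Not at hcon
      rw [hD] at hD1''
      rw [Finset.sum_eq_zero (fun l _ => hcon l)] at hD1''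
      exact zero_ne_one hD1''
    obtain ⟨l₁, hl₁⟩ := hex
    have hl₁' : a l₁ = 1 := (ha01 l₁).resolve_left hl₁
    have hoth : ∀ l, l ≠ l₁ → a l = 0 := by
      intro l hl
      have h1 : a l₁ + ∑ l ∈ Finset.univ.erase l₁, a l = D := by
        rw [hD]
        exact Finset.add_sum_erase Finset.univ a (Finset.mem_univ l₁)
      have h2 : ∑ l ∈ Finset.univ.erase l₁, a l = 0 := by omega
      exact (Finset.sum_eq_zero_iff.mp h2) l (Finset.mem_erase.mpr ⟨hl, Finset.mem_univ _⟩)
    have hval1 : ∀ y, y ≠ 1 → ψ y = ((1 : ℤ) : ℂ) * (l₁ : S → ℂ) y := by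
      intro y hy
      rw [hψa y hy, Finset.sum_eq_single l₁]
      · rw [hl₁']
        simp
      · intro b _ hb
        rw [hoth b hb]
        simp
      · intro hh
        exact absurd (Finset.mem_univ _) hh
    refine ⟨1, M, (l₁ : S → ℂ), Or.inl rfl, l₁.2, hlin l₁, hfinal 1 l₁ (Or.inl rfl) hval1, hval1,
      ?_⟩
    rw [hψ1, hD1'']
    push_cast
    ring
  · -- D = n - 1 : ψ' is the regular character minus a linear character
    have hDn' : D = Nat.card S - 1 := by omega
    have hall : ∀ l, l ≠ l₀ → a l = 1 := by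
      intro l hl
      by_contra hcon
      have hal : a l = 0 := (ha01 l).resolve_right hcon
      have hmem : l ∈ Finset.univ.erase l₀ := Finset.mem_erase.mpr ⟨hl, Finset.mem_univ _⟩
      have h1 : ∑ l ∈ Finset.univ.erase l₀, (1 - a l) + ∑ l ∈ Finset.univ.erase l₀, a l =
          (Finset.univ.erase l₀).card := by
        rw [← Finset.sum_add_distrib, Finset.card_eq_sum_ones]
        apply Finset.sum_congr rfl
        intro b _
        rcases ha01 b with h | h <;> rw [h]
      rw [hDT, hcardT, hDn'] at h1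
      have h2 : ∑ l ∈ Finset.univ.erase l₀, (1 - a l) = 0 := by omega
      have h3 := (Finset.sum_eq_zero_iff.mp h2) l hmem
      omega
    have hvaln : ∀ y, y ≠ 1 → ψ y = ((-1 : ℤ) : ℂ) * (l₀ : S → ℂ) y := by
      intro y hy
      rw [hψa y hy]
      have h1 : ∑ l : IrrCharacter S, (a l : ℂ) * (l : S → ℂ) y =
          ∑ l ∈ Finset.univ.erase l₀, (l : S → ℂ) y := by
        rw [← Finset.add_sum_erase Finset.univ _ (Finset.mem_univ l₀), ha0]
        simp only [Nat.cast_zero, zero_mul, zero_add]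
        apply Finset.sum_congr rfl
        intro b hb
        rw [hall b (Finset.ne_of_mem_erase hb)]
        simp
      have h2 := hρ y hy
      rw [← Finset.add_sum_erase Finset.univ _ (Finset.mem_univ l₀)] at h2
      rw [h1]
      push_cast
      linear_combination h2
    refine ⟨-1, M + 1, (l₀ : S → ℂ), Or.inr rfl, l₀.2, hlin l₀,
      hfinal (-1) l₀ (Or.inr rfl) hvaln, hvaln, ?_⟩
    rw [hψ1, hDn', Nat.cast_sub (by omega)]
    push_cast
    ring

end Cfsg.Agent.Lib.Helper83
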