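import Mathlib
import Cfsg.Agent.Lib.Helper22.HPDefs
import Cfsg.Agent.Lib.Helper83.IrrBasic
import Cfsg.Agent.Lib.Helper82.PQ
import Cfsg.Agent.Lib.Helper67.BFZCENT

/-!
# S4504 (helper22's HP project): piece HP-LB

The basic inequality `(e+1) s(φ) ≤ e φ(1) |K|`, pure arithmetic from the five types.
-/

set_option autoImplicit false
set_option linter.style.haveILetI false
set_option linter.unusedVariables false

namespace Cfsg.Agent.Lib.Helper83.HPT

open Cfsg Cfsg.Agent.Lib.Helper22.BFD Cfsg.Agent.Lib.Helper22.HPD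
open scoped ComplexConjugate

universe u

/-- PIECE LB (the basic inequality `(e+1) s(φ) ≤ e φ(1) |K|`; pure arithmetic from TYPES) -/
theorem hp_lb {G : Type u} [Group G] [Fintype G] (p : ℕ) [Fact p.Prime] (e : ℕ)
    (he : 2 * e + 1 = p) (z : G) (hz : orderOf z = p) (hEf : (Ef p z).card = e)
    (φ : IrrCharacter G) (hlin : charDegree φ.1 ≠ 1)
    (htype : (∀ t : ZMod p, t ≠ 0 → ∑ y ∈ Kf p z, φ.1 (z ^ t.val * y) = 0) ∨
    ((∀ t : ZMod p, t ≠ 0 → ∀ y ∈ Kf p z, φ.1 (z ^ t.val * y) = 1) ∧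
      ∃ m : ℕ, 1 ≤ m ∧ charDegree φ.1 + (p - 1) = p * m) ∨
    ((∀ t : ZMod p, t ≠ 0 → ∀ y ∈ Kf p z, φ.1 (z ^ t.val * y) = -1) ∧
      ∃ m : ℕ, charDegree φ.1 = p * m + (p - 1)) ∨
    ((∀ t : ZMod p, t ≠ 0 → ∀ y ∈ Kf p z, φ.1 (z ^ t.val * y) = φ.1 (z ^ t.val)) ∧
      ∃ m : ℕ, 1 ≤ m ∧ charDegree φ.1 + (Ef p z).card = p * m ∧
        ∑ t ∈ Finset.univ.filter (fun t : ZMod p => t ≠ 0), φ.1 (z ^ t.val) =
          ((Ef p z).card : ℂ)) ∨
    ((∀ t : ZMod p, t ≠ 0 → ∀ y ∈ Kf p z, φ.1 (z ^ t.val * y) = φ.1 (z ^ t.val)) ∧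
      ∃ m : ℕ, charDegree φ.1 = p * m + (Ef p z).card ∧
        ∑ t ∈ Finset.univ.filter (fun t : ZMod p => t ≠ 0), φ.1 (z ^ t.val) =
          -((Ef p z).card : ℂ))) :
    ∃ s : ℝ, ∑ t ∈ Finset.univ.filter (fun t : ZMod p => t ≠ 0),
        ∑ y ∈ Kf p z, φ.1 (z ^ t.val * y) = (s : ℂ) ∧
      ((e : ℝ) + 1) * s ≤ (e : ℝ) * charDegree φ.1 * (Kf p z).card ∧
      (((e : ℝ) + 1) * s = (e : ℝ) * charDegree φ.1 * (Kf p z).card →
        charDegree φ.1 ≤ p + 1) := by
  classical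
  have hp : p.Prime := Fact.out
  have he1 : 1 ≤ e := by
    by_contra h
    have h0 : e = 0 := by omega
    subst h0
    exact hp.ne_one (by omega)
  have hK1 : (1 : G) ∈ Kf p z := by
    unfold Kf
    rw [Finset.mem_filter]
    refine ⟨Finset.mem_univ _, by simp, ?_⟩
    rw [orderOf_one, Nat.dvd_one]
    exact hp.ne_one
  have hKpos : 1 ≤ (Kf p z).card := Finset.card_pos.mpr ⟨1, hK1⟩
  have hcardT : (Finset.univ.filter (fun t : ZMod p => t ≠ 0)).card = 2 * e := by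
    rw [Finset.filter_ne', Finset.card_erase_of_mem (Finset.mem_univ _), Finset.card_univ,
      ZMod.card]
    omega
  set d := charDegree φ.1 with hd
  set K := (Kf p z).card with hKdef
  have hKR : (1 : ℝ) ≤ (K : ℝ) := by exact_mod_cast hKpos
  have heR : (1 : ℝ) ≤ (e : ℝ) := by exact_mod_cast he1
  have hdR : (0 : ℝ) ≤ (d : ℝ) := Nat.cast_nonneg _
  have hpos : 0 < (e : ℝ) * (K : ℝ) := by positivity
  have hpR : (p : ℝ) = 2 * (e : ℝ) + 1 := by
    rw [← he]; push_cast; ring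
  rcases htype with h | ⟨h, m, hm1, hm⟩ | ⟨h, m, hm⟩ | ⟨h, m, hm1, hm, hsum⟩ | ⟨h, m, hm, hsum⟩
  · -- type 1: flat
    refine ⟨0, ?_, ?_, ?_⟩
    · rw [Complex.ofReal_zero]
      exact Finset.sum_eq_zero fun t ht => h t (Finset.mem_filter.mp ht).2
    · rw [mul_zero]; positivity
    · intro heq
      rw [mul_zero] at heq
      have h0 : (e : ℝ) * (K : ℝ) * (d : ℝ) = 0 := by linear_combination (-1 : ℝ) * heq
      rcases mul_eq_zero.mp h0 with h1 | h1
      · exact absurd h1 hpos.ne'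
      · have : d = 0 := by exact_mod_cast h1
        omega
  · -- type 2: constant 1
    have hm2 : 2 ≤ m := by
      by_contra hlt
      have hm1' : m = 1 := by omega
      subst hm1'
      apply hlin
      have hp1 : 1 ≤ p := hp.one_lt.le
      omega
    have hdge : 2 * e + 2 ≤ d := by
      have h2 : p * 2 ≤ p * m := Nat.mul_le_mul_left p hm2
      omega
    have hdgeR : 2 * (e : ℝ) + 2 ≤ (d : ℝ) := by exact_mod_cast hdge
    refine ⟨2 * (e : ℝ) * (K : ℝ), ?_, ?_, ?_⟩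
    · have h1 : ∀ t ∈ Finset.univ.filter (fun t : ZMod p => t ≠ 0),
          ∑ y ∈ Kf p z, φ.1 (z ^ t.val * y) = (K : ℂ) := by
        intro t ht
        rw [Finset.sum_congr rfl (fun y hy => h t (Finset.mem_filter.mp ht).2 y hy)]
        simp [hKdef]
      rw [Finset.sum_congr rfl h1, Finset.sum_const, hcardT]
      push_cast
      simp
    · nlinarith [mul_nonneg hpos.le (sub_nonneg.mpr hdgeR)]
    · intro heq
      have h0 : (e : ℝ) * (K : ℝ) * ((d : ℝ) - 2 * (e : ℝ) - 2) = 0 := by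
        linear_combination (-1 : ℝ) * heq
      rcases mul_eq_zero.mp h0 with h1 | h1
      · exact absurd h1 hpos.ne'
      · have h2 : (d : ℝ) = ((2 * e + 2 : ℕ) : ℝ) := by push_cast; linarith
        have h3 : d = 2 * e + 2 := by exact_mod_cast h2
        omega
  · -- type 3: constant -1
    refine ⟨-(2 * (e : ℝ) * (K : ℝ)), ?_, ?_, ?_⟩
    · have h1 : ∀ t ∈ Finset.univ.filter (fun t : ZMod p => t ≠ 0),
          ∑ y ∈ Kf p z, φ.1 (z ^ t.val * y) = -(K : ℂ) := by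
        intro t ht
        rw [Finset.sum_congr rfl (fun y hy => h t (Finset.mem_filter.mp ht).2 y hy)]
        simp [hKdef]
      rw [Finset.sum_congr rfl h1, Finset.sum_const, hcardT]
      push_cast
      simp
    · nlinarith [mul_nonneg hpos.le hdR, mul_pos hpos (by linarith : (0 : ℝ) < (e : ℝ) + 1)]
    · intro heq
      exfalso
      nlinarith [mul_nonneg hpos.le hdR, mul_pos hpos (by linarith : (0 : ℝ) < (e : ℝ) + 1)]
  · -- type 4: sum = |E|
    rw [hEf] at hm hsum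
    have hdge : e + 1 ≤ d := by
      have h2 : p * 1 ≤ p * m := Nat.mul_le_mul_left p hm1
      omega
    have hdgeR : (e : ℝ) + 1 ≤ (d : ℝ) := by exact_mod_cast hdge
    refine ⟨(e : ℝ) * (K : ℝ), ?_, ?_, ?_⟩
    · have h1 : ∀ t ∈ Finset.univ.filter (fun t : ZMod p => t ≠ 0),
          ∑ y ∈ Kf p z, φ.1 (z ^ t.val * y) = (K : ℂ) * φ.1 (z ^ t.val) := by
        intro t ht
        rw [Finset.sum_congr rfl (fun y hy => h t (Finset.mem_filter.mp ht).2 y hy)]
        simp [hKdef]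
      rw [Finset.sum_congr rfl h1, ← Finset.mul_sum, hsum]
      push_cast
      ring
    · nlinarith [mul_nonneg hpos.le (sub_nonneg.mpr hdgeR)]
    · intro heq
      have h0 : (e : ℝ) * (K : ℝ) * ((d : ℝ) - (e : ℝ) - 1) = 0 := by
        linear_combination (-1 : ℝ) * heq
      rcases mul_eq_zero.mp h0 with h1 | h1
      · exact absurd h1 hpos.ne'
      · have h2 : (d : ℝ) = ((e + 1 : ℕ) : ℝ) := by push_cast; linarith
        have h3 : d = e + 1 := by exact_mod_cast h2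
        omega
  · -- type 5: sum = -|E|
    rw [hEf] at hm hsum
    refine ⟨-((e : ℝ) * (K : ℝ)), ?_, ?_, ?_⟩
    · have h1 : ∀ t ∈ Finset.univ.filter (fun t : ZMod p => t ≠ 0),
          ∑ y ∈ Kf p z, φ.1 (z ^ t.val * y) = (K : ℂ) * φ.1 (z ^ t.val) := by
        intro t ht
        rw [Finset.sum_congr rfl (fun y hy => h t (Finset.mem_filter.mp ht).2 y hy)]
        simp [hKdef]
      rw [Finset.sum_congr rfl h1, ← Finset.mul_sum, hsum]
      push_cast
      ring
    · nlinarith [mul_nonneg hpos.le hdR, mul_pos hpos (by linarith : (0 : ℝ) < (e : ℝ) + 1)]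
    · intro heq
      exfalso
      nlinarith [mul_nonneg hpos.le hdR, mul_pos hpos (by linarith : (0 : ℝ) < (e : ℝ) + 1)]

end Cfsg.Agent.Lib.Helper83.HPT
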