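import Mathlib
import Cfsg.Agent.Lib.Helper22.HPDefs
import Cfsg.Agent.Lib.Helper22.HPDefs2
import Cfsg.Agent.Lib.Helper83.Linear

/-!
# S4504 (helper22's HP project): piece HP-STAR-FIN, the final summation (S8)

`hp_star_core`: the formula of `hp_star` from the decompositions of `Pi1`, `Pi2` and the
conclusion of the counting piece `hp_count`.
-/

set_option autoImplicit false
set_option linter.style.haveILetI false
set_option linter.unusedVariables false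

namespace Cfsg.Agent.Lib.Helper83.HPT

open Cfsg Cfsg.Agent.Lib.Helper22.BFD Cfsg.Agent.Lib.Helper22.HPD
open scoped ComplexConjugate

universe u

/-- the trivial character is trivial on the centre -/
theorem star_trivZ_triv {G : Type u} [Group G] :
    TrivZ (Cfsg.Agent.Lib.Helper83.trivIrr G).1 := fun _ _ => rfl

/-- an irreducible character with constant value `1` is the trivial one -/
theorem star_eq_triv {G : Type u} [Group G] (φ : IrrCharacter G) (h : φ.1 = fun _ => 1) :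
    φ = Cfsg.Agent.Lib.Helper83.trivIrr G := Subtype.ext h

open Classical in
/-- the final summation (S8) of STAR -/
theorem hp_star_core {G : Type u} [Group G] [Fintype G] [Fintype (IrrCharacter G)]
    (p : ℕ) [Fact p.Prime] (χ : IrrCharacter G) (e : ℕ) (k : ℕ) (hk : GalExp p G k)
    (z : G) (g : G) (hg : ¬ p ∣ orderOf g) (m₁ m₂ : IrrCharacter G → ℕ)
    (hP1 : ∀ g : G, Pi1 χ.1 g = ∑ φ : IrrCharacter G, (m₁ φ : ℂ) * φ.1 g)
    (hP2 : ∀ g : G, Pi2 χ.1 k g = ∑ φ : IrrCharacter G, (m₂ φ : ℂ) * φ.1 g)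
    (hT1 : ∀ φ : IrrCharacter G, m₁ φ ≠ 0 → TrivZ φ.1)
    (hT2 : ∀ φ : IrrCharacter G, m₂ φ ≠ 0 → TrivZ φ.1)
    (hgc1 : ∀ φ : IrrCharacter G, gc hk (gc hk φ) = φ)
    (hgc3 : ∀ φ : IrrCharacter G, TrivZ φ.1 → TrivZ (gc hk φ).1)
    (hcount : ∃ φ₀ : IrrCharacter G, TrivZ φ₀.1 ∧ gc hk φ₀ ≠ φ₀ ∧
      (∀ φ : IrrCharacter G, TrivZ φ.1 → φ ≠ φ₀ → φ ≠ gc hk φ₀ →
        φ.1 z * (φ.1 z + φ.1 (z ^ k)) / φ.1 1 =
          (if φ.1 = (fun _ => 1) then 2 - 1 / ((e : ℂ) + 1) else 0) +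
            (m₁ φ : ℂ) / ((e : ℂ) + 1) + (m₂ φ : ℂ) / (e : ℂ)) ∧
      φ₀.1 z * (φ₀.1 z + φ₀.1 (z ^ k)) / φ₀.1 1 +
          (gc hk φ₀).1 z * ((gc hk φ₀).1 z + (gc hk φ₀).1 (z ^ k)) / (gc hk φ₀).1 1 =
        ((m₁ φ₀ : ℂ) + (m₁ (gc hk φ₀) : ℂ)) / ((e : ℂ) + 1) +
          ((m₂ φ₀ : ℂ) + (m₂ (gc hk φ₀) : ℂ)) / (e : ℂ)) :
    ∑ φ ∈ Finset.univ.filter (fun φ : IrrCharacter G => TrivZ φ.1),
        φ.1 z * (φ.1 z + φ.1 (z ^ k)) * conj (φ.1 g) / φ.1 1 =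
      2 + (((‖χ.1 g‖ : ℝ) : ℂ) ^ 2 - 1) / ((e : ℂ) + 1) + ((‖χ.1 g‖ : ℝ) : ℂ) ^ 2 / (e : ℂ) := by
  obtain ⟨φ₀, hφ₀T, hne, hoth, hpair⟩ := hcount
  set ψ₀ := gc hk φ₀ with hψ₀
  have hψ₀T : TrivZ ψ₀.1 := hgc3 φ₀ hφ₀T
  have hgk : g ^ k = g := hk.reg g hg
  -- the pair consists of non-trivial characters
  have hφ₀1 : φ₀.1 ≠ fun _ => 1 := by
    intro h
    apply hne
    apply Subtype.ext
    funext x
    rw [gc_apply, h]
  have hψ₀1 : ψ₀.1 ≠ fun _ => 1 := by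
    intro h
    have h2 : gc hk ψ₀ = ψ₀ := by
      apply Subtype.ext
      funext x
      rw [gc_apply, h]
    rw [hψ₀, hgc1 φ₀] at h2
    exact hne h2.symm
  have hψg : ψ₀.1 g = φ₀.1 g := by rw [hψ₀, gc_apply, hgk]
  -- the two weights
  set w : IrrCharacter G → ℂ := fun φ => φ.1 z * (φ.1 z + φ.1 (z ^ k)) / φ.1 1 with hw
  set c : IrrCharacter G → ℂ := fun φ =>
    (if φ.1 = (fun _ => 1) then 2 - 1 / ((e : ℂ) + 1) else 0) +
      (m₁ φ : ℂ) / ((e : ℂ) + 1) + (m₂ φ : ℂ) / (e : ℂ) with hc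
  set I := Finset.univ.filter (fun φ : IrrCharacter G => TrivZ φ.1) with hI
  have hφ₀I : φ₀ ∈ I := Finset.mem_filter.mpr ⟨Finset.mem_univ _, hφ₀T⟩
  have hψ₀I : ψ₀ ∈ I := Finset.mem_filter.mpr ⟨Finset.mem_univ _, hψ₀T⟩
  have hsplit : ∀ f : IrrCharacter G → ℂ,
      ∑ φ ∈ I, f φ = f φ₀ + f ψ₀ + ∑ φ ∈ (I.erase φ₀).erase ψ₀, f φ := by
    intro f
    have hψ₀I' : ψ₀ ∈ I.erase φ₀ := Finset.mem_erase.mpr ⟨hne, hψ₀I⟩
    rw [← Finset.add_sum_erase I f hφ₀I, ← Finset.add_sum_erase (I.erase φ₀) f hψ₀I', add_assoc]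
  have h1 : ∑ φ ∈ I, φ.1 z * (φ.1 z + φ.1 (z ^ k)) * conj (φ.1 g) / φ.1 1 =
      ∑ φ ∈ I, w φ * conj (φ.1 g) := by
    refine Finset.sum_congr rfl fun φ _ => ?_
    rw [hw]
    ring
  have h2 : ∑ φ ∈ I, w φ * conj (φ.1 g) = ∑ φ ∈ I, c φ * conj (φ.1 g) := by
    rw [hsplit, hsplit (fun φ => c φ * conj (φ.1 g))]
    congr 1
    · rw [hψg, ← add_mul, ← add_mul]
      congr 1
      have hc0 : c φ₀ + c ψ₀ = ((m₁ φ₀ : ℂ) + (m₁ ψ₀ : ℂ)) / ((e : ℂ) + 1) +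
          ((m₂ φ₀ : ℂ) + (m₂ ψ₀ : ℂ)) / (e : ℂ) := by
        rw [hc]
        simp only [if_neg hφ₀1, if_neg hψ₀1]
        ring
      rw [hc0]
      exact hpair
    · refine Finset.sum_congr rfl fun φ hφ => ?_
      have hφ1 := Finset.mem_erase.mp hφ
      have hφ2 := Finset.mem_erase.mp hφ1.2
      have hφT : TrivZ φ.1 := (Finset.mem_filter.mp hφ2.2).2
      have := hoth φ hφT hφ2.1 hφ1.1
      rw [hw, hc]
      simp only
      rw [this]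
  -- the three sums
  have hx : conj (χ.1 g) * χ.1 g = (((‖χ.1 g‖ : ℝ) : ℂ)) ^ 2 := by
    rw [mul_comm, Complex.mul_conj, Complex.normSq_eq_norm_sq]
    push_cast
    ring
  have hs1 : ∑ φ ∈ I, (m₁ φ : ℂ) * conj (φ.1 g) = (((‖χ.1 g‖ : ℝ) : ℂ)) ^ 2 := by
    have h3 : ∑ φ ∈ I, (m₁ φ : ℂ) * conj (φ.1 g) =
        ∑ φ : IrrCharacter G, (m₁ φ : ℂ) * conj (φ.1 g) := by
      apply Finset.sum_subset (Finset.subset_univ _)
      intro φ _ hφ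
      have hm0 : m₁ φ = 0 := by
        by_contra hm
        exact hφ (Finset.mem_filter.mpr ⟨Finset.mem_univ _, hT1 φ hm⟩)
      rw [hm0, Nat.cast_zero, zero_mul]
    have h4 : ∑ φ : IrrCharacter G, (m₁ φ : ℂ) * conj (φ.1 g) = conj (Pi1 χ.1 g) := by
      rw [hP1 g, map_sum]
      refine Finset.sum_congr rfl fun φ _ => ?_
      rw [map_mul, Complex.conj_natCast]
    rw [h3, h4, ← hx]
    unfold Pi1
    rw [map_mul, Complex.conj_conj]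
  have hs2 : ∑ φ ∈ I, (m₂ φ : ℂ) * conj (φ.1 g) = (((‖χ.1 g‖ : ℝ) : ℂ)) ^ 2 := by
    have h3 : ∑ φ ∈ I, (m₂ φ : ℂ) * conj (φ.1 g) =
        ∑ φ : IrrCharacter G, (m₂ φ : ℂ) * conj (φ.1 g) := by
      apply Finset.sum_subset (Finset.subset_univ _)
      intro φ _ hφ
      have hm0 : m₂ φ = 0 := by
        by_contra hm
        exact hφ (Finset.mem_filter.mpr ⟨Finset.mem_univ _, hT2 φ hm⟩)
      rw [hm0, Nat.cast_zero, zero_mul]
    have h4 : ∑ φ : IrrCharacter G, (m₂ φ : ℂ) * conj (φ.1 g) = conj (Pi2 χ.1 k g) := by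
      rw [hP2 g, map_sum]
      refine Finset.sum_congr rfl fun φ _ => ?_
      rw [map_mul, Complex.conj_natCast]
    rw [h3, h4, ← hx]
    unfold Pi2
    rw [map_mul, Complex.conj_conj, hgk]
  have hs0 : ∑ φ ∈ I, (if φ.1 = (fun _ => 1) then 2 - 1 / ((e : ℂ) + 1) else 0) *
      conj (φ.1 g) = 2 - 1 / ((e : ℂ) + 1) := by
    have htI : Cfsg.Agent.Lib.Helper83.trivIrr G ∈ I :=
      Finset.mem_filter.mpr ⟨Finset.mem_univ _, star_trivZ_triv⟩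
    rw [Finset.sum_eq_single_of_mem (Cfsg.Agent.Lib.Helper83.trivIrr G) htI]
    · have : (Cfsg.Agent.Lib.Helper83.trivIrr G).1 = fun _ => 1 := rfl
      rw [if_pos this, this]
      simp
    · intro φ _ hφ
      have : ¬ (φ.1 = fun _ => 1) := fun h => hφ (star_eq_triv φ h)
      rw [if_neg this, zero_mul]
  have h3 : ∑ φ ∈ I, c φ * conj (φ.1 g) =
      (2 - 1 / ((e : ℂ) + 1)) + (((‖χ.1 g‖ : ℝ) : ℂ)) ^ 2 / ((e : ℂ) + 1) +
        (((‖χ.1 g‖ : ℝ) : ℂ)) ^ 2 / (e : ℂ) := by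
    have h4 : ∀ φ ∈ I, c φ * conj (φ.1 g) =
        (if φ.1 = (fun _ => 1) then 2 - 1 / ((e : ℂ) + 1) else 0) * conj (φ.1 g) +
          ((m₁ φ : ℂ) * conj (φ.1 g)) / ((e : ℂ) + 1) +
          ((m₂ φ : ℂ) * conj (φ.1 g)) / (e : ℂ) := by
      intro φ _
      rw [hc]
      ring
    rw [Finset.sum_congr rfl h4, Finset.sum_add_distrib, Finset.sum_add_distrib,
      ← Finset.sum_div, ← Finset.sum_div, hs0, hs1, hs2]
  rw [h1, h2, h3]
  ring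

end Cfsg.Agent.Lib.Helper83.HPT
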