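import Mathlib
import Cfsg.Agent.Lib.Helper22.HPDefs
import Cfsg.Agent.Lib.Helper22.HPDefs2
import Cfsg.Agent.Lib.Helper83.Linear
import Cfsg.Agent.Lib.Helper82.CharCore
import Cfsg.Agent.Lib.Helper83.HPSTARCORE
import Cfsg.Agent.Lib.Helper16.HPDEC
import Cfsg.Agent.Lib.Helper23.HPGC
import Cfsg.Agent.Lib.Helper6.HPBUDGET
import Cfsg.Agent.Lib.Helper22.HPCOUNT
import Cfsg.Agent.Lib.Helper40.HPMULT
import Cfsg.Agent.Lib.Helper68.HPUNIQ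

/-!
# S4504 (helper22's HP project): piece HP-STAR-FIN, the glue

`hp_star_glue`: the statement of `hp_star` with the conclusions of LAN1 and LAN2 as hypotheses;
assembly of DEC, GC, BUDGET, UNIQ, MULT (`mult_core`), COUNT and the final summation
`hp_star_core`.
-/

set_option autoImplicit false
set_option linter.style.haveILetI false
set_option linter.unusedVariables false

namespace Cfsg.Agent.Lib.Helper83.HPT

open Cfsg Cfsg.Agent.Lib.Helper22.BFD Cfsg.Agent.Lib.Helper22.HPD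
open scoped ComplexConjugate

universe u

open Classical in
/-- `hp_star` from the conclusions of LAN1 and LAN2 -/
theorem hp_star_glue {G : Type u} [Group G] [Fintype G] [Fintype (IrrCharacter G)]
    (p : ℕ) [Fact p.Prime] (hp5 : 5 ≤ p)
    (hdiv : p ∣ Nat.card G) (hsq : ¬ p ^ 2 ∣ Nat.card G)
    (hnn : ∀ H : Subgroup G, H.Normal → Nat.card H ≠ p)
    (χ : IrrCharacter G)
    (e : ℕ) (he : charDegree χ.1 = e) (hdeg : 2 * e + 1 = p) (z : G) (ζ : ℂ)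
    (hHP : HP p ζ z χ.1) (k : ℕ) (hk : GalExp p G k)
    (hlan1 : ∀ φ : IrrCharacter G, φ.1 ≠ (fun _ => 1) → classInner (Pi1 χ.1) φ.1 ≠ 0 →
      TrivZ φ.1 ∧ ((IsEp p z φ.1 ∧ charDegree φ.1 = p + 1) ∨
        (IsXp p ζ z k φ.1 ∧ charDegree φ.1 = e + 1)))
    (hlan2 : ∀ φ : IrrCharacter G, classInner (Pi2 χ.1 k) φ.1 ≠ 0 →
      TrivZ φ.1 ∧ ((IsEm p z φ.1 ∧ charDegree φ.1 = p - 1) ∨
        (IsXm p ζ z k φ.1 ∧ charDegree φ.1 = e)))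
    (g : G) (hg : ¬ p ∣ orderOf g) :
    ∑ φ ∈ Finset.univ.filter (fun φ : IrrCharacter G => TrivZ φ.1),
        φ.1 z * (φ.1 z + φ.1 (z ^ k)) * conj (φ.1 g) / φ.1 1 =
      2 + (((‖χ.1 g‖ : ℝ) : ℂ) ^ 2 - 1) / ((e : ℂ) + 1) + ((‖χ.1 g‖ : ℝ) : ℂ) ^ 2 / (e : ℂ) := by
  have he2 : 2 ≤ e := by omega
  obtain ⟨m₁, m₂, hm1, hm2, hP1, hP2, h11, hd1, hd2, hn⟩ :=
    Cfsg.Agent.Lib.Helper16.HPT.hp_dec p χ e he k hk
  obtain ⟨hgc1, hgc2, hgc3, -⟩ := Cfsg.Agent.Lib.Helper23.HPT.hp_gc p hsq hnn χ.1 z ζ hHP k hk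
  have hl1 : ∀ φ : IrrCharacter G, φ.1 ≠ (fun _ => 1) → m₁ φ ≠ 0 →
      TrivZ φ.1 ∧ ((IsEp p z φ.1 ∧ charDegree φ.1 = p + 1) ∨
        (IsXp p ζ z k φ.1 ∧ charDegree φ.1 = e + 1)) := by
    intro φ h1 hm
    refine hlan1 φ h1 ?_
    rw [hm1 φ]
    exact_mod_cast hm
  have hl2 : ∀ φ : IrrCharacter G, m₂ φ ≠ 0 →
      TrivZ φ.1 ∧ ((IsEm p z φ.1 ∧ charDegree φ.1 = p - 1) ∨
        (IsXm p ζ z k φ.1 ∧ charDegree φ.1 = e)) := by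
    intro φ hm
    refine hlan2 φ ?_
    rw [hm2 φ]
    exact_mod_cast hm
  have hmu : ∀ φ : IrrCharacter G, φ.1 ≠ (fun _ => 1) → m₁ φ ≠ 0 → m₁ φ = 1 := by
    intro φ h1 hm
    have hm' : classInner (Pi1 χ.1) φ.1 ≠ 0 := by
      rw [hm1 φ]
      exact_mod_cast hm
    have h := Cfsg.Agent.Lib.Helper40.HPT.mult_core p hp5 hdiv hnn χ e he hdeg z ζ hHP k hk φ
      (hlan1 φ h1 hm') hm'
    rw [hm1 φ] at h
    exact_mod_cast h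
  have hbud := (Cfsg.Agent.Lib.Helper6.HPT.hp_budget p hsq hnn χ z ζ hHP).1
  have huq := (Cfsg.Agent.Lib.Helper68.HPT.hp_uniq p hp5 hdiv hsq hnn χ z ζ hHP k hk).1
  have hdg : ∀ φ : IrrCharacter G, φ.1 1 = (charDegree φ.1 : ℂ) := fun φ =>
    (Cfsg.Agent.Lib.Helper82.irr_charDegree φ).1.symm
  have hT1 : ∀ φ : IrrCharacter G, m₁ φ ≠ 0 → TrivZ φ.1 := by
    intro φ hm
    by_cases h1 : φ.1 = fun _ => 1
    · intro u _
      rw [h1]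
    · exact (hl1 φ h1 hm).1
  have hT2 : ∀ φ : IrrCharacter G, m₂ φ ≠ 0 → TrivZ φ.1 := fun φ hm => (hl2 φ hm).1
  have hcount := Cfsg.Agent.Lib.Helper22.HPT.hp_count p hdiv e he2 hdeg z ζ hHP.hζ k hk m₁ m₂
    h11 hd1 hd2 hn hl1 hl2 hmu hbud huq hgc1 hgc2 hgc3 hHP.hz hdg
  exact hp_star_core p χ e k hk z g hg m₁ m₂ hP1 hP2 hT1 hT2 hgc1 hgc3 hcount

end Cfsg.Agent.Lib.Helper83.HPT
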