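import Mathlib
import Cfsg.Agent.Lib.Helper78.HarDefs

/-!
# S1235, piece ELAB (helper78's HAR project): `D₂ × V₄` is elementary abelian of order 16
-/

set_option autoImplicit false

namespace Cfsg.Agent.Lib.Helper83.Har

open Cfsg.Agent.Lib.Helper78.Har

theorem dih_two_sq (x : DihedralGroup 2) : x ^ 2 = 1 := by
  revert x
  decide

-- PIECE ELAB
theorem e16_of_dihedral_two {G : Type*} [Group G] [Finite G] (T D B : Subgroup G)
    (hprod : Cfsg.IsInternalDirectProduct D B T) (hB : IsKleinFour B)
    (e : D ≃* DihedralGroup 2) : Nat.card T = 16 ∧ ∀ t ∈ T, t ^ 2 = 1 := by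
  obtain ⟨hDT, hBT, hcomm, hinf, hsup⟩ := hprod
  have hcomm' : ∀ (d : D) (b : B), Commute (D.subtype d) (B.subtype b) :=
    fun d b => hcomm d d.2 b b.2
  have hinj : Function.Injective (MonoidHom.noncommCoprod D.subtype B.subtype hcomm') := by
    rw [MonoidHom.noncommCoprod_injective]
    refine ⟨D.subtype_injective, B.subtype_injective, ?_⟩
    rw [Subgroup.range_subtype, Subgroup.range_subtype, disjoint_iff]
    exact hinf
  have hrange : (MonoidHom.noncommCoprod D.subtype B.subtype hcomm').range = T := by
    rw [MonoidHom.noncommCoprod_range, Subgroup.range_subtype, Subgroup.range_subtype]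
    exact hsup
  have hD4 : Nat.card D = 4 := by
    rw [Nat.card_congr e.toEquiv, DihedralGroup.nat_card]
  have hB4 : Nat.card B = 4 := IsKleinFour.card_four
  constructor
  · rw [← hrange, Nat.card_congr (MonoidHom.ofInjective hinj).toEquiv.symm, Nat.card_prod, hD4,
      hB4]
  · intro t ht
    rw [← hrange] at ht
    obtain ⟨⟨d, b⟩, rfl⟩ := ht
    rw [MonoidHom.noncommCoprod_apply, (hcomm' d b).mul_pow]
    have hd : d ^ 2 = 1 := by
      apply e.injective
      rw [map_pow, map_one]
      exact dih_two_sq (e d)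
    have hb : b ^ 2 = 1 := by
      have h1 : Monoid.exponent B = 2 := IsKleinFour.exponent_two
      rw [← h1]
      exact Monoid.pow_exponent_eq_one b
    have hd' : (D.subtype d) ^ 2 = 1 := by
      rw [← map_pow, hd, map_one]
    have hb' : (B.subtype b) ^ 2 = 1 := by
      rw [← map_pow, hb, map_one]
    rw [hd', hb', mul_one]

end Cfsg.Agent.Lib.Helper83.Har
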