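import Mathlib
import Cfsg.Agent.Lib.Helper78.HarDefs

/-!
# S1235, piece RED (helper78's HAR project): sections of exponent two of order exactly 32 suffice
-/

set_option autoImplicit false
set_option linter.style.haveILetI false

namespace Cfsg.Agent.Lib.Helper83.Har

open Cfsg.Agent.Lib.Helper78.Har

-- PIECE RED
theorem elemSec_of_no32 {X : Type*} [Group X] [Finite X] (hX : IsPGroup 2 X)
    (h : ∀ P M : Subgroup X, M ≤ P → (∀ x ∈ P, ∀ m ∈ M, x * m * x⁻¹ ∈ M) → (∀ x ∈ P, x ^ 2 ∈ M) →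
      Nat.card P = 32 * Nat.card M → False) : ElemSecLE X 16 := by
  intro P M hMP hnorm hsq
  by_contra hcon
  have hlt : 16 * Nat.card M < Nat.card P := not_le.mp hcon
  haveI : Fact (Nat.Prime 2) := ⟨Nat.prime_two⟩
  obtain ⟨a, ha⟩ := IsPGroup.iff_card.mp (hX.to_subgroup P)
  obtain ⟨b, hb⟩ := IsPGroup.iff_card.mp (hX.to_subgroup M)
  have hab : b + 5 ≤ a := by
    rw [ha, hb] at hlt
    by_contra hc
    have h1 : 2 ^ a ≤ 2 ^ (b + 4) := Nat.pow_le_pow_right (by norm_num) (by omega)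
    rw [pow_add] at h1
    omega
  have hcardsub : Nat.card (M.subgroupOf P) = 2 ^ b := by
    rw [← hb]
    exact Nat.card_congr (Subgroup.subgroupOfEquivOfLe hMP).toEquiv
  have hdvd : 2 ^ (b + 5) ∣ Nat.card P := by
    rw [ha]
    exact pow_dvd_pow 2 hab
  obtain ⟨H', hH'card, hH'le⟩ :=
    Sylow.exists_subgroup_card_pow_prime_le 2 hdvd (M.subgroupOf P) hcardsub (by omega)
  refine h (H'.map P.subtype) M ?_ ?_ ?_ ?_
  · intro m hm
    exact ⟨⟨m, hMP hm⟩, hH'le (by simpa [Subgroup.mem_subgroupOf] using hm), rfl⟩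
  · rintro x ⟨y, hy, rfl⟩ m hm
    exact hnorm y y.2 m hm
  · rintro x ⟨y, hy, rfl⟩
    exact hsq y y.2
  · rw [Subgroup.card_map_of_injective P.subtype_injective, hH'card, hb, pow_add]
    ring

end Cfsg.Agent.Lib.Helper83.Har
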