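import Cfsg.Agent.Lib.Helper96.HyDefs
import Cfsg.Agent.Lib.Helper77.SpFixCnt

/-!
Project HY (S5992, helper96), piece FIXCNT: the number of hyperbolic `m`-subspaces of `V` is
congruent mod `r` to the number of hyperbolic `m`-subspaces of the fixed space of an isometry `T`
with `T ^ r = 1`, when `m` is smaller than the block size.
-/

set_option autoImplicit false
set_option linter.unusedSectionVars false
set_option linter.unusedVariables false

namespace Cfsg.Agent.Lib.Helper83.Hy

open Module Polynomial Cfsg.Agent.Lib.Helper96.Sp Cfsg.Agent.Lib.Helper96.Hy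
  Cfsg.Agent.Lib.Helper47

universe u

section Abstract

variable {F : Type u} [Field F] [Fintype F] {V : Type u} [AddCommGroup V] [Module F V]
  [FiniteDimensional F V] {B : LinearMap.BilinForm F V}

theorem fixcnt_hyp_map_subtype (K : Submodule F V) (W' : Submodule F K) :
    Hyp B (W'.map K.subtype) ↔ Hyp (B.restrict K) W' := by
  constructor
  · rintro ⟨hnd, U, hUW, hUU, hfin⟩
    refine ⟨(h77_nd_map_subtype K W').mp hnd, U.comap K.subtype, ?_, ?_, ?_⟩
    · intro x hx
      obtain ⟨y, hy, hyx⟩ := hUW (Submodule.mem_comap.mp hx)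
      have hxy : y = x := Subtype.ext hyx
      rw [← hxy]
      exact hy
    · intro u hu v hv
      exact hUU (u : V) (Submodule.mem_comap.mp hu) (v : V) (Submodule.mem_comap.mp hv)
    · have h1 : (U.comap K.subtype).map K.subtype = U := by
        rw [Submodule.map_comap_subtype]
        exact inf_eq_right.mpr (hUW.trans (Submodule.map_subtype_le K W'))
      rw [← Submodule.finrank_map_subtype_eq K (U.comap K.subtype), h1, hfin,
        Submodule.finrank_map_subtype_eq]
  · rintro ⟨hnd, U', hUW, hUU, hfin⟩
    refine ⟨(h77_nd_map_subtype K W').mpr hnd, U'.map K.subtype, Submodule.map_mono hUW, ?_, ?_⟩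
    · rintro _ ⟨u, hu, rfl⟩ _ ⟨v, hv, rfl⟩
      exact hUU u hu v hv
    · rw [Submodule.finrank_map_subtype_eq, Submodule.finrank_map_subtype_eq]
      exact hfin

-- PIECE FIXCNT
theorem card_hyp_modEq (hS : B.IsSymm) (h2 : (2 : F) ≠ 0) (hN : ND B ⊤) (r : ℕ) [Fact r.Prime]
    (hrq : ¬ r ∣ Fintype.card F) (hr0 : (r : F) ≠ 0) (T : Module.End F V) (hT : Isom B T)
    (hTr : T ^ r = 1) (m : ℕ) (hmc : m < blk (Fintype.card F) r)
    (hdvd : ∀ Z : Submodule F V, Z ≤ LinearMap.range (T - 1) → Z.map T ≤ Z → ND B Z →
      blk (Fintype.card F) r ∣ finrank F Z) :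
    Nat.card {W : Submodule F V // finrank F W = m ∧ Hyp B W} ≡
      Nat.card {W : Submodule F ↥(LinearMap.ker (T - 1)) //
        finrank F W = m ∧ Hyp (B.restrict (LinearMap.ker (T - 1))) W} [MOD r] := by
  classical
  have hfinV : Finite V := Module.finite_of_finite F
  have hfinS : Finite (Submodule F V) :=
    Finite.of_injective (fun W : Submodule F V => (W : Set V)) SetLike.coe_injective
  have hTinj : Function.Injective T := isom_injective hN hT
  have hTK : ∀ x ∈ LinearMap.ker (T - 1), T x = x := by
    intro x hx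
    rw [LinearMap.mem_ker, LinearMap.sub_apply, sub_eq_zero] at hx
    exact hx
  have hfinΩ : Fintype {W : Submodule F V // finrank F W = m ∧ Hyp B W} := Fintype.ofFinite _
  let f : Function.End {W : Submodule F V // finrank F W = m ∧ Hyp B W} := fun W =>
    ⟨W.1.map T,
      ((Submodule.equivMapOfInjective T hTinj W.1).finrank_eq.symm).trans W.2.1, by
      obtain ⟨hnd, U, hUW, hUU, hfin⟩ := W.2.2
      refine ⟨?_, U.map T, Submodule.map_mono hUW, ?_, ?_⟩
      · rintro _ ⟨u, hu, rfl⟩ h
        have h0 : u = 0 := hnd u hu (fun v hv => by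
          rw [← hT u v]; exact h _ (Submodule.mem_map_of_mem hv))
        rw [h0, map_zero]
      · rintro _ ⟨u, hu, rfl⟩ _ ⟨v, hv, rfl⟩
        rw [hT u v]
        exact hUU u hu v hv
      · rw [← (Submodule.equivMapOfInjective T hTinj U).finrank_eq,
          ← (Submodule.equivMapOfInjective T hTinj W.1).finrank_eq]
        exact hfin⟩
  have hk : ∀ (k : ℕ) (W : {W : Submodule F V // finrank F W = m ∧ Hyp B W}),
      ((f ^ k) W).1 = W.1.map (T ^ k) := by
    intro k
    induction k with
    | zero =>
      intro W
      rw [pow_zero, pow_zero]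
      exact (Submodule.map_id W.1).symm
    | succ k ih =>
      intro W
      rw [pow_succ', pow_succ']
      change ((f ^ k) W).1.map T = W.1.map (T * T ^ k)
      rw [ih, Module.End.mul_eq_comp, Submodule.map_comp]
  have hfr : f ^ r ^ 1 = 1 := by
    rw [pow_one]
    funext W
    apply Subtype.ext
    rw [hk, hTr]
    exact Submodule.map_id W.1
  have key := Equiv.Perm.card_fixedPoints_modEq (p := r) (n := 1) hfr
  -- fixed points are the subspaces of the kernel
  have hfixle : ∀ W : {W : Submodule F V // finrank F W = m ∧ Hyp B W},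
      f W = W → W.1 ≤ LinearMap.ker (T - 1) := by
    intro W hW
    have h1 : W.1.map T = W.1 := congrArg Subtype.val hW
    obtain ⟨-, hRnd, hRinv, hsum⟩ :=
      Cfsg.Agent.Lib.Helper98.O72.fix_setup hS h2 hN T hT r hrq hr0 hTr W.1 (le_of_eq h1) W.2.2.1
    have h3 := hdvd _ inf_le_right hRinv hRnd
    have h4 : finrank F ↥(W.1 ⊓ LinearMap.range (T - 1)) ≤ m :=
      (Submodule.finrank_mono inf_le_left).trans (le_of_eq W.2.1)
    have h5 : finrank F ↥(W.1 ⊓ LinearMap.range (T - 1)) = 0 :=
      Nat.eq_zero_of_dvd_of_lt h3 (lt_of_le_of_lt h4 hmc)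
    have h6 : W.1 ⊓ LinearMap.ker (T - 1) = W.1 := by
      apply Submodule.eq_of_le_of_finrank_le inf_le_left
      omega
    rw [← h6]
    exact inf_le_right
  have hlefix : ∀ W : {W : Submodule F V // finrank F W = m ∧ Hyp B W},
      W.1 ≤ LinearMap.ker (T - 1) → f W = W := by
    intro W hW
    apply Subtype.ext
    change W.1.map T = W.1
    ext x
    constructor
    · rintro ⟨y, hy, rfl⟩
      rw [hTK y (hW hy)]
      exact hy
    · intro hx
      exact ⟨x, hx, hTK x (hW hx)⟩
  let e : Function.fixedPoints f ≃
      {W : Submodule F ↥(LinearMap.ker (T - 1)) // finrank F W = m ∧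
        Hyp (B.restrict (LinearMap.ker (T - 1))) W} :=
    { toFun := fun W => ⟨W.1.1.comap (LinearMap.ker (T - 1)).subtype, by
        have hle := hfixle W.1 W.2
        have h1 : (W.1.1.comap (LinearMap.ker (T - 1)).subtype).map
            (LinearMap.ker (T - 1)).subtype = W.1.1 := by
          rw [Submodule.map_comap_subtype]
          exact inf_eq_right.mpr hle
        constructor
        · rw [← Submodule.finrank_map_subtype_eq, h1]
          exact W.1.2.1
        · rw [← fixcnt_hyp_map_subtype, h1]
          exact W.1.2.2⟩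
      invFun := fun W' => ⟨⟨W'.1.map (LinearMap.ker (T - 1)).subtype, by
          rw [Submodule.finrank_map_subtype_eq]; exact W'.2.1,
          (fixcnt_hyp_map_subtype _ _).mpr W'.2.2⟩, by
        apply hlefix
        rintro _ ⟨x, _, rfl⟩
        exact x.2⟩
      left_inv := fun W => by
        apply Subtype.ext
        apply Subtype.ext
        have hle := hfixle W.1 W.2
        change (W.1.1.comap (LinearMap.ker (T - 1)).subtype).map
            (LinearMap.ker (T - 1)).subtype = W.1.1
        rw [Submodule.map_comap_subtype]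
        exact inf_eq_right.mpr hle
      right_inv := fun W' => by
        apply Subtype.ext
        change (W'.1.map (LinearMap.ker (T - 1)).subtype).comap
            (LinearMap.ker (T - 1)).subtype = W'.1
        exact Submodule.comap_map_eq_of_injective (Submodule.injective_subtype _) W'.1 }
  rw [← Nat.card_congr e, ← Fintype.card_eq_nat_card, ← Fintype.card_eq_nat_card]
  exact key

end Abstract

end Cfsg.Agent.Lib.Helper83.Hy
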