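import Mathlib
import Cfsg.Prelude.Def_Blocks
import Cfsg.Agent.Lib.Helper83.Ito1

/-!
# Ito's theorem on `p`-solvable linear groups of small degree, part 2

* `ito_reduce`: a faithful character of degree less than `p` of a group containing a
  `p`-element which normalises but does not centralise a `q`-subgroup is irreducible of degree
  `p - 1`, a power of `2`.
-/

set_option autoImplicit false
set_option linter.unusedSectionVars false
set_option linter.style.haveILetI false
set_option linter.unusedVariables false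

namespace Cfsg.Agent.Lib.Helper83

open scoped ComplexConjugate
open Cfsg Cfsg.Agent.Lib

universe u

/-- the main reduction: a `p`-element normalising but not centralising a `q`-subgroup -/
theorem ito_reduce {G : Type u} [Group G] [Finite G] {χ : G → ℂ} (hχ : IsCharacter G χ)
    (hfaith : ∀ g : G, χ g = χ 1 → g = 1) (p q : ℕ) [hp : Fact p.Prime] [hq : Fact q.Prime]
    (hpq : p ≠ q) (hnp : charDegree χ < p) (Q : Subgroup G) (hQ : IsPGroup q Q) (x : G)
    (hx : ∃ k, orderOf x = p ^ k) (hxQ : x ∈ Subgroup.normalizer (Q : Set G)) (a : G)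
    (ha : a ∈ Q) (hne : x * a * x⁻¹ * a⁻¹ ≠ 1) :
    charDegree χ + 1 = p ∧ (∃ k, charDegree χ = 2 ^ k) ∧ IsIrrCharacter G χ := by
  classical
  let H : Subgroup G := Q ⊔ Subgroup.zpowers x
  have hQH : Q ≤ H := le_sup_left
  have hxH : x ∈ H := (le_sup_right : Subgroup.zpowers x ≤ H) (Subgroup.mem_zpowers x)
  have hHN : H ≤ Subgroup.normalizer (Q : Set G) :=
    sup_le Subgroup.le_normalizer (by rw [Subgroup.zpowers_le]; exact hxQ)
  have hQn : (Q.subgroupOf H).Normal := Subgroup.normal_subgroupOf_of_le_normalizer hHN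
  have hQ' : IsPGroup q (Q.subgroupOf H) := hQ.comap_subtype
  let x' : H := ⟨x, hxH⟩
  have hx' : ∃ k, orderOf x' = p ^ k := by
    obtain ⟨k, hk⟩ := hx
    exact ⟨k, by rw [← hk]; exact Subgroup.orderOf_mk x hxH⟩
  have hgen : Q.subgroupOf H ⊔ Subgroup.zpowers x' = ⊤ := by
    apply Subgroup.map_injective H.subtype_injective
    rw [Subgroup.map_sup, Subgroup.map_subgroupOf_eq_of_le hQH, MonoidHom.map_zpowers,
      ← MonoidHom.range_eq_map, Subgroup.range_subtype]
    rfl
  let a' : H := ⟨a, hQH ha⟩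
  have hχH : IsCharacter H (fun h : H => χ h) := Helper20.isCharacter_comp H.subtype hχ
  let _ : Fintype H := Fintype.ofFinite _
  have := Helper4.irr_finite (G := H)
  let _ : Fintype (IrrCharacter H) := Fintype.ofFinite _
  obtain ⟨m, hmdec, hminner, hmdeg⟩ := char_decomp_deg hχH
  have hdegH : charDegree (fun h : H => χ h) = charDegree χ := rfl
  have hval : ∀ h : H, χ h = ∑ β : IrrCharacter H, (m β : ℂ) * (β : H → ℂ) h := by
    intro h
    have h1 := congrFun hmdec h
    rw [Finset.sum_apply] at h1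
    rw [h1]
    apply Finset.sum_congr rfl
    intro β _
    rw [Pi.smul_apply, smul_eq_mul]
  have hex : ∃ ψ : IrrCharacter H, m ψ ≠ 0 ∧
      (ψ : H → ℂ) (x' * a' * x'⁻¹ * a'⁻¹) ≠ (ψ : H → ℂ) 1 := by
    by_contra hcon
    push Not at hcon
    apply hne
    apply hfaith
    have h2 := hval (x' * a' * x'⁻¹ * a'⁻¹)
    have h3 := hval 1
    have e1 : ((x' * a' * x'⁻¹ * a'⁻¹ : H) : G) = x * a * x⁻¹ * a⁻¹ := rfl
    have e2 : ((1 : H) : G) = 1 := rfl
    rw [e1] at h2
    rw [e2] at h3
    rw [h2, h3]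
    apply Finset.sum_congr rfl
    intro β _
    by_cases hβ : m β = 0
    · rw [hβ]
      simp
    · rw [hcon β hβ]
  obtain ⟨ψ, hmψ, hψne⟩ := hex
  have hψpos : 0 < charDegree (ψ : H → ℂ) := (irr_degree ψ.2).1
  have hψle : charDegree (ψ : H → ℂ) ≤ charDegree χ := by
    have h3 : m ψ * charDegree (ψ : H → ℂ) ≤ charDegree χ := by
      rw [← hdegH, hmdeg]
      exact Finset.single_le_sum (f := fun β => m β * charDegree (β : H → ℂ))
        (fun _ _ => Nat.zero_le _) (Finset.mem_univ ψ)
    have h4 : 1 ≤ m ψ := by omega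
    nlinarith
  obtain ⟨h1, k, hk⟩ := ito_core p q hpq (Q.subgroupOf H) hQ' x' hx' hgen ψ.2 (by omega) a' hψne
  have hdeq : charDegree χ = charDegree (ψ : H → ℂ) := by omega
  refine ⟨by omega, ⟨k, by omega⟩, ?_⟩
  have hsum : ∑ β : IrrCharacter H, m β * charDegree (β : H → ℂ) = charDegree (ψ : H → ℂ) := by
    rw [← hmdeg, hdegH, hdeq]
  rw [← Finset.add_sum_erase Finset.univ _ (Finset.mem_univ ψ)] at hsum
  have hm1 : m ψ = 1 := by
    by_contra hcon
    have h2 : 2 ≤ m ψ := by omega
    nlinarith [Nat.zero_le (∑ β ∈ Finset.univ.erase ψ, m β * charDegree (β : H → ℂ))]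
  have hm0 : ∀ β : IrrCharacter H, β ≠ ψ → m β = 0 := by
    intro β hβ
    rw [hm1, one_mul] at hsum
    have h0 : ∑ β ∈ Finset.univ.erase ψ, m β * charDegree (β : H → ℂ) = 0 := by omega
    have h2 := (Finset.sum_eq_zero_iff.mp h0) β (Finset.mem_erase.mpr ⟨hβ, Finset.mem_univ β⟩)
    have hβpos : 0 < charDegree (β : H → ℂ) := (irr_degree β.2).1
    rcases Nat.mul_eq_zero.mp h2 with h | h
    · exact h
    · omega
  have hχψ : (fun h : H => χ h) = (ψ : H → ℂ) := by
    rw [hmdec, Finset.sum_eq_single ψ (fun β _ hβ => by rw [hm0 β hβ]; simp)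
      (fun h => absurd (Finset.mem_univ _) h), hm1]
    simp
  exact Helper20.irr_of_res_irr H hχ (by rw [hχψ]; exact ψ.2)

end Cfsg.Agent.Lib.Helper83
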