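import Mathlib
import Cfsg.Prelude.Def_Blocks
import Cfsg.Prelude.Def_Local
import Cfsg.Agent.Lib.Helper83.Ito2
import Cfsg.Agent.Lib.Helper83.Dl2
import Cfsg.Agent.Lib.Helper58.InvSylow

/-!
# Ito's theorem on `p`-solvable linear groups of small degree, part 3

* `psolv_top_step`: a proper normal subgroup of `p`-power or `p'`-index in a `p`-solvable group;
* `faithful_of_constituents`: values of a character through its irreducible constituents;
* `min_index_top`, `min_normal_pgroup_central`, `min_structure`: structure of a `p`-solvable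
  group with a faithful character of degree `< p` all of whose proper subgroups are `p`-closed;
* `exists_q_of_normal_pcompl`: passage to a `q`-subgroup;
* `ito_main`: Ito's theorem.
-/

set_option autoImplicit false
set_option linter.unusedSectionVars false
set_option linter.style.haveILetI false
set_option linter.unusedVariables false

namespace Cfsg.Agent.Lib.Helper83

open scoped ComplexConjugate
open Cfsg Cfsg.Agent.Lib

universe u

/-- a proper normal subgroup of `p`-power or `p'`-index in a `p`-solvable group -/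
theorem psolv_top_step {G : Type*} [Group G] [Nontrivial G] (p : ℕ) (h : IsPSolvable p G) :
    ∃ A : Subgroup G, A.Normal ∧ A ≠ ⊤ ∧ ((∃ m : ℕ, A.index = p ^ m) ∨ A.index.Coprime p) := by
  classical
  obtain ⟨n, H, h0, hlast, hmono, hnorm, hfac⟩ := h
  have hex : ∃ i : ℕ, ∃ hi : i < n + 1, H ⟨i, hi⟩ = ⊤ := ⟨n, Nat.lt_succ_self n, hlast⟩
  obtain ⟨hi, htop⟩ := Nat.find_spec hex
  have hi0 : Nat.find hex ≠ 0 := by
    intro h0'
    have h1 : (⟨Nat.find hex, hi⟩ : Fin (n + 1)) = 0 := Fin.ext h0'
    rw [h1, h0] at htop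
    exact bot_ne_top htop
  obtain ⟨j, hj⟩ := Nat.exists_eq_succ_of_ne_zero hi0
  have hjn : j < n := by omega
  have hne : H (⟨j, hjn⟩ : Fin n).castSucc ≠ ⊤ := by
    intro hcon
    have h1 := Nat.find_min hex (m := j) (by omega)
    exact h1 ⟨by omega, hcon⟩
  have hK : H (⟨j, hjn⟩ : Fin n).succ = ⊤ := by
    rw [← htop]
    congr 1
    exact Fin.ext (by simp only [Fin.succ_mk]; omega)
  have hrel := hfac ⟨j, hjn⟩
  rw [hK, Subgroup.relIndex_top_right] at hrel
  exact ⟨_, hnorm _, hne, hrel⟩

/-- values of a character through its irreducible constituents -/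
theorem faithful_of_constituents {G : Type*} [Group G] [Finite G] {χ : G → ℂ}
    (hχ : IsCharacter G χ) (c : G)
    (h : ∀ β : G → ℂ, IsIrrCharacter G β → charDegree β ≤ charDegree χ → β c = β 1) :
    χ c = χ 1 := by
  classical
  let _ : Fintype G := Fintype.ofFinite _
  have := Helper4.irr_finite (G := G)
  let _ : Fintype (IrrCharacter G) := Fintype.ofFinite _
  obtain ⟨m, hmdec, hminner, hmdeg⟩ := char_decomp_deg hχ
  have hval : ∀ g : G, χ g = ∑ β : IrrCharacter G, (m β : ℂ) * (β : G → ℂ) g := by
    intro g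
    have h1 := congrFun hmdec g
    rw [Finset.sum_apply] at h1
    rw [h1]
    apply Finset.sum_congr rfl
    intro β _
    rw [Pi.smul_apply, smul_eq_mul]
  rw [hval c, hval 1]
  apply Finset.sum_congr rfl
  intro β _
  by_cases hβ : m β = 0
  · rw [hβ]
    simp
  · have h3 : m β * charDegree (β : G → ℂ) ≤ charDegree χ := by
      rw [hmdeg]
      exact Finset.single_le_sum (f := fun β => m β * charDegree (β : G → ℂ))
        (fun _ _ => Nat.zero_le _) (Finset.mem_univ β)
    have h4 : 1 ≤ m β := by omega
    rw [h β β.2 (by nlinarith)]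

/-- in the minimal configuration a subgroup of index less than `p` is the whole group -/
theorem min_index_top {G : Type*} [Group G] [Finite G] (p : ℕ) [hp : Fact p.Prime]
    (P : Sylow p G) (hP : ¬ (P : Subgroup G).Normal)
    (hmin : ∀ L : Subgroup G, L ≠ ⊤ → ∀ S : Sylow p L, (S : Subgroup L).Normal)
    (T : Subgroup G) (hT : T.index < p) : T = ⊤ := by
  classical
  by_contra hne
  obtain ⟨S⟩ : Nonempty (Sylow p T) := inferInstance
  have hSn := hmin T hne S
  let S' : Subgroup G := (S : Subgroup T).map T.subtype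
  have hTpos : 0 < T.index := Nat.pos_of_ne_zero Subgroup.index_ne_zero_of_finite
  have hpT : ¬ p ∣ T.index := fun h => by
    have := Nat.le_of_dvd hTpos h
    omega
  have hfac : (Nat.card G).factorization p = (Nat.card T).factorization p := by
    rw [← Subgroup.card_mul_index T, Nat.factorization_mul Nat.card_pos.ne' hTpos.ne',
      Finsupp.add_apply, Nat.factorization_eq_zero_of_not_dvd hpT, add_zero]
  have hcard : Nat.card S' = p ^ (Nat.card G).factorization p := by
    rw [Subgroup.card_map_of_injective T.subtype_injective, hfac]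
    exact S.card_eq_multiplicity
  let P' : Sylow p G := Sylow.ofCard S' hcard
  have hTN : T ≤ Subgroup.normalizer ((P' : Subgroup G) : Set G) := by
    intro t ht
    show t ∈ Subgroup.normalizer (S' : Set G)
    rw [Subgroup.mem_normalizer_iff]
    intro h
    constructor
    · rintro ⟨s, hs, rfl⟩
      exact ⟨⟨t, ht⟩ * s * ⟨t, ht⟩⁻¹, hSn.conj_mem s hs ⟨t, ht⟩, rfl⟩
    · rintro ⟨s, hs, hs'⟩
      refine ⟨⟨t, ht⟩⁻¹ * s * ⟨t, ht⟩, ?_, ?_⟩
      · have := hSn.conj_mem s hs ⟨t, ht⟩⁻¹
        rwa [inv_inv] at this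
      · show t⁻¹ * (s : G) * t = h
        have hs'' : (s : G) = t * h * t⁻¹ := hs'
        rw [hs'']
        group
  have hcardS : Nat.card (Sylow p G) ≤ T.index := by
    rw [Sylow.card_eq_index_normalizer P']
    exact Nat.le_of_dvd hTpos (Subgroup.index_dvd_of_le hTN)
  have hmod := card_sylow_modEq_one p G
  have h1 : Nat.card (Sylow p G) = 1 := by
    have h2 : Nat.card (Sylow p G) % p = 1 % p := hmod
    rw [Nat.mod_eq_of_lt (by omega), Nat.mod_eq_of_lt hp.out.one_lt] at h2
    exact h2
  have hsub : Subsingleton (Sylow p G) := (Nat.card_eq_one_iff_unique.mp h1).1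
  exact hP (Sylow.normal_of_subsingleton P)

/-- in the minimal configuration a normal `p`-subgroup is central -/
theorem min_normal_pgroup_central {G : Type*} [Group G] [Finite G] (p : ℕ) [hp : Fact p.Prime]
    {χ : G → ℂ} (hχ : IsCharacter G χ) (hfaith : ∀ g : G, χ g = χ 1 → g = 1)
    (hnp : charDegree χ < p) (hidx : ∀ T : Subgroup G, T.index < p → T = ⊤)
    (O : Subgroup G) [hO : O.Normal] (hOp : IsPGroup p O) : O ≤ Subgroup.center G := by
  classical
  let _ : Fintype G := Fintype.ofFinite _
  let _ : Fintype O := Fintype.ofFinite _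
  intro x hx
  rw [Subgroup.mem_center_iff]
  intro g
  have hc : g * x * g⁻¹ * x⁻¹ = 1 := by
    apply hfaith
    apply faithful_of_constituents hχ
    intro β hβ hβle
    obtain ⟨hβpos, hβ1⟩ := irr_degree hβ
    have hβc : IsCharacter G β := Helper35.isChar_of_irr hβ
    have hres : IsCharacter O (fun a : O => β a) := Helper20.isCharacter_comp O.subtype hβc
    have h1 : (fun a : O => β a) 1 ≠ 0 := by
      show β ((1 : O) : G) ≠ 0
      rw [Subgroup.coe_one]
      exact irr_one_ne_zero hβ
    obtain ⟨θ, hθ, hcon⟩ := Helper20.exists_constituent_of_char hres h1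
    have hdeg := Helper20.clifford_degree O hθ hβ hcon (inertia O θ) (fun g => mem_inertia O θ g)
    obtain ⟨e, he⟩ := Helper35.classInner_char_nat hres (Helper35.isChar_of_irr hθ)
    obtain ⟨hθpos, hθ1⟩ := irr_degree hθ
    rw [he, hβ1, hθ1] at hdeg
    have hdeg' : charDegree β = e * (inertia O θ).index * charDegree θ := by exact_mod_cast hdeg
    have he0 : e ≠ 0 := by
      intro h0
      apply hcon
      rw [he, h0]
      simp
    have hTpos : 0 < (inertia O θ).index := Nat.pos_of_ne_zero Subgroup.index_ne_zero_of_finite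
    have hTle : (inertia O θ).index ≤ charDegree β := by
      rw [hdeg']
      calc (inertia O θ).index = 1 * (inertia O θ).index * 1 := by ring
        _ ≤ e * (inertia O θ).index * charDegree θ := by gcongr <;> omega
    have hθle : charDegree θ ≤ charDegree β := by
      rw [hdeg']
      calc charDegree θ = 1 * 1 * charDegree θ := by ring
        _ ≤ e * (inertia O θ).index * charDegree θ := by gcongr <;> omega
    have hTtop : inertia O θ = ⊤ := hidx _ (by omega)
    have hinv : pcInv O θ := by
      intro g n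
      have hg : g ∈ inertia O θ := by
        rw [hTtop]
        exact Subgroup.mem_top g
      rw [mem_inertia] at hg
      have := congrFun hg n
      rwa [Helper20.conjFun_apply] at this
    have hθdeg1 : charDegree θ = 1 := by
      have hdvd : charDegree θ ∣ Nat.card O := irr_degree_dvd_card' hθ
      obtain ⟨k, hk⟩ := IsPGroup.iff_card.mp hOp
      rw [hk] at hdvd
      obtain ⟨j, -, hj⟩ := (Nat.dvd_prime_pow hp.out).mp hdvd
      rcases Nat.eq_zero_or_pos j with h0 | hpos
      · rw [hj, h0, pow_zero]
      · exfalso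
        have : p ≤ p ^ j := Nat.le_self_pow (by omega) p
        omega
    have hθ1' : θ 1 = 1 := by
      rw [hθ1, hθdeg1]
      simp
    have hval := inv_res O hθ hθ1' hinv hβ hcon
    let xo : O := ⟨x, hx⟩
    let yo : O := ⟨g * x * g⁻¹, hO.conj_mem x hx g⟩
    have e1 : g * x * g⁻¹ * x⁻¹ = ((yo * xo⁻¹ : O) : G) := rfl
    rw [e1, hval, irr_linear_mul hθ hθ1']
    have h2 : θ yo = θ xo := hinv g xo
    rw [h2, ← irr_linear_mul hθ hθ1', mul_inv_cancel, hθ1', mul_one]
  calc g * x = g * x * g⁻¹ * x⁻¹ * x * g := by group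
    _ = x * g := by rw [hc, one_mul]

/-- structure of the minimal configuration: a normal `p`-complement not centralised by the
Sylow `p`-subgroup -/
theorem min_structure {G : Type*} [Group G] [Finite G] (p : ℕ) [hp : Fact p.Prime]
    (hsolv : IsPSolvable p G) {χ : G → ℂ} (hχ : IsCharacter G χ)
    (hfaith : ∀ g : G, χ g = χ 1 → g = 1) (hnp : charDegree χ < p) (P : Sylow p G)
    (hP : ¬ (P : Subgroup G).Normal)
    (hmin : ∀ L : Subgroup G, L ≠ ⊤ → ∀ S : Sylow p L, (S : Subgroup L).Normal) :
    ∃ (K : Subgroup G) (y a : G), K.Normal ∧ ¬ p ∣ Nat.card K ∧ y ∈ (P : Subgroup G) ∧ a ∈ K ∧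
      y * a * y⁻¹ * a⁻¹ ≠ 1 := by
  classical
  have hnt : Nontrivial G := by
    by_contra hcon
    rw [not_nontrivial_iff_subsingleton] at hcon
    apply hP
    exact ⟨fun n hn g => by rw [Subsingleton.elim (g * n * g⁻¹) n]; exact hn⟩
  obtain ⟨A, hAn, hAtop, hA⟩ := psolv_top_step p hsolv
  have hAidx : ∃ m, A.index = p ^ m := by
    rcases hA with h | h
    · exact h
    · exfalso
      apply hP
      have hPA : (P : Subgroup G) ≤ A := by
        intro g hg
        obtain ⟨k, hk⟩ := P.isPGroup' ⟨g, hg⟩
        have hk' : g ^ p ^ k = 1 := by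
          have := congrArg (fun z : (P : Subgroup G) => (z : G)) hk
          simpa using this
        exact mem_of_pow_of_coprime A g (p ^ k) hk' (Nat.Coprime.pow_left k h.symm)
      have hS := hmin A hAtop (P.subtype hPA)
      have hchar : (P.subtype hPA : Subgroup A).Characteristic :=
        Sylow.characteristic_of_normal _ hS
      have hnorm : ((P.subtype hPA : Subgroup A).map A.subtype).Normal :=
        ConjAct.normal_of_characteristic_of_normal
      rw [Sylow.coe_subtype, Subgroup.map_subgroupOf_eq_of_le hPA] at hnorm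
      exact hnorm
  obtain ⟨mA, hmA⟩ := hAidx
  obtain ⟨S⟩ : Nonempty (Sylow p A) := inferInstance
  have hSn : (S : Subgroup A).Normal := hmin A hAtop S
  have hchar : (S : Subgroup A).Characteristic := Sylow.characteristic_of_normal S hSn
  let O : Subgroup G := (S : Subgroup A).map A.subtype
  have hOn : O.Normal := ConjAct.normal_of_characteristic_of_normal
  have hOp : IsPGroup p O := S.isPGroup'.map A.subtype
  have hOc : O ≤ Subgroup.center G :=
    min_normal_pgroup_central p hχ hfaith hnp (fun T hT => min_index_top p P hP hmin T hT) O hOp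
  obtain ⟨K₀, hK₀⟩ := Subgroup.exists_right_complement'_of_coprime (N := (S : Subgroup A))
    S.card_coprime_index
  have hcardA : Nat.card (S : Subgroup A) * Nat.card K₀ = Nat.card A := hK₀.card_mul_card
  have hpK₀ : ¬ p ∣ Nat.card K₀ := by
    have h1 : (S : Subgroup A).index = Nat.card K₀ := by
      have h2 := Subgroup.card_mul_index (S : Subgroup A)
      have h3 : 0 < Nat.card (S : Subgroup A) := Nat.card_pos
      exact Nat.eq_of_mul_eq_mul_left h3 (by rw [h2, hcardA])
    rw [← h1]
    exact S.not_dvd_index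
  let K : Subgroup G := K₀.map A.subtype
  have hcardK : Nat.card K = Nat.card K₀ := Subgroup.card_map_of_injective A.subtype_injective
  have hKn : K.Normal := by
    refine ⟨fun k hk g => ?_⟩
    obtain ⟨k0, hk0, rfl⟩ := hk
    let w : A := ⟨g * (k0 : G) * g⁻¹, hAn.conj_mem (k0 : G) k0.2 g⟩
    obtain ⟨⟨s, k'⟩, hsk⟩ := hK₀.2 w
    have hsk' : (s : A) * (k' : A) = w := hsk
    have hcomm : Commute (s : A) (k' : A) := by
      have hsO : ((s : A) : G) ∈ O := Subgroup.mem_map_of_mem A.subtype s.2
      have h1 := Subgroup.mem_center_iff.mp (hOc hsO) ((k' : A) : G)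
      exact Subtype.ext h1.symm
    have hwm : w ^ Nat.card K₀ = 1 := by
      apply Subtype.ext
      show (g * (k0 : G) * g⁻¹) ^ Nat.card K₀ = 1
      rw [conj_pow]
      have h1 : (⟨k0, hk0⟩ : K₀) ^ Nat.card K₀ = 1 := pow_card_eq_one'
      have h2 : (k0 : G) ^ Nat.card K₀ = 1 := by
        have h3 := congrArg (fun z : K₀ => ((z : A) : G)) h1
        exact h3
      rw [h2, mul_one, mul_inv_cancel]
    have hsm : (s : A) ^ Nat.card K₀ = 1 := by
      have h1 : ((s : A) * (k' : A)) ^ Nat.card K₀ = 1 := by
        rw [hsk']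
        exact hwm
      rw [hcomm.mul_pow] at h1
      have h2 : (k' : A) ^ Nat.card K₀ = 1 := by
        have h3 : k' ^ Nat.card K₀ = 1 := pow_card_eq_one'
        have h4 := congrArg (fun z : K₀ => (z : A)) h3
        exact h4
      rwa [h2, mul_one] at h1
    have hs1 : (s : A) = 1 := by
      obtain ⟨t, ht⟩ := S.isPGroup' s
      have ht' : (s : A) ^ p ^ t = 1 := by
        have := congrArg (fun z : (S : Subgroup A) => (z : A)) ht
        simpa using this
      have h1 : orderOf (s : A) ∣ Nat.card K₀ := orderOf_dvd_of_pow_eq_one hsm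
      have h2 : orderOf (s : A) ∣ p ^ t := orderOf_dvd_of_pow_eq_one ht'
      have h3 : Nat.Coprime (Nat.card K₀) (p ^ t) :=
        Nat.Coprime.pow_right t ((Nat.Prime.coprime_iff_not_dvd hp.out).mpr hpK₀).symm
      have h4 : orderOf (s : A) = 1 := Nat.eq_one_of_dvd_coprimes h3 h1 h2
      exact orderOf_eq_one_iff.mp h4
    refine ⟨(k' : A), k'.2, ?_⟩
    have h5 : (k' : A) = w := by rw [← hsk', hs1, one_mul]
    rw [h5]
    rfl
  have hcardG : Nat.card (P : Subgroup G) * Nat.card K = Nat.card G := by
    obtain ⟨sS, hsS⟩ := IsPGroup.iff_card.mp S.isPGroup'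
    have h1 : Nat.card G = p ^ (mA + sS) * Nat.card K₀ := by
      rw [← Subgroup.card_mul_index A, hmA, ← hcardA, hsS, pow_add]
      ring
    have h2 : (Nat.card G).factorization p = mA + sS := by
      rw [h1, Nat.factorization_mul (pow_ne_zero _ hp.out.ne_zero) Nat.card_pos.ne',
        Finsupp.add_apply, Nat.Prime.factorization_pow hp.out,
        Nat.factorization_eq_zero_of_not_dvd hpK₀]
      simp
    rw [P.card_eq_multiplicity, h2, hcardK, h1]
  by_contra hcon
  push Not at hcon
  have hcomm : ∀ y ∈ (P : Subgroup G), ∀ a ∈ K, y * a = a * y := by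
    intro y hy a ha
    have h1 := hcon K y a hKn (by rw [hcardK]; exact hpK₀) hy ha
    calc y * a = y * a * y⁻¹ * a⁻¹ * a * y := by group
      _ = a * y := by rw [h1, one_mul]
  have hKN : K ≤ Subgroup.normalizer ((P : Subgroup G) : Set G) := by
    intro a ha
    rw [Subgroup.mem_normalizer_iff]
    intro h
    constructor
    · intro hh
      have h1 := hcomm h hh a ha
      have h2 : a * h * a⁻¹ = h := by rw [← h1, mul_inv_cancel_right]
      rw [h2]
      exact hh
    · intro hh
      have h1 := hcomm _ hh a ha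
      have h2 : a * h * a⁻¹ = h := by
        have h3 : a * h = a * (a * h * a⁻¹) := by
          rw [← h1]
          group
        exact (mul_left_cancel h3).symm
      rw [h2] at hh
      exact hh
  have hd1 : Nat.card (P : Subgroup G) ∣
      Nat.card (Subgroup.normalizer ((P : Subgroup G) : Set G)) :=
    Subgroup.card_dvd_of_le Subgroup.le_normalizer
  have hd2 : Nat.card K ∣ Nat.card (Subgroup.normalizer ((P : Subgroup G) : Set G)) :=
    Subgroup.card_dvd_of_le hKN
  have hcop : Nat.Coprime (Nat.card (P : Subgroup G)) (Nat.card K) := by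
    rw [P.card_eq_multiplicity, hcardK]
    exact Nat.Coprime.pow_left _ ((Nat.Prime.coprime_iff_not_dvd hp.out).mpr hpK₀)
  have hd3 : Nat.card G ∣ Nat.card (Subgroup.normalizer ((P : Subgroup G) : Set G)) := by
    rw [← hcardG]
    exact Nat.Coprime.mul_dvd_of_dvd_of_dvd hcop hd1 hd2
  have htop : Subgroup.normalizer ((P : Subgroup G) : Set G) = ⊤ := by
    apply Subgroup.eq_top_of_card_eq
    exact Nat.dvd_antisymm (Subgroup.card_subgroup_dvd_card _) hd3
  exact hP (Subgroup.normalizer_eq_top_iff.mp htop)

/-- passage from a `p'`-subgroup normalised but not centralised by a `p`-element to a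
`q`-subgroup -/
theorem exists_q_of_normal_pcompl {G : Type*} [Group G] [Finite G] (p : ℕ) [hp : Fact p.Prime]
    (K : Subgroup G) (y a : G) (hyK : y ∈ Subgroup.normalizer (K : Set G))
    (hKp : ¬ p ∣ Nat.card K) (hy : ∃ k : ℕ, y ^ (p ^ k) = 1) (ha : a ∈ K)
    (hne : y * a * y⁻¹ * a⁻¹ ≠ 1) :
    ∃ (q : ℕ) (Q : Subgroup G) (b : G), q.Prime ∧ p ≠ q ∧ IsPGroup q Q ∧
      y ∈ Subgroup.normalizer (Q : Set G) ∧ b ∈ Q ∧ y * b * y⁻¹ * b⁻¹ ≠ 1 := by
  classical
  by_contra hcon
  push Not at hcon
  let C : Subgroup G := K ⊓ Subgroup.centralizer {y}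
  have hdvd : Nat.card K ∣ Nat.card C := by
    rw [← Nat.factorization_prime_le_iff_dvd Nat.card_pos.ne' Nat.card_pos.ne']
    intro q hq
    rw [← Nat.Prime.pow_dvd_iff_le_factorization hq Nat.card_pos.ne']
    haveI : Fact q.Prime := ⟨hq⟩
    by_cases hpq : p = q
    · subst hpq
      rw [Nat.factorization_eq_zero_of_not_dvd hKp, pow_zero]
      exact one_dvd _
    · obtain ⟨T, hT⟩ := Helper58.exists_invariant_sylow (p := p) (q := q) K y hyK hy hKp
      have hTC : (T : Subgroup K).map K.subtype ≤ C := by
        intro b hb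
        refine ⟨Subgroup.map_subtype_le _ hb, ?_⟩
        show b ∈ Subgroup.centralizer {y}
        rw [Subgroup.mem_centralizer_iff]
        intro z hz
        rw [Set.mem_singleton_iff] at hz
        rw [hz]
        have h1 := hcon q _ b hq hpq (T.isPGroup'.map K.subtype) hT hb
        calc y * b = y * b * y⁻¹ * b⁻¹ * b * y := by group
          _ = b * y := by rw [h1, one_mul]
      have h2 := Subgroup.card_dvd_of_le hTC
      rw [Subgroup.card_map_of_injective K.subtype_injective, T.card_eq_multiplicity] at h2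
      exact h2
  have hCK : C = K := Subgroup.eq_of_le_of_card_ge inf_le_left (Nat.le_of_dvd Nat.card_pos hdvd)
  apply hne
  have haC : a ∈ C := by
    rw [hCK]
    exact ha
  have h1 := Subgroup.mem_centralizer_iff.mp haC.2 y rfl
  rw [h1]
  group

/-- Ito's theorem: a `p`-solvable group with a faithful character of degree less than `p`
and a non-normal Sylow `p`-subgroup -/
theorem ito_main : ∀ (N : ℕ) (G : Type u) [Group G] [Finite G], Nat.card G = N →
    ∀ (χ : G → ℂ), IsCharacter G χ → (∀ g : G, χ g = χ 1 → g = 1) →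
    ∀ (p : ℕ) [Fact p.Prime], IsPSolvable p G → charDegree χ < p →
    ∀ P : Sylow p G, ¬ (P : Subgroup G).Normal →
    charDegree χ + 1 = p ∧ (∃ k : ℕ, charDegree χ = 2 ^ k) ∧ IsIrrCharacter G χ := by
  intro N
  induction N using Nat.strong_induction_on with
  | _ N ih =>
    intro G _ _ hN χ hχ hfaith p hp hsolv hnp P hP
    by_cases hex : ∃ L : Subgroup G, L ≠ ⊤ ∧ ∃ S : Sylow p L, ¬ (S : Subgroup L).Normal
    · obtain ⟨L, hL, S, hS⟩ := hex
      have hlt : Nat.card L < N := by
        rw [← hN]
        exact lt_of_le_of_ne (Subgroup.card_le_card_group L)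
          (fun h => hL ((Subgroup.card_eq_iff_eq_top L).mp h))
      have hχL : IsCharacter L (fun l : L => χ l) := Helper20.isCharacter_comp L.subtype hχ
      have hfL : ∀ g : L, (fun l : L => χ l) g = (fun l : L => χ l) 1 → g = 1 := by
        intro g hg
        apply Subtype.ext
        exact hfaith g hg
      obtain ⟨h1, h2, h3⟩ := ih (Nat.card L) hlt L rfl (fun l : L => χ l) hχL hfL p
        (psolv_subgroup hsolv L) hnp S hS
      exact ⟨h1, h2, Helper20.irr_of_res_irr L hχ h3⟩
    · push Not at hex
      obtain ⟨K, y, a, hKn, hKp, hyP, haK, hne⟩ :=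
        min_structure p hsolv hχ hfaith hnp P hP hex
      obtain ⟨k, hk⟩ := P.isPGroup' ⟨y, hyP⟩
      have hk' : y ^ p ^ k = 1 := by
        have := congrArg (fun z : (P : Subgroup G) => (z : G)) hk
        simpa using this
      obtain ⟨q, Q, b, hq, hpq, hQ, hyQ, hbQ, hne'⟩ := exists_q_of_normal_pcompl p K y a
        (by rw [Subgroup.normalizer_eq_top_iff.mpr hKn]; exact Subgroup.mem_top y) hKp
        ⟨k, hk'⟩ haK hne
      haveI : Fact q.Prime := ⟨hq⟩
      have hord : ∃ j, orderOf y = p ^ j := by
        obtain ⟨j, -, hj⟩ := (Nat.dvd_prime_pow hp.out).mp (orderOf_dvd_of_pow_eq_one hk')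
        exact ⟨j, hj⟩
      exact ito_reduce hχ hfaith p q hpq hnp Q hQ y hord hyQ b hbQ hne'

end Cfsg.Agent.Lib.Helper83
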