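import Mathlib
import Cfsg.Agent.Lib.Helper58.JEDefs
import Cfsg.Agent.Lib.Helper72.JMExt
import Cfsg.Agent.S0611
import Cfsg.Agent.S0612

/-! Project JE (S2948, helper58), piece FFG: in a faithful solvable failure-of-factorization group
`H` on `V` for `p = 2`, a nontrivial best offender `A` contains an involution `b` acting on `V` as
a transvection and inverting a normal subgroup `M` of `H` of order 3. -/

set_option autoImplicit false
set_option linter.style.haveILetI false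
set_option linter.unusedVariables false

namespace Cfsg.Agent.Lib.Helper83.JE

open Cfsg.Agent.Lib.Helper58.JE Cfsg.Agent.Lib.Helper72.JL Cfsg.Agent.Lib.Helper72.SC
  Cfsg.Agent.Lib.Helper78.Jc Cfsg.Agent.Lib.Helper72.JM

open scoped commutatorElement

universe u

/-- in a group of order 2 two nontrivial elements coincide -/
theorem ffg_card_two {X : Type*} [Group X] (hX : Nat.card X = 2) (a b : X) (ha : a ≠ 1)
    (hb : b ≠ 1) : a = b := by
  have hidx : (⊥ : Subgroup X).index = 2 := by rw [Subgroup.index_bot, hX]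
  have h1 : a * b ∈ (⊥ : Subgroup X) := by
    rw [Subgroup.mul_mem_iff_of_index_two hidx]
    simp only [Subgroup.mem_bot, ha, hb]
  have h2 : b ^ 2 ∈ (⊥ : Subgroup X) := Subgroup.sq_mem_of_index_two hidx b
  rw [Subgroup.mem_bot] at h1 h2
  have h3 : b⁻¹ = b := inv_eq_of_mul_eq_one_left (by rw [← sq]; exact h2)
  calc a = a * b * b⁻¹ := by group
    _ = b⁻¹ := by rw [h1, one_mul]
    _ = b := h3

/-- the elements of a subgroup of order 3 -/
theorem ffg_card_three {G : Type*} [Group G] (M : Subgroup G) (hM : Nat.card ↥M = 3) (m : G)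
    (hm : m ∈ M) (hm1 : m ≠ 1) (x : G) (hx : x ∈ M) : x = 1 ∨ x = m ∨ x = m⁻¹ := by
  haveI : Fact (Nat.Prime 3) := ⟨Nat.prime_three⟩
  have hm3 : (⟨m, hm⟩ : ↥M) ^ 3 = 1 := by
    rw [← hM]; exact pow_card_eq_one'
  have hm1' : (⟨m, hm⟩ : ↥M) ≠ 1 := fun h => hm1 (congrArg Subtype.val h)
  have hord : orderOf (⟨m, hm⟩ : ↥M) = 3 := orderOf_eq_prime hm3 hm1'
  have hcz : Nat.card ↥(Subgroup.zpowers (⟨m, hm⟩ : ↥M)) = 3 := by
    rw [Nat.card_zpowers, hord]
  have hfin : Finite ↥M := Nat.finite_of_card_ne_zero (by rw [hM]; norm_num)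
  have htop : Subgroup.zpowers (⟨m, hm⟩ : ↥M) = ⊤ := by
    apply Subgroup.eq_top_of_card_eq
    rw [hcz, hM]
  have hxz : (⟨x, hx⟩ : ↥M) ∈ Subgroup.zpowers (⟨m, hm⟩ : ↥M) := by
    rw [htop]; trivial
  obtain ⟨k, hk⟩ := Subgroup.mem_zpowers_iff.1 hxz
  have hk' : m ^ k = x := by
    have := congrArg Subtype.val hk
    simpa using this
  have hmod : m ^ (k % 3) = m ^ k := by
    have h4 : orderOf m = 3 := by
      rw [← hord]; exact (Subgroup.orderOf_mk m hm).symm
    have h5 := zpow_mod_orderOf m k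
    rw [h4] at h5
    exact h5
  have hm3' : m ^ (3 : ℕ) = 1 := by
    have := congrArg Subtype.val hm3
    simpa using this
  have hcases : k % 3 = 0 ∨ k % 3 = 1 ∨ k % 3 = 2 := by omega
  rcases hcases with h0 | h0 | h0
  · left
    rw [← hk', ← hmod, h0, zpow_zero]
  · right; left
    rw [← hk', ← hmod, h0, zpow_one]
  · right; right
    rw [← hk', ← hmod, h0]
    have h6 : m ^ (2 : ℤ) * m = 1 := by
      have h7 : m ^ (2 : ℤ) * m = m ^ (3 : ℕ) := by
        rw [show (2 : ℤ) = ((2 : ℕ) : ℤ) from rfl, zpow_natCast, ← pow_succ]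
      rw [h7, hm3']
    exact eq_inv_of_mul_eq_one_left h6

theorem ffg (h : Extm2Stmt.{u}) : FFGStmt.{u} := by
  intro G _ _ V H hV hHV hf hS1 hS3 A hAH hA hA1
  haveI : Fact (Nat.Prime 2) := ⟨Nat.prime_two⟩
  have hH1 : H ≠ ⊥ := by
    intro hH
    apply hA1
    rw [eq_bot_iff, ← hH]
    exact hAH
  obtain ⟨k, B, hB, hind, hsup⟩ :=
    Cfsg.Agent.S0612.result V H hV hHV hf hS1 hS3 hH1 A hAH hA hA1
  have hk : 0 < k := by
    rcases Nat.eq_zero_or_pos k with h0 | h0
    · exfalso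
      subst h0
      apply hA1
      rw [← hsup]
      exact iSup_of_empty B
    · exact h0
  obtain ⟨hB0A, hB0, hVB0, hmin⟩ := hB ⟨0, hk⟩
  set B0 : Subgroup G := B ⟨0, hk⟩ with hB0def
  have hB0H : B0 ≤ H := hB0A.trans hAH
  obtain ⟨hc2, hW2, -⟩ :=
    Cfsg.Agent.S0611.result V H hV hHV hf hS1 hS3 hH1 B0 hB0H hB0 hVB0 hmin
  -- the involution `b`
  have hB0ne : B0 ≠ ⊥ := by
    intro hbot
    rw [hbot, Subgroup.card_bot] at hc2
    omega
  obtain ⟨b', hb'1⟩ := (Subgroup.ne_bot_iff_exists_ne_one).1 hB0ne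
  obtain ⟨b, hbB0⟩ := b'
  have hb1 : b ≠ 1 := fun hb => hb'1 (Subtype.ext hb)
  have hbb : b * b = 1 := by
    have h1 : (⟨b, hbB0⟩ : ↥B0) ^ 2 = 1 := by
      rw [← hc2]; exact pow_card_eq_one'
    have h2 := congrArg Subtype.val h1
    rw [sq] at h2
    exact h2
  have hbinv : b⁻¹ = b := inv_eq_of_mul_eq_one_left hbb
  have hbH : b ∈ H := hB0H hbB0
  -- the normal subgroup of order 3
  obtain ⟨M, hMH, hMn, hM3, hMc⟩ := h G V H hV hHV hf hS1 hS3 B0 hB0H hB0 hVB0 hmin
  have hMne : M ≠ ⊥ := by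
    intro hbot
    rw [hbot, Subgroup.card_bot] at hM3
    omega
  obtain ⟨m0', hm0'1⟩ := (Subgroup.ne_bot_iff_exists_ne_one).1 hMne
  obtain ⟨m0, hm0⟩ := m0'
  have hm01 : m0 ≠ 1 := fun hm => hm0'1 (Subtype.ext hm)
  have hbm0 : b * m0 * b⁻¹ ∈ M := hMn b hbH m0 hm0
  have hbm01 : b * m0 * b⁻¹ ≠ 1 := by
    intro h1
    apply hm01
    calc m0 = b⁻¹ * (b * m0 * b⁻¹) * b := by group
      _ = 1 := by rw [h1]; group
  -- the transvection property
  have hWV : ⁅V, B0⁆ ≤ V := by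
    rw [Subgroup.commutator_le]
    intro v hv c hc
    rw [commutatorElement_def]
    have h1 : c * v⁻¹ * c⁻¹ ∈ V :=
      (Subgroup.mem_normalizer_iff.1 (hHV (hB0H hc)) v⁻¹).1 (V.inv_mem hv)
    have h2 : v * c * v⁻¹ * c⁻¹ = v * (c * v⁻¹ * c⁻¹) := by group
    rw [h2]
    exact V.mul_mem hv h1
  obtain ⟨v₀', hv₀'1⟩ := (Subgroup.ne_bot_iff_exists_ne_one).1 hVB0
  have htrans : ∀ v ∈ V, b * v * b⁻¹ * v⁻¹ = 1 ∨ b * v * b⁻¹ * v⁻¹ = (v₀' : G) := by
    intro v hv
    have hmem : b * v * b⁻¹ * v⁻¹ ∈ ⁅V, B0⁆ := by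
      rw [Subgroup.commutator_comm, ← commutatorElement_def]
      exact Subgroup.commutator_mem_commutator hbB0 hv
    by_cases h1 : b * v * b⁻¹ * v⁻¹ = 1
    · exact Or.inl h1
    · right
      have h2 : (⟨b * v * b⁻¹ * v⁻¹, hmem⟩ : ↥⁅V, B0⁆) = v₀' :=
        ffg_card_two hW2 _ _ (fun hh => h1 (congrArg Subtype.val hh)) hv₀'1
      exact congrArg Subtype.val h2
  refine ⟨b, M, hB0A hbB0, hMH, hM3, hMn, ?_, (v₀' : G), hWV v₀'.2, htrans⟩
  -- `b` inverts `M`
  rcases ffg_card_three M hM3 m0 hm0 hm01 _ hbm0 with h1 | h1 | h1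
  · exact absurd h1 hbm01
  · -- `b` centralizes `M`: contradiction
    exfalso
    have hbM : ∀ m ∈ M, b * m = m * b := by
      intro m hm
      have hbm0' : b * m0 = m0 * b := by
        calc b * m0 = (b * m0 * b⁻¹) * b := by group
          _ = m0 * b := by rw [h1]
      rcases ffg_card_three M hM3 m0 hm0 hm01 m hm with h2 | h2 | h2
      · rw [h2, mul_one, one_mul]
      · rw [h2]; exact hbm0'
      · rw [h2]
        calc b * m0⁻¹ = m0⁻¹ * (m0 * b) * m0⁻¹ := by group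
          _ = m0⁻¹ * (b * m0) * m0⁻¹ := by rw [hbm0']
          _ = m0⁻¹ * b := by group
    have hcent : ∀ x ∈ H, x * b = b * x := by
      intro x hx
      have hc : x * b * x⁻¹ * b⁻¹ ∈ M := hMc x hx b hbB0
      set c := x * b * x⁻¹ * b⁻¹ with hcdef
      have hcb : b * c = c * b := hbM c hc
      have hu : x * b * x⁻¹ = c * b := by rw [hcdef]; group
      have huu : (c * b) * (c * b) = 1 := by
        rw [← hu]
        calc x * b * x⁻¹ * (x * b * x⁻¹) = x * (b * b) * x⁻¹ := by group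
          _ = 1 := by rw [hbb]; group
      have hcc : c * c = 1 := by
        calc c * c = c * c * (b * b) := by rw [hbb, mul_one]
          _ = c * (c * b) * b := by group
          _ = c * (b * c) * b := by rw [hcb]
          _ = (c * b) * (c * b) := by group
          _ = 1 := huu
      have hc3 : c ^ 3 = 1 := by
        have h3 : (⟨c, hc⟩ : ↥M) ^ 3 = 1 := by
          rw [← hM3]; exact pow_card_eq_one'
        have h4 := congrArg Subtype.val h3
        simpa using h4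
      have hc1 : c = 1 := by
        calc c = c ^ 3 * (c * c)⁻¹ := by group
          _ = 1 := by rw [hc3, hcc]; group
      calc x * b = (x * b * x⁻¹ * b⁻¹) * b * x := by group
        _ = b * x := by rw [← hcdef, hc1, one_mul]
    have hbc : (⟨b, hbH⟩ : ↥H) ∈ Subgroup.centralizer (Cfsg.pPrimeCore 2 ↥H : Set ↥H) := by
      rw [Subgroup.mem_centralizer_iff]
      intro x _
      apply Subtype.ext
      exact hcent x.1 x.2
    have hbN := hS1 hbc
    have hcop := Cfsg.Agent.Lib.Helper41.card_pPrimeCore_coprime (G := ↥H) 2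
    have hord : orderOf (⟨⟨b, hbH⟩, hbN⟩ : ↥(Cfsg.pPrimeCore 2 ↥H)) = 2 := by
      apply orderOf_eq_prime
      · apply Subtype.ext
        apply Subtype.ext
        show b ^ 2 = 1
        rw [sq]; exact hbb
      · intro hh
        exact hb1 (congrArg Subtype.val (congrArg Subtype.val hh))
    have hdvd : 2 ∣ Nat.card ↥(Cfsg.pPrimeCore 2 ↥H) := by
      have h5 := orderOf_dvd_natCard (⟨⟨b, hbH⟩, hbN⟩ : ↥(Cfsg.pPrimeCore 2 ↥H))
      rw [hord] at h5
      exact h5
    have h21 : 2 = 1 := Nat.Coprime.eq_one_of_dvd hcop.symm hdvd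
    omega
  · -- `b m0 b⁻¹ = m0⁻¹`
    intro m hm
    rcases ffg_card_three M hM3 m0 hm0 hm01 m hm with h2 | h2 | h2
    · rw [h2, mul_one, mul_inv_cancel, inv_one]
    · rw [h2]; exact h1
    · rw [h2, inv_inv]
      calc b * m0⁻¹ * b⁻¹ = (b * m0 * b⁻¹)⁻¹ := by group
        _ = m0 := by rw [h1, inv_inv]

end Cfsg.Agent.Lib.Helper83.JE
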