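import Mathlib
import Cfsg.Prelude.Def_Solvable
import Cfsg.Prelude.Def_Local
import Cfsg.Agent.Lib.Helper18.TLDefs

/-!
# S3797 piece TL-PLX1 (project of helper18; proof by helper83)
-/

set_option autoImplicit false
set_option linter.style.haveILetI false
set_option linter.unusedVariables false

namespace Cfsg.Agent.Lib.Helper18.TL

open Subgroup
open scoped commutatorElement

universe u

variable {G : Type u} [Group G]

theorem pl_quot [Finite G] (N : Subgroup G) [N.Normal] (hN : Odd (Nat.card N))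
    (h : PL (⊤ : Subgroup (G ⧸ N))) : PL (⊤ : Subgroup G) := by
  apply Cfsg.Agent.Lib.Helper72.ZG.PL1_of_quot_pprime (M := N) (K := ⊤) le_top
    (Nat.coprime_two_right.2 hN)
  rw [Subgroup.map_top_of_surjective _ (QuotientGroup.mk'_surjective N)]
  exact h

theorem pl_subtype (H : Subgroup G) (h : PL (⊤ : Subgroup ↥H)) : PL H := by
  obtain ⟨A, B, hAB, hBK, hKA, hKB, hA, hB, hK⟩ := h
  have hnorm : ∀ X : Subgroup ↥H, (⊤ : Subgroup ↥H) ≤ normalizer (X : Set ↥H) →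
      H ≤ normalizer ((X.map H.subtype : Subgroup G) : Set G) := by
    intro X hX g hg
    have hgX := hX (mem_top (⟨g, hg⟩ : ↥H))
    rw [mem_normalizer_iff] at hgX ⊢
    intro x
    constructor
    · rintro ⟨a, ha, rfl⟩
      exact ⟨⟨g, hg⟩ * a * ⟨g, hg⟩⁻¹, (hgX a).1 ha, rfl⟩
    · rintro ⟨b, hb, hbx⟩
      have hxH : x ∈ H := by
        have h1 : x = g⁻¹ * (g * x * g⁻¹) * g := by group
        rw [h1, ← hbx]
        exact H.mul_mem (H.mul_mem (H.inv_mem hg) b.2) hg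
      refine ⟨⟨x, hxH⟩, (hgX ⟨x, hxH⟩).2 ?_, rfl⟩
      have h2 : (⟨g, hg⟩ : ↥H) * ⟨x, hxH⟩ * (⟨g, hg⟩ : ↥H)⁻¹ = b := by
        apply Subtype.ext
        exact hbx.symm
      rw [h2]
      exact hb
  refine ⟨A.map H.subtype, B.map H.subtype, Subgroup.map_mono hAB, ?_, hnorm A hKA, hnorm B hKB,
    ?_, ?_, ?_⟩
  · rintro _ ⟨b, -, rfl⟩
    exact b.2
  · rintro _ ⟨a, ha, rfl⟩
    obtain ⟨m, hm, ham⟩ := hA a ha
    refine ⟨m, hm, ?_⟩
    have := congrArg (H.subtype) ham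
    simpa using this
  · rintro _ ⟨b, hb, rfl⟩
    obtain ⟨k, hk⟩ := hB b hb
    exact ⟨k, ⟨b ^ (2 ^ k), hk, by simp⟩⟩
  · intro x hx
    obtain ⟨m, hm, hxm⟩ := hK ⟨x, hx⟩ (mem_top _)
    exact ⟨m, hm, ⟨⟨x, hx⟩ ^ m, hxm, by simp⟩⟩

end Cfsg.Agent.Lib.Helper18.TL
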