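import Mathlib
import Cfsg.Agent.Lib.Helper44.UDDefs

/-!
# S5655 piece UD-ONB (project of helper44; proof by helper83)

A nondegenerate subspace of the standard hermitian space has an orthonormal basis.
-/

set_option autoImplicit false
set_option linter.style.haveILetI false
set_option linter.unusedVariables false

namespace Cfsg.Agent.Lib.Helper44.UD

open Matrix Cfsg.Agent.Lib.Helper93 Cfsg.Agent.Lib.Helper18 Cfsg.Agent.Lib.Helper7

theorem ud_onb {F : Type*} [Field F] [Fintype F] (q : ℕ) : OnbStmt F q := by
  intro hF n k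
  induction k with
  | zero =>
    intro W _ _
    exact ⟨fun i => i.elim0, fun i => i.elim0, fun i => i.elim0⟩
  | succ k ih =>
    intro W hW hk
    classical
    have hWne : W ≠ ⊥ := by
      intro h0
      rw [h0, finrank_bot] at hk
      omega
    obtain ⟨w, hwW, hw0⟩ := Submodule.exists_mem_ne_zero_of_ne_bot hWne
    obtain ⟨⟨x, hxW, hxw⟩, -⟩ := hW w hwW hw0
    -- (1) a non-isotropic vector
    have h1 : ∃ v ∈ W, Cfsg.hermForm n F q v v ≠ 0 := by
      by_contra hcon
      have hall : ∀ v ∈ W, Cfsg.hermForm n F q v v = 0 := by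
        intro v hv
        by_contra h
        exact hcon ⟨v, hv, h⟩
      have key : ∀ l : F, l ^ q * Cfsg.hermForm n F q x w +
          l * (Cfsg.hermForm n F q x w) ^ q = 0 := by
        intro l
        have h2 := hall (x + l • w) (W.add_mem hxW (W.smul_mem l hwW))
        rw [hf_add_left, hf_smul_left, hf_add_right hF, hf_add_right hF, hf_smul_right,
          hf_smul_right, hall x hxW, hall w hwW, hf_conj hF n x w] at h2
        linear_combination h2
      obtain ⟨ξ, hξ⟩ := exists_not_fixed hF
      have k1 := key 1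
      have kξ := key ξ
      rw [one_pow, one_mul, one_mul] at k1
      have hcq : (Cfsg.hermForm n F q x w) ^ q = - Cfsg.hermForm n F q x w := by
        linear_combination k1
      rw [hcq] at kξ
      have h3 : (ξ ^ q - ξ) * Cfsg.hermForm n F q x w = 0 := by linear_combination kξ
      rcases mul_eq_zero.1 h3 with h | h
      · exact hξ (sub_eq_zero.1 h)
      · exact hxw h
    obtain ⟨v, hvW, hv⟩ := h1
    -- (2) normalise
    have hdq : (Cfsg.hermForm n F q v v) ^ q = Cfsg.hermForm n F q v v := (hf_conj hF n v v).symm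
    obtain ⟨t, ht0, ht⟩ := herm_norm_surj hF _ hv hdq
    obtain ⟨b0, hb0⟩ : ∃ b0 : Fin n → F, b0 = t⁻¹ • v := ⟨_, rfl⟩
    have hb0W : b0 ∈ W := by rw [hb0]; exact W.smul_mem _ hvW
    have hb0n : Cfsg.hermForm n F q b0 b0 = 1 := by
      rw [hb0, hf_smul_left, hf_smul_right, ← ht, inv_pow, pow_succ]
      field_simp
    -- (3) the orthogonal complement of `b0` in `W`
    let φ : (Fin n → F) →ₗ[F] F :=
      { toFun := fun y => Cfsg.hermForm n F q y b0
        map_add' := fun y z => hf_add_left n y z b0
        map_smul' := fun a y => by simpa using hf_smul_left n a y b0 }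
    have hφ : ∀ y, φ y = Cfsg.hermForm n F q y b0 := fun y => rfl
    obtain ⟨W', hW'def⟩ : ∃ W' : Submodule F (Fin n → F), W' = W ⊓ LinearMap.ker φ := ⟨_, rfl⟩
    have hW'mem : ∀ y, y ∈ W' ↔ y ∈ W ∧ Cfsg.hermForm n F q y b0 = 0 := by
      intro y
      rw [hW'def, Submodule.mem_inf, LinearMap.mem_ker, hφ]
    have hproj : ∀ y ∈ W, y - Cfsg.hermForm n F q y b0 • b0 ∈ W' := by
      intro y hy
      rw [hW'mem]
      refine ⟨W.sub_mem hy (W.smul_mem _ hb0W), ?_⟩
      rw [hf_sub_left, hf_smul_left, hb0n, mul_one, sub_self]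
    -- (4) its dimension
    have hfin : Module.finrank F W' = k := by
      have hsup : W' ⊔ Submodule.span F {b0} = W := by
        apply le_antisymm
        · apply sup_le
          · rw [hW'def]; exact inf_le_left
          · rw [Submodule.span_singleton_le_iff_mem]; exact hb0W
        · intro y hy
          have h5 : y = (y - Cfsg.hermForm n F q y b0 • b0) + Cfsg.hermForm n F q y b0 • b0 :=
            (sub_add_cancel _ _).symm
          rw [h5]
          exact Submodule.add_mem _ (Submodule.mem_sup_left (hproj y hy))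
            (Submodule.mem_sup_right
              (Submodule.smul_mem _ _ (Submodule.mem_span_singleton_self b0)))
      have hinf : W' ⊓ Submodule.span F {b0} = ⊥ := by
        rw [eq_bot_iff]
        rintro y ⟨hy1, hy2⟩
        obtain ⟨c, rfl⟩ := Submodule.mem_span_singleton.1 hy2
        have h3 := ((hW'mem _).1 hy1).2
        rw [hf_smul_left, hb0n, mul_one] at h3
        rw [h3, zero_smul]
        exact Submodule.zero_mem _
      have hb0ne : b0 ≠ 0 := by
        intro h0
        rw [h0, hf_zero_left] at hb0n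
        exact zero_ne_one hb0n
      have h4 := Submodule.finrank_sup_add_finrank_inf_eq W' (Submodule.span F {b0})
      rw [hsup, hinf, finrank_bot, hk, finrank_span_singleton hb0ne] at h4
      omega
    -- (5) it is nondegenerate
    have hW'nd : Cfsg.Geo.IsNondegenerateOn (Cfsg.hermForm n F q) W' := by
      intro w' hw' hw'0
      obtain ⟨hw'W, hw'b⟩ := (hW'mem w').1 hw'
      have hb0w' : Cfsg.hermForm n F q b0 w' = 0 := hf_eq_zero_symm hF n _ _ hw'b
      obtain ⟨⟨y, hyW, hy⟩, ⟨z, hzW, hz⟩⟩ := hW w' hw'W hw'0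
      refine ⟨⟨_, hproj y hyW, ?_⟩, ⟨_, hproj z hzW, ?_⟩⟩
      · rw [hf_sub_left, hf_smul_left, hb0w', mul_zero, sub_zero]
        exact hy
      · rw [sub_eq_add_neg, ← neg_smul, hf_add_right hF, hf_smul_right, hw'b, mul_zero,
          add_zero]
        exact hz
    -- (6) induction
    obtain ⟨b', hb'fr, hb'W⟩ := ih W' hW'nd hfin
    refine ⟨Fin.cons b0 b', ?_, ?_⟩
    · rw [isFr_cons hF]
      refine ⟨hb'fr, fun i => ?_, hb0n⟩
      exact hf_eq_zero_symm hF n _ _ ((hW'mem _).1 (hb'W i)).2
    · intro i
      cases i using Fin.cases with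
      | zero => simpa using hb0W
      | succ i => simpa using ((hW'mem _).1 (hb'W i)).1

end Cfsg.Agent.Lib.Helper44.UD
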